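import Mathlib
import Cfsg.Agent.H28.JkDefs
import Cfsg.Agent.H14.Thompson

set_option autoImplicit false
set_option linter.style.haveILetI false
set_option linter.unusedVariables false

/-!
# JK-FIX (helper28's sub-project JZ-KILL of S2951 / S2952): `C_V(S) ∩ C_V(K) = 1` when
`|Ω₁Z(S)| = 2`

`v ∈ V` has `v ^ 2 = 1`; if `v` centralizes the Sylow 2-subgroup `S` of `G` then `v ∈ S`
(maximality), so `v ∈ Ω₁Z(S) = {1, v}`; if also `v ∈ C(K)` and `v ≠ 1`, then
`K ≤ C_G(Ω₁Z(S)) ≤ N_G(S) ≤ N_G(J(S)) ≤ M`, but `K ⊄ M`.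
-/

namespace Cfsg.Agent.H65.Jk

open Cfsg Cfsg.Agent.H64.Jz Cfsg.Agent.H28.Jk

universe u

theorem omegaCenterOf_sq {G : Type u} [Group G] (X : Subgroup G) :
    ∀ v ∈ omegaCenterOf X, v ∈ X ⊓ Subgroup.centralizer (X : Set G) ∧ v ^ 2 = 1 := by
  intro v hv
  unfold omegaCenterOf omegaOne at hv
  induction hv using Subgroup.closure_induction with
  | mem x hx => exact hx
  | one => exact ⟨one_mem _, one_pow 2⟩
  | mul a b _ _ ha hb =>
    refine ⟨mul_mem ha.1 hb.1, ?_⟩
    have hc : Commute a b := ((Subgroup.mem_centralizer_iff.mp ha.1.2) b hb.1.1).symm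
    rw [hc.mul_pow, ha.2, hb.2, one_mul]
  | inv a _ ha => exact ⟨inv_mem ha.1, by rw [inv_pow, ha.2, inv_one]⟩

theorem mem_omegaCenterOf {G : Type u} [Group G] (X : Subgroup G) (v : G) (h1 : v ∈ X)
    (h2 : v ∈ Subgroup.centralizer (X : Set G)) (h3 : v ^ 2 = 1) : v ∈ omegaCenterOf X := by
  unfold omegaCenterOf omegaOne
  exact Subgroup.subset_closure ⟨⟨h1, h2⟩, h3⟩

theorem map_conj_of_normalizer {G : Type u} [Group G] (J : Subgroup G) (x : G)
    (hx : x ∈ Subgroup.normalizer (J : Set G)) : J.map (MulAut.conj x).toMonoidHom = J := by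
  rw [Subgroup.mem_normalizer_iff] at hx
  ext y
  constructor
  · rintro ⟨j, hj, rfl⟩
    exact (hx j).mp hj
  · intro hy
    refine ⟨x⁻¹ * y * x, ?_, ?_⟩
    · apply (hx _).mpr
      have e : x * (x⁻¹ * y * x) * x⁻¹ = y := by group
      rw [e]; exact hy
    · show x * (x⁻¹ * y * x) * x⁻¹ = y
      group

theorem normalizer_of_map_conj {G : Type u} [Group G] (J : Subgroup G) (x : G)
    (hx : J.map (MulAut.conj x).toMonoidHom = J) : x ∈ Subgroup.normalizer (J : Set G) := by
  rw [Subgroup.mem_normalizer_iff]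
  intro h
  constructor
  · intro hh
    rw [← hx]
    exact ⟨h, hh, rfl⟩
  · intro hh
    rw [← hx] at hh
    obtain ⟨j, hj, hje⟩ := hh
    have e : j = h := by
      have h2 : x * j * x⁻¹ = x * h * x⁻¹ := hje
      exact mul_left_cancel (mul_right_cancel h2)
    rw [← e]; exact hj

theorem kfix : StKFix.{u} := by
  intro G _ _ S M K L hB hZ2 v hv hvS hvK
  obtain ⟨hZN, hO, hM2, hNJ, hT, hTS, hKout, hLmax, hKL⟩ := hB
  by_contra hv1
  have hv2 : v ^ 2 = 1 := (omegaCenterOf_sq _ v hv).2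
  -- `v ∈ S`
  have hvS' : v ∈ (S : Subgroup G) := by
    have hzp : IsPGroup 2 ↥(Subgroup.zpowers v) := by
      intro g
      refine ⟨1, ?_⟩
      obtain ⟨g, hg⟩ := g
      obtain ⟨k, rfl⟩ := Subgroup.mem_zpowers_iff.mp hg
      apply Subtype.ext
      show (v ^ k) ^ 2 ^ 1 = 1
      rw [pow_one, ← zpow_natCast, ← zpow_mul, mul_comm, zpow_mul, zpow_natCast, hv2, one_zpow]
    have hnorm : Subgroup.zpowers v ≤ Subgroup.normalizer ((S : Subgroup G) : Set G) := by
      rw [Subgroup.zpowers_le, Subgroup.mem_normalizer_iff]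
      intro h
      constructor
      · intro hh
        have h1 := (Subgroup.mem_centralizer_iff.mp hvS) h hh
        rw [← h1, mul_inv_cancel_right]; exact hh
      · intro hh
        have h1 := (Subgroup.mem_centralizer_iff.mp hvS) _ hh
        have h2 : v * h * v⁻¹ = h := by
          have h3 : v * h = v * (v * h * v⁻¹) := by rw [← h1]; group
          exact (mul_left_cancel h3).symm
        rw [← h2]; exact hh
    have hP := IsPGroup.to_sup_of_normal_right' hzp S.isPGroup' hnorm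
    have hle : (S : Subgroup G) ≤ Subgroup.zpowers v ⊔ (S : Subgroup G) := le_sup_right
    have heq := S.is_maximal' hP hle
    rw [← heq]
    exact Subgroup.mem_sup_left (Subgroup.mem_zpowers v)
  have hvZ : v ∈ omegaCenterOf (S : Subgroup G) := mem_omegaCenterOf _ v hvS' hvS hv2
  -- `Ω₁Z(S) = {1, v}`
  have hZel : ∀ z ∈ omegaCenterOf (S : Subgroup G), z = 1 ∨ z = v := by
    intro z hz
    by_contra hcon
    push Not at hcon
    obtain ⟨y, hy, hyu⟩ := (Nat.card_eq_two_iff' (1 : ↥(omegaCenterOf (S : Subgroup G)))).mp hZ2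
    have e1 := hyu ⟨z, hz⟩ (by intro h; exact hcon.1 (congrArg Subtype.val h))
    have e2 := hyu ⟨v, hvZ⟩ (by intro h; exact hv1 (congrArg Subtype.val h))
    exact hcon.2 (congrArg Subtype.val (e1.trans e2.symm))
  -- `K ≤ C(Ω₁Z(S)) ≤ N(S)`
  have hKN : K ≤ Subgroup.normalizer ((S : Subgroup G) : Set G) := by
    intro k hk
    apply hZN.2.2 S
    rw [Subgroup.mem_centralizer_iff]
    intro z hz
    rcases hZel z hz with rfl | rfl
    · rw [one_mul, mul_one]
    · exact ((Subgroup.mem_centralizer_iff.mp hvK) k hk).symm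
  -- `N(S) ≤ N(J(S)) ≤ M`
  have hKM : K ≤ M := by
    intro k hk
    apply hNJ
    have h1 : (S : Subgroup G).map (MulAut.conj k).toMonoidHom = (S : Subgroup G) :=
      map_conj_of_normalizer _ k (hKN hk)
    have h2 := Cfsg.Agent.H14.thompsonSubgroupOf_conj 2 k (S : Subgroup G)
    rw [h1] at h2
    exact normalizer_of_map_conj _ k h2
  exact hKout.2.1 hKM

end Cfsg.Agent.H65.Jk

universe u in
example : Cfsg.Agent.H28.Jk.StKFix.{u} := Cfsg.Agent.H65.Jk.kfix
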