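import Mathlib

namespace Cfsg.Agent.H65.QVand

/-- q-number as a complex number -/
noncomputable def qn (q k : ℕ) : ℂ := ((∑ l ∈ Finset.range k, q ^ l : ℕ) : ℂ)

/-- q-factorial as a complex number -/
noncomputable def qfact (q m : ℕ) : ℂ := ∏ j ∈ Finset.range m, qn q (j + 1)

theorem qn_sub (q k m : ℕ) (h : k ≤ m) : (q : ℂ) ^ k * qn q (m - k) = qn q m - qn q k := by
  unfold qn
  have h1 : (∑ l ∈ Finset.range m, q ^ l : ℕ) = (∑ l ∈ Finset.range k, q ^ l) + q ^ k * ∑ l ∈ Finset.range (m - k), q ^ l := by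
    conv_lhs => rw [show m = k + (m - k) by omega]
    rw [Finset.sum_range_add, Finset.mul_sum]
    congr 1
    apply Finset.sum_congr rfl
    intro x _
    rw [pow_add]
  rw [h1]
  push_cast
  ring

theorem qfact_succ (q m : ℕ) : qfact q (m + 1) = qfact q m * qn q (m + 1) := by
  unfold qfact
  rw [Finset.prod_range_succ]

theorem qfact_split (q lam j : ℕ) (h : j ≤ lam) :
    qfact q lam = qfact q (lam - j) * ∏ k ∈ Finset.range j, qn q (lam - k) := by
  induction j with
  | zero => simp
  | succ j ih =>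
    rw [Finset.prod_range_succ, ih (by omega)]
    have : lam - j = (lam - (j + 1)) + 1 := by omega
    rw [this, qfact_succ, ← this]
    ring

/-- the "falling factorial" polynomial evaluated -/
noncomputable def P (q j : ℕ) (y : ℂ) : ℂ := ∏ k ∈ Finset.range j, (y - qn q k)

theorem P_eq (q lam j : ℕ) (h : j ≤ lam) :
    (q : ℂ) ^ (∑ k ∈ Finset.range j, k) * ∏ k ∈ Finset.range j, qn q (lam - k) = P q j (qn q lam) := by
  unfold P
  rw [← Finset.prod_pow_eq_pow_sum, ← Finset.prod_mul_distrib]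
  apply Finset.prod_congr rfl
  intro k hk
  exact qn_sub q k lam (by have := Finset.mem_range.mp hk; omega)

theorem P_eq_zero (q lam j : ℕ) (h : lam < j) : P q j (qn q lam) = 0 := by
  unfold P
  exact Finset.prod_eq_zero (Finset.mem_range.mpr h) (sub_self _)

open Polynomial in
/-- the polynomial -/
noncomputable def pol (q j : ℕ) : Polynomial ℂ := ∏ k ∈ Finset.range j, (X - C (qn q k))

open Polynomial in
theorem pol_eval (q j : ℕ) (y : ℂ) : (pol q j).eval y = P q j y := by
  unfold pol P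
  rw [Polynomial.eval_prod]
  simp

open Polynomial in
theorem pol_monic (q j : ℕ) : (pol q j).Monic := by
  unfold pol
  exact Polynomial.monic_prod_of_monic _ _ (fun k _ => Polynomial.monic_X_sub_C _)

open Polynomial in
theorem pol_natDegree (q j : ℕ) : (pol q j).natDegree = j := by
  unfold pol
  rw [Polynomial.natDegree_prod_of_monic _ _ (fun k _ => Polynomial.monic_X_sub_C _)]
  simp

theorem det_P (q n : ℕ) (x : Fin n → ℂ) :
    ∑ κ : Equiv.Perm (Fin n), ((Equiv.Perm.sign κ : ℤ) : ℂ) * ∏ i : Fin n, P q (κ i).val (x i) =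
      ∏ i : Fin n, ∏ j ∈ Finset.Ioi i, (x j - x i) := by
  rw [← Matrix.det_vandermonde,
    Matrix.det_eval_matrixOfPolynomials_eq_det_vandermonde x (fun j : Fin n => pol q j.val)
      (fun j => pol_natDegree q j.val) (fun j => pol_monic q j.val), ← Matrix.det_transpose, Matrix.det_apply']
  apply Finset.sum_congr rfl
  intro κ _
  congr 1
  apply Finset.prod_congr rfl
  intro i _
  simp [pol_eval]

theorem sum_tri (n : ℕ) : ∑ i ∈ Finset.range n, ∑ k ∈ Finset.range i, k = n * (n - 1) * (n - 2) / 6 := by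
  have h : ∀ n : ℕ, 6 * ∑ i ∈ Finset.range n, ∑ k ∈ Finset.range i, k = n * (n - 1) * (n - 2) := by
    intro n
    induction n with
    | zero => simp
    | succ n ih =>
      rw [Finset.sum_range_succ, mul_add, ih]
      have h2 := Finset.sum_range_id_mul_two n
      rcases n with _ | _ | n
      · simp
      · simp
      · simp only [Nat.add_sub_cancel] at *
        have : (n + 1 + 1) * (n + 1) * (n + 1 + 1 - 2) + 6 * ∑ k ∈ Finset.range (n + 1 + 1), k =
            (n + 1 + 1) * (n + 1) * n + 3 * ((∑ k ∈ Finset.range (n + 1 + 1), k) * 2) := by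
          have : n + 1 + 1 - 2 = n := by omega
          rw [this]; ring
        rw [this, h2]
        have : n + 1 + 1 + 1 - 2 = n + 1 := by omega
        rw [this]
        ring
  rw [← h n, Nat.mul_div_cancel_left _ (by norm_num : 0 < 6)]

theorem core (q n : ℕ) (ν : Fin n → ℕ) (hsum : ∑ i, ν i = n)
    (idx : (Fin n → ℕ) → ℕ)
    (hidx : ∀ μ : Fin n → ℕ, ∑ i, μ i = n →
      idx μ * ∏ i : Fin n, ∏ j ∈ Finset.range (μ i), ∑ l ∈ Finset.range (j + 1), q ^ l =
        ∏ j ∈ Finset.range n, ∑ l ∈ Finset.range (j + 1), q ^ l) :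
    (∑ κ : Equiv.Perm (Fin n),
        if ∀ i : Fin n, (κ i).val ≤ ν i + i.val then
          ((Equiv.Perm.sign κ : ℤ) : ℂ) * (idx (fun i => ν i + i.val - (κ i).val) : ℂ)
        else 0) * (q : ℂ) ^ (n * (n - 1) * (n - 2) / 6) *
        ∏ i : Fin n, ∏ j ∈ Finset.range (ν i + i.val), ((∑ l ∈ Finset.range (j + 1), q ^ l : ℕ) : ℂ) =
      (∏ j ∈ Finset.range n, ((∑ l ∈ Finset.range (j + 1), q ^ l : ℕ) : ℂ)) *
        ∏ i : Fin n, ∏ j ∈ Finset.univ.filter (fun j : Fin n => i < j),
          (((∑ l ∈ Finset.range (ν j + j.val), q ^ l : ℕ) : ℂ) - ((∑ l ∈ Finset.range (ν i + i.val), q ^ l : ℕ) : ℂ)) := by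
  -- restate in terms of qn, qfact
  have hidx' : ∀ μ : Fin n → ℕ, ∑ i, μ i = n → (idx μ : ℂ) * ∏ i : Fin n, qfact q (μ i) = qfact q n := by
    intro μ hμ
    have := congrArg (fun k : ℕ => (k : ℂ)) (hidx μ hμ)
    simp only [Nat.cast_mul, Nat.cast_prod] at this
    exact this
  show (∑ κ : Equiv.Perm (Fin n),
        if ∀ i : Fin n, (κ i).val ≤ ν i + i.val then
          ((Equiv.Perm.sign κ : ℤ) : ℂ) * (idx (fun i => ν i + i.val - (κ i).val) : ℂ)
        else 0) * (q : ℂ) ^ (n * (n - 1) * (n - 2) / 6) *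
        ∏ i : Fin n, qfact q (ν i + i.val) =
      qfact q n * ∏ i : Fin n, ∏ j ∈ Finset.univ.filter (fun j : Fin n => i < j),
          (qn q (ν j + j.val) - qn q (ν i + i.val))
  have hC : ∀ κ : Equiv.Perm (Fin n), (q : ℂ) ^ (n * (n - 1) * (n - 2) / 6) =
      ∏ i : Fin n, (q : ℂ) ^ (∑ k ∈ Finset.range (κ i).val, k) := by
    intro κ
    rw [Finset.prod_pow_eq_pow_sum, Equiv.sum_comp κ (fun j : Fin n => ∑ k ∈ Finset.range j.val, k),
      Fin.sum_univ_eq_sum_range (fun i => ∑ k ∈ Finset.range i, k) n, sum_tri]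
  have hterm : ∀ κ : Equiv.Perm (Fin n),
      (if ∀ i : Fin n, (κ i).val ≤ ν i + i.val then
          ((Equiv.Perm.sign κ : ℤ) : ℂ) * (idx (fun i => ν i + i.val - (κ i).val) : ℂ)
        else 0) * (q : ℂ) ^ (n * (n - 1) * (n - 2) / 6) * ∏ i : Fin n, qfact q (ν i + i.val) =
      qfact q n * (((Equiv.Perm.sign κ : ℤ) : ℂ) * ∏ i : Fin n, P q (κ i).val (qn q (ν i + i.val))) := by
    intro κ
    by_cases hadm : ∀ i : Fin n, (κ i).val ≤ ν i + i.val
    · rw [if_pos hadm]
      have hμ : ∑ i : Fin n, (ν i + i.val - (κ i).val) = n := by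
        have h1 : ∑ i : Fin n, (ν i + i.val - (κ i).val) + ∑ i : Fin n, (κ i).val = ∑ i : Fin n, (ν i + i.val) := by
          rw [← Finset.sum_add_distrib]
          apply Finset.sum_congr rfl
          intro i _
          have := hadm i
          omega
        have h2 : ∑ i : Fin n, (κ i).val = ∑ i : Fin n, i.val := Equiv.sum_comp κ (fun j : Fin n => j.val)
        rw [Finset.sum_add_distrib, h2, hsum] at h1
        omega
      have h1 := hidx' _ hμ
      have h2 : ∏ i : Fin n, qfact q (ν i + i.val) =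
          (∏ i : Fin n, qfact q (ν i + i.val - (κ i).val)) *
            ∏ i : Fin n, ∏ k ∈ Finset.range (κ i).val, qn q (ν i + i.val - k) := by
        rw [← Finset.prod_mul_distrib]
        apply Finset.prod_congr rfl
        intro i _
        exact qfact_split q _ _ (hadm i)
      have h3 : (∏ i : Fin n, (q : ℂ) ^ (∑ k ∈ Finset.range (κ i).val, k)) *
          ∏ i : Fin n, ∏ k ∈ Finset.range (κ i).val, qn q (ν i + i.val - k) =
          ∏ i : Fin n, P q (κ i).val (qn q (ν i + i.val)) := by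
        rw [← Finset.prod_mul_distrib]
        apply Finset.prod_congr rfl
        intro i _
        exact P_eq q _ _ (hadm i)
      rw [hC κ, h2, ← h1, ← h3]
      ring
    · rw [if_neg hadm]
      push Not at hadm
      obtain ⟨i, hi⟩ := hadm
      have : ∏ i : Fin n, P q (κ i).val (qn q (ν i + i.val)) = 0 :=
        Finset.prod_eq_zero (Finset.mem_univ i) (P_eq_zero q _ _ hi)
      rw [this]
      ring
  rw [Finset.sum_mul, Finset.sum_mul, Finset.sum_congr rfl (fun κ _ => hterm κ), ← Finset.mul_sum, det_P]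
  congr 1
  apply Finset.prod_congr rfl
  intro i _
  apply Finset.prod_congr
  · ext j
    simp
  · intro j _
    rfl

end Cfsg.Agent.H65.QVand
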