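import Mathlib

/-!
# Arithmetic helpers for the pure-`ℕ` pieces of S5973 (helper65)
-/

set_option autoImplicit false

namespace Cfsg.Agent.H65.Pt

/-- comparison of `h * s` and `h * n`, in a form `omega` can use with `h * s`, `h * n` as atoms -/
theorem mul_cmp (h s n : ℕ) :
    (s = n ∧ h * s = h * n) ∨ (s + 1 = n ∧ h * s + h = h * n) ∨
      (s + 2 ≤ n ∧ h * s + 2 * h ≤ h * n) ∨ (n + 1 ≤ s ∧ h * n + h ≤ h * s) := by
  rcases lt_trichotomy s n with hlt | heq | hgt
  · by_cases h1 : s + 1 = n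
    · right; left
      refine ⟨h1, ?_⟩
      subst h1; ring
    · right; right; left
      have h2 : s + 2 ≤ n := by omega
      refine ⟨h2, ?_⟩
      have := Nat.mul_le_mul_left h h2
      nlinarith [this]
  · left; exact ⟨heq, by rw [heq]⟩
  · right; right; right
    have h2 : n + 1 ≤ s := by omega
    refine ⟨h2, ?_⟩
    have := Nat.mul_le_mul_left h h2
    nlinarith [this]

/-- `h X + p ≤ h Y + q` from linear conditions -/
theorem mul_lin (h X Y p q : ℕ)
    (H : (X + 1 ≤ Y ∧ p ≤ q + h) ∨ (X ≤ Y ∧ p ≤ q) ∨ (X + 2 ≤ Y ∧ p ≤ q + 2 * h)) :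
    h * X + p ≤ h * Y + q := by
  rcases H with ⟨h1, h2⟩ | ⟨h1, h2⟩ | ⟨h1, h2⟩
  · have := Nat.mul_le_mul_left h h1
    nlinarith [this]
  · have := Nat.mul_le_mul_left h h1
    nlinarith [this]
  · have := Nat.mul_le_mul_left h h1
    nlinarith [this]

/-- `[A odd] = A % 2` -/
theorem ite_odd (A : ℕ) : (if Odd A then 1 else 0) = A % 2 := by
  split_ifs with h1
  · rw [Nat.odd_iff] at h1; omega
  · rw [Nat.not_odd_iff] at h1; omega

end Cfsg.Agent.H65.Pt
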