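import Mathlib
import Cfsg.Agent.H49.PtDefs
import Cfsg.Agent.H65.PtArBase

/-!
# S5973 piece AREE (helper65): arithmetic, `i` even, "exists" direction
-/

set_option autoImplicit false
set_option linter.style.haveILetI false
set_option linter.unusedVariables false

namespace Cfsg.Agent.H65.Pt

/-- the final clause for a chosen `A` -/
theorem arEvenEx_clause (h n e a b t A : ℕ) (hb : b < 2 * h)
    (H : ∀ j w : ℕ, (j = 0 ∨ (t < A ∧ t + 2 * j ≤ A + 1)) → w + h * A + A % 2 ≤ h * n + e →
      2 * h * j + w = 2 * h * a + b → False) :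
    ∀ j w : ℕ, j ≤ (if A ≤ t then 0 else (A - t + 1) / 2) →
      w + h * A + (if Odd A then 1 else 0) ≤ h * n + e → 2 * h * j + w ≠ 2 * h * a + b := by
  intro j w hj hw heq
  rw [ite_odd] at hw
  refine H j w ?_ hw heq
  split_ifs at hj with h1
  · left; omega
  · right; omega

/-- core of AREE with `i = 2 h`, `d = h n + e`, `m = 2 h a + b` -/
theorem arEvenEx_core (h n e a b t : ℕ) (hh : 0 < h) (he : e < h) (hb : b < 2 * h)
    (ht : 1 ≤ t) (hm1 : 1 ≤ 2 * h * a + b) (hmd : 2 * h * a + b + 1 ≤ h * n + e)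
    (H1 : ∃ s : ℕ, (s % 2 = 0 ∧ h * n + e < h * s + (2 * h * a + b) ∧ h * s ≤ h * n + e) ∨
      (s % 2 = 1 ∧ h * n + e ≤ h * s + (2 * h * a + b) ∧ h * s + 1 ≤ h * n + e))
    (hneg : ¬ (1 ≤ a ∧ t + 2 * a ≤ n ∧ ((b ≤ h ∧ e = 0 ∧ n % 2 = 1 ∧ t + 2 * a < n) ∨
      (b ≤ e ∧ n % 2 = 0) ∨ (b < e ∧ n % 2 = 1)))) :
    ∃ A : ℕ, 1 ≤ A ∧ (Odd A → h * A + 1 ≤ h * n + e) ∧ (Even A → h * A ≤ h * n + e) ∧
      ∀ j w : ℕ, j ≤ (if A ≤ t then 0 else (A - t + 1) / 2) →
        w + h * A + (if Odd A then 1 else 0) ≤ h * n + e → 2 * h * j + w ≠ 2 * h * a + b := by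
  obtain ⟨s, hs⟩ := H1
  have c1 := mul_cmp h s n
  have hn0 : n = 0 → h * n = 0 := by rintro rfl; simp
  have hn1 : n = 1 → h * n = h := by rintro rfl; simp
  have ha0 : a = 0 → 2 * h * a = 0 := by rintro rfl; simp
  have ha1 : 1 ≤ a → 2 * h ≤ 2 * h * a := fun h1 => Nat.le_mul_of_pos_right _ h1
  by_cases hadm : n % 2 = 0 ∨ 1 ≤ e
  · -- `A = n` is admissible
    have hn : 1 ≤ n := by
      by_contra hcon
      have h0 : n = 0 := by omega
      have := hn0 h0
      omega
    by_cases hfail : (a = 0 ∨ (t < n ∧ t + 2 * a ≤ n + 1)) ∧ b + n % 2 ≤ e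
    · have ha : 1 ≤ a := by
        by_contra hcon
        have h0 : a = 0 := by omega
        have := ha0 h0
        omega
      obtain ⟨A, hA⟩ : ∃ A, A + 1 = n := ⟨n - 1, by omega⟩
      have hAm : h * A + h = h * n := by subst hA; ring
      refine ⟨A, by omega, ?_, ?_, ?_⟩
      · intro hodd; rw [Nat.odd_iff] at hodd; omega
      · intro hev; rw [Nat.even_iff] at hev; omega
      · apply arEvenEx_clause h n e a b t A hb
        intro j w hj hw heq
        have c2 := mul_cmp (2 * h) j a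
        omega
    · refine ⟨n, hn, ?_, ?_, ?_⟩
      · intro hodd; rw [Nat.odd_iff] at hodd; omega
      · intro hev; rw [Nat.even_iff] at hev; omega
      · apply arEvenEx_clause h n e a b t n hb
        intro j w hj hw heq
        have c2 := mul_cmp (2 * h) j a
        omega
  · -- `n` odd and `e = 0`
    have hn : 3 ≤ n := by
      by_contra hcon
      have h0 : n = 1 := by omega
      have := hn1 h0
      have : a = 0 := by
        by_contra hcon2
        have := ha1 (by omega)
        omega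
      have := ha0 this
      omega
    by_cases hfail : (a = 0 ∨ (t + 1 < n ∧ t + 2 * a ≤ n)) ∧ b ≤ h
    · have ha : 1 ≤ a := by
        by_contra hcon
        have h0 : a = 0 := by omega
        have := ha0 h0
        omega
      obtain ⟨A, hA⟩ : ∃ A, A + 2 = n := ⟨n - 2, by omega⟩
      have hAm : h * A + 2 * h = h * n := by subst hA; ring
      refine ⟨A, by omega, ?_, ?_, ?_⟩
      · intro hodd; rw [Nat.odd_iff] at hodd; omega
      · intro hev; rw [Nat.even_iff] at hev; omega
      · apply arEvenEx_clause h n e a b t A hb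
        intro j w hj hw heq
        have c2 := mul_cmp (2 * h) j a
        omega
    · obtain ⟨A, hA⟩ : ∃ A, A + 1 = n := ⟨n - 1, by omega⟩
      have hAm : h * A + h = h * n := by subst hA; ring
      refine ⟨A, by omega, ?_, ?_, ?_⟩
      · intro hodd; rw [Nat.odd_iff] at hodd; omega
      · intro hev; rw [Nat.even_iff] at hev; omega
      · apply arEvenEx_clause h n e a b t A hb
        intro j w hj hw heq
        have c2 := mul_cmp (2 * h) j a
        omega

theorem arEvenEx : Cfsg.Agent.H49.Pt.StArEvenEx := by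
  intro d m i t hi hev ht hm1 hmd H1 hneg
  obtain ⟨h, rfl⟩ : ∃ h, i = 2 * h := by
    obtain ⟨h, hh⟩ := hev
    exact ⟨h, by omega⟩
  have hh : 0 < h := by omega
  have e1 : 2 * h / 2 = h := by omega
  have e2 : (2 * d) / (2 * h) = d / h := Nat.mul_div_mul_left d h (by norm_num)
  have e3 : (2 * d) % (2 * h) = 2 * (d % h) := Nat.mul_mod_mul_left 2 d h
  rw [e1] at H1 ⊢
  rw [e2, e3] at hneg
  simp only [Nat.odd_iff, Nat.even_iff] at hneg
  have hd := Nat.div_add_mod d h
  have he := Nat.mod_lt d hh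
  have hm := Nat.div_add_mod m (2 * h)
  have hb := Nat.mod_lt m (show 0 < 2 * h by omega)
  generalize d / h = n at *
  generalize d % h = e at *
  generalize m / (2 * h) = a at *
  generalize m % (2 * h) = b at *
  subst hd
  subst hm
  have ha1 : 1 ≤ a → 2 * h ≤ 2 * h * a := fun h1 => Nat.le_mul_of_pos_right _ h1
  refine arEvenEx_core h n e a b t hh he hb ht hm1 hmd ?_ (by omega)
  obtain ⟨j0, hj0, hdiv | hmod⟩ := H1
  · obtain ⟨c, hc⟩ := hdiv
    have e4 : h * (2 * c) = 2 * h * c := by ring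
    refine ⟨2 * c, Or.inl ⟨by omega, ?_, ?_⟩⟩
    · rw [e4]; omega
    · rw [e4]; omega
  · have hdm := Nat.div_add_mod (h * n + e - 1 - j0) (2 * h)
    rw [hmod] at hdm
    generalize (h * n + e - 1 - j0) / (2 * h) = c at hdm
    have e4 : h * (2 * c + 1) = 2 * h * c + h := by ring
    refine ⟨2 * c + 1, Or.inr ⟨by omega, ?_, ?_⟩⟩
    · rw [e4]; omega
    · rw [e4]; omega

example : Cfsg.Agent.H49.Pt.StArEvenEx := arEvenEx

end Cfsg.Agent.H65.Pt
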