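import Mathlib
import Cfsg.Agent.H49.PtDefs
import Cfsg.Agent.H65.PtArBase

/-!
# S5973 piece AREF (helper65): arithmetic, `i` even, "fix" direction
-/

set_option autoImplicit false
set_option linter.style.haveILetI false
set_option linter.unusedVariables false

namespace Cfsg.Agent.H65.Pt

/-- core of AREF with `i = 2 h`, `d = h n + e`, `m = 2 h a + b` -/
theorem arEvenFix_core (h n e a b t A : ℕ) (hh : 0 < h) (he : e < h) (hb : b < 2 * h)
    (ht : 1 ≤ t) (htn : t + 2 * a ≤ n)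
    (hcase : (b ≤ h ∧ e = 0 ∧ n % 2 = 1 ∧ t + 2 * a < n) ∨ (b ≤ e ∧ n % 2 = 0) ∨
      (b < e ∧ n % 2 = 1))
    (hadm : h * A + A % 2 ≤ h * n + e) :
    ∃ j w : ℕ, (j = 0 ∨ t + 2 * j ≤ A + 1) ∧ w + h * A + A % 2 ≤ h * n + e ∧
      2 * h * j + w = 2 * h * a + b := by
  have c1 := mul_cmp h A n
  have hAn : A ≤ n := by omega
  have hAn' : A = n → A % 2 ≤ e := by omega
  by_cases hAt : A ≤ t
  · refine ⟨0, 2 * h * a + b, Or.inl rfl, ?_, by ring⟩
    have := mul_lin h (2 * a + A) n (b + A % 2) e (by omega)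
    nlinarith [this]
  · by_cases hja : a ≤ (A + 1 - t) / 2
    · refine ⟨a, b, Or.inr (by omega), ?_, rfl⟩
      have := mul_lin h A n (b + A % 2) e (by omega)
      nlinarith [this]
    · obtain ⟨k, hk⟩ : ∃ k, a = (A + 1 - t) / 2 + k := ⟨a - (A + 1 - t) / 2, by omega⟩
      refine ⟨(A + 1 - t) / 2, 2 * h * k + b, Or.inr (by omega), ?_, by rw [hk]; ring⟩
      have := mul_lin h (2 * k + A) n (b + A % 2) e (by omega)
      nlinarith [this]

theorem arEvenFix : Cfsg.Agent.H49.Pt.StArEvenFix := by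
  intro d m i t A hi hev ht hmd him htn hcase hadm
  obtain ⟨h, rfl⟩ : ∃ h, i = 2 * h := by
    obtain ⟨h, hh⟩ := hev
    exact ⟨h, by omega⟩
  have hh : 0 < h := by omega
  have e1 : 2 * h / 2 = h := by omega
  have e2 : (2 * d) / (2 * h) = d / h := Nat.mul_div_mul_left d h (by norm_num)
  have e3 : (2 * d) % (2 * h) = 2 * (d % h) := Nat.mul_mod_mul_left 2 d h
  rw [e1, ite_odd] at hadm ⊢
  rw [e2, e3] at hcase
  rw [e2] at htn
  simp only [Nat.odd_iff, Nat.even_iff] at hcase
  have hd := Nat.div_add_mod d h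
  have he := Nat.mod_lt d hh
  have hm := Nat.div_add_mod m (2 * h)
  have hb := Nat.mod_lt m (show 0 < 2 * h by omega)
  generalize d / h = n at *
  generalize d % h = e at *
  generalize m / (2 * h) = a at *
  generalize m % (2 * h) = b at *
  subst hd
  subst hm
  exact arEvenFix_core h n e a b t A hh he hb ht htn (by omega) hadm

example : Cfsg.Agent.H49.Pt.StArEvenFix := arEvenFix

end Cfsg.Agent.H65.Pt
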