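import Mathlib
import Cfsg.Agent.H83.AbIdxDefs
import Cfsg.Agent.H82.Irr
import Cfsg.Agent.H4.Chars

/-!
# S4463-BNORM (helper65, for helper83)

An irreducible character `ψ` of `N` vanishing off the normal subgroup `K`: `[N : K] ≤ ψ(1)^2`,
and `[N : K] ∈ {1, 2, 4}` when `ψ(1) = 2`.
-/

set_option autoImplicit false
set_option linter.style.haveILetI false

namespace Cfsg.Agent.H65.AbIdx

open Cfsg Cfsg.Agent.H83.AbIdx

open scoped ComplexConjugate

universe u

theorem bn_irr_norm_le {G : Type*} [Group G] [Finite G] (χ : IrrCharacter G) (g : G) :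
    ‖χ.1 g‖ ≤ (charDegree χ.1 : ℝ) := by
  obtain ⟨n, ρ, -, hχ, -, -, hd⟩ := Cfsg.Agent.H82.irr_rep χ
  rw [hd, ← hχ]
  have := Cfsg.Agent.H4.character_norm_le ρ g
  simpa using this

theorem bn_sq_sum_cases {ι : Type*} [Fintype ι] (m : ι → ℕ) (h1 : 1 ≤ ∑ i, m i)
    (h2 : ∑ i, m i ≤ 2) :
    ∑ i, m i * m i = 1 ∨ ∑ i, m i * m i = 2 ∨ ∑ i, m i * m i = 4 := by
  classical
  by_cases h : ∀ i, m i ≤ 1
  · have : ∑ i, m i * m i = ∑ i, m i := by
      refine Finset.sum_congr rfl fun i _ => ?_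
      rcases Nat.le_one_iff_eq_zero_or_eq_one.mp (h i) with h0 | h0 <;> rw [h0]
    omega
  · push Not at h
    obtain ⟨i0, hi0⟩ := h
    have hsplit := Finset.add_sum_erase Finset.univ m (Finset.mem_univ i0)
    have hsplit2 := Finset.add_sum_erase Finset.univ (fun i => m i * m i) (Finset.mem_univ i0)
    have hm0 : m i0 = 2 := by omega
    have hrest : ∑ i ∈ Finset.univ.erase i0, m i = 0 := by omega
    have hrest2 : ∑ i ∈ Finset.univ.erase i0, m i * m i = 0 := by
      apply Finset.sum_eq_zero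
      intro i hi
      have := (Finset.sum_eq_zero_iff.mp hrest) i hi
      rw [this, Nat.zero_mul]
    right; right
    rw [← hsplit2, hrest2, hm0]

theorem bNorm : StmtBNorm.{u} := by
  intro N _ _ K _ ψ hvan
  classical
  letI : Fintype N := Fintype.ofFinite N
  letI : Fintype K := Fintype.ofFinite K
  set d := charDegree ψ.1 with hd
  -- the sum over `K`
  have hsum : ∑ k : K, ψ.1 k * conj (ψ.1 k) = (Nat.card N : ℂ) := by
    rw [← Cfsg.Agent.H82.irr_norm_sq ψ]
    rw [← Finset.sum_subtype (Finset.univ.filter (· ∈ K)) (by simp)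
      (fun n => ψ.1 n * conj (ψ.1 n))]
    apply Finset.sum_subset (Finset.subset_univ _)
    intro n _ hn
    have hnK : n ∉ K := by simpa using hn
    rw [hvan n hnK, zero_mul]
  have hsumR : ∑ k : K, ‖ψ.1 k‖ ^ 2 = (Nat.card N : ℝ) := by
    have h1 : ∑ k : K, ψ.1 k * conj (ψ.1 k) = ((∑ k : K, ‖ψ.1 k‖ ^ 2 : ℝ) : ℂ) := by
      push_cast
      refine Finset.sum_congr rfl fun k _ => ?_
      rw [Complex.mul_conj']
    rw [h1] at hsum
    exact_mod_cast hsum
  have hcardK : 0 < Nat.card K := Nat.card_pos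
  have hidx : K.index * Nat.card K = Nat.card N := Subgroup.index_mul_card K
  have hle : Nat.card N ≤ Nat.card K * d ^ 2 := by
    have h1 : ∑ k : K, ‖ψ.1 k‖ ^ 2 ≤ ∑ _k : K, (d : ℝ) ^ 2 := by
      refine Finset.sum_le_sum fun k _ => ?_
      have := bn_irr_norm_le ψ (k : N)
      exact pow_le_pow_left₀ (norm_nonneg _) this 2
    rw [hsumR, Finset.sum_const, Finset.card_univ, nsmul_eq_mul, ← Nat.card_eq_fintype_card] at h1
    exact_mod_cast h1
  refine ⟨?_, ?_⟩
  · rw [← hidx, mul_comm] at hle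
    exact Nat.le_of_mul_le_mul_left hle hcardK
  · intro hd2
    set φ : K → ℂ := fun k : K => ψ.1 k with hφ
    have hφc : IsCharacter K φ :=
      Cfsg.Agent.H4.isCharacter_restrict K (Cfsg.Agent.H4.isCharacter_of_isIrrCharacter ψ.2)
    letI := Cfsg.Agent.H4.fintypeIrr K
    obtain ⟨m, hm⟩ := Cfsg.Agent.H4.isCharacter_iff.mp hφc
    have hinner : ∀ θ : IrrCharacter K, classInner φ θ.1 = m θ := by
      intro θ
      rw [hm, Cfsg.Agent.H4.classInner_finsum_irr]
    have hnorm : classInner φ φ = ∑ θ : IrrCharacter K, (m θ : ℂ) * (m θ : ℂ) := by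
      conv_lhs => rw [hm, Cfsg.Agent.H4.finsum_irr_eq_sum, Cfsg.Agent.H4.classInner_sum_right]
      refine Finset.sum_congr rfl fun θ _ => ?_
      rw [Cfsg.Agent.H4.classInner_smul_right, Complex.conj_natCast,
        ← Cfsg.Agent.H4.finsum_irr_eq_sum, ← hm, hinner]
    have hnorm2 : classInner φ φ = (K.index : ℂ) := by
      unfold classInner
      rw [hsum, ← hidx]
      push_cast
      have : (Nat.card K : ℂ) ≠ 0 := by exact_mod_cast hcardK.ne'
      field_simp
    have hindex : K.index = ∑ θ : IrrCharacter K, m θ * m θ := by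
      rw [hnorm2] at hnorm
      exact_mod_cast hnorm
    -- the degree
    have hdeg : ∑ θ : IrrCharacter K, m θ * charDegree θ.1 = 2 := by
      have h1 : φ 1 = (2 : ℂ) := by
        rw [hφ]
        change ψ.1 ((1 : K) : N) = 2
        rw [Subgroup.coe_one, Cfsg.Agent.H82.irr_one_eq_charDegree ψ, ← hd, hd2]
        norm_num
      have h2 : φ 1 = ∑ θ : IrrCharacter K, (m θ : ℂ) * (charDegree θ.1 : ℂ) := by
        conv_lhs => rw [hm, Cfsg.Agent.H4.finsum_irr_eq_sum]
        rw [Finset.sum_apply]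
        refine Finset.sum_congr rfl fun θ _ => ?_
        rw [Pi.smul_apply, smul_eq_mul, Cfsg.Agent.H82.irr_one_eq_charDegree θ]
      rw [h1] at h2
      exact_mod_cast h2.symm
    have hle2 : ∑ θ : IrrCharacter K, m θ ≤ 2 := by
      rw [← hdeg]
      refine Finset.sum_le_sum fun θ _ => ?_
      exact Nat.le_mul_of_pos_right _ (Cfsg.Agent.H82.charDegree_pos θ)
    have hge1 : 1 ≤ ∑ θ : IrrCharacter K, m θ := by
      by_contra hlt
      have h0 : ∑ θ : IrrCharacter K, m θ = 0 := by omega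
      have h0' : ∀ θ : IrrCharacter K, m θ = 0 := fun θ =>
        (Finset.sum_eq_zero_iff.mp h0) θ (Finset.mem_univ θ)
      simp [h0'] at hdeg
    rw [hindex]
    exact bn_sq_sum_cases m hge1 hle2

example : StmtBNorm.{u} := bNorm

end Cfsg.Agent.H65.AbIdx
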