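import Mathlib
import Cfsg.Agent.H83.AbIdxDefs
import Cfsg.Agent.H82.Irr

/-!
# S4463-NONSOLV (helper65, for helper83)

A nonsolvable quotient `G / K` all of whose proper quotients are abelian reduces.
-/

set_option autoImplicit false

namespace Cfsg.Agent.H65.AbIdx

open Cfsg Cfsg.Agent.H83.AbIdx

universe u

theorem nonSolv (hres : StmtRes.{u}) (hl : StmtL1.{u}) (hh : StmtHalf.{u})
    (hs : StmtSmallClass.{u}) (h4 : StmtSolv4.{u}) (hc : StmtCoreFree.{u}) (ha : StmtArith) :
    StmtNonSolv.{u} := by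
  intro G _ _ K _ b hmax hns hb
  -- degrees of the quotient
  have hbq : ∀ χ : IrrCharacter (G ⧸ K), charDegree χ.1 ≤ b := by
    intro χ
    rw [← Cfsg.Agent.H82.charDegree_inflate K χ]
    exact hb _
  -- b ≥ 5
  have hb5 : 5 ≤ b := by
    by_contra hlt
    exact hns (h4 (G ⧸ K) (fun χ => (hbq χ).trans (by omega)))
  -- G/K nontrivial
  have hnt : Nontrivial (G ⧸ K) := by
    by_contra hnn
    rw [not_nontrivial_iff_subsingleton] at hnn
    exact hns (Group.isSolvable_of_comm (fun a b => Subsingleton.elim _ _))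
  obtain ⟨x', hx'1, hx'⟩ := hs (G ⧸ K) b hbq
  obtain ⟨x, rfl⟩ := QuotientGroup.mk_surjective x'
  have hxK : x ∉ K := by
    intro hx
    exact hx'1 ((QuotientGroup.eq_one_iff x).mpr hx)
  set H : Subgroup G := (Subgroup.centralizer ({(x : G ⧸ K)} : Set (G ⧸ K))).comap
    (QuotientGroup.mk' K) with hH
  have hHidx : H.index ≤ b ^ 2 := by
    rw [hH, Subgroup.index_comap_of_surjective _ (QuotientGroup.mk'_surjective K)]
    exact hx'
  have hKH : K ≤ H := by
    intro k hk
    rw [hH, Subgroup.mem_comap]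
    have : (QuotientGroup.mk' K) k = 1 := (QuotientGroup.eq_one_iff k).mpr hk
    rw [this]
    exact one_mem _
  by_cases hall : ∀ ψ : IrrCharacter H, charDegree ψ.1 < b
  · refine ⟨H, b - 1, by omega, fun ψ => ?_, ?_⟩
    · have := hall ψ
      omega
    · calc H.index * (b - 1).factorial ^ 2 ≤ b ^ 2 * (b - 1).factorial ^ 2 :=
            Nat.mul_le_mul_right _ hHidx
        _ ≤ b.factorial ^ 2 := ha.1 b (by omega)
  · push Not at hall
    obtain ⟨ψ, hψ⟩ := hall
    obtain ⟨χ0, hχ0⟩ := hres G H ψ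
    have hψb : charDegree ψ.1 = b := le_antisymm (hχ0.trans (hb χ0)) hψ
    obtain ⟨-, -, hrel⟩ := hl G H ψ (fun χ => by rw [hψb]; exact hb χ)
    rw [hψb] at hrel
    have hcore : H.normalCore = K := by
      apply le_antisymm
      · exact hc G K hmax hns x hxK
      · exact Subgroup.normal_le_normalCore.mpr hKH
    rw [hcore] at hrel
    have hKidx : K.index ≤ b ^ 4 := by
      rw [← Subgroup.relIndex_mul_index hKH]
      calc K.relIndex H * H.index ≤ b ^ 2 * b ^ 2 := Nat.mul_le_mul hrel hHidx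
        _ = b ^ 4 := by ring
    have hnotle : ¬ commutator G ≤ K := by
      intro hle
      have hcomm := Subgroup.Normal.quotient_commutative_iff_commutator_le.mpr hle
      exact hns (Group.isSolvable_of_comm (fun a b => hcomm.is_comm.comm a b))
    refine ⟨K, b / 2, by omega, fun θ => ?_, ?_⟩
    · obtain ⟨χ, hχ⟩ := hh G K hnotle θ
      have := hb χ
      omega
    · calc K.index * (b / 2).factorial ^ 2 ≤ b ^ 4 * (b / 2).factorial ^ 2 :=
            Nat.mul_le_mul_right _ hKidx
        _ ≤ b.factorial ^ 2 := ha.2.2 b hb5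

example (hres : StmtRes.{u}) (hl : StmtL1.{u}) (hh : StmtHalf.{u}) (hs : StmtSmallClass.{u})
    (h4 : StmtSolv4.{u}) (hc : StmtCoreFree.{u}) (ha : StmtArith) : StmtNonSolv.{u} :=
  nonSolv hres hl hh hs h4 hc ha

end Cfsg.Agent.H65.AbIdx
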