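import Mathlib
import Cfsg.Agent.H50.AmDefs
import Cfsg.Agent.H50.FieldAutLang
import Cfsg.Agent.H62.RoD

set_option autoImplicit false
set_option linter.style.haveILetI false
set_option linter.unusedVariables false
set_option linter.unusedSectionVars false

/-!
# AM-SRS (helper50's team project S2262)

`σ`-real matrices for an involution `σ` of a finite field `F`, by restriction of scalars to the
fixed field of `σ` and `Cfsg.Agent.H62.real_order_bound`.
-/

namespace Cfsg.Agent.H65.Am

open Matrix Polynomial Cfsg.Agent.H50.Am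

universe u

section

variable {F : Type u} [Field F] (K : Subfield F) {d : ℕ}

/-- restriction of scalars: a matrix over `F` as a `K`-linear endomorphism of `F ^ d` -/
noncomputable def resEnd : Matrix (Fin d) (Fin d) F →ₐ[K] Module.End K (Fin d → F) where
  toFun A := (Matrix.toLin' A).restrictScalars K
  map_one' := by
    ext v
    simp
  map_mul' A B := by
    ext v
    simp [Matrix.toLin'_mul]
  map_zero' := by
    ext v
    simp
  map_add' A B := by
    ext v
    simp
  commutes' r := by
    ext v i
    simp [Matrix.algebraMap_eq_diagonal, Matrix.mulVec_diagonal, Algebra.smul_def]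

theorem resEnd_injective : Function.Injective (resEnd K (d := d)) := by
  intro A B h
  have h1 : (Matrix.toLin' A).restrictScalars K = (Matrix.toLin' B).restrictScalars K := h
  exact Matrix.toLin'.injective (LinearMap.restrictScalars_injective K h1)

/-- the `K`-linear map `X ↦ c * (σ X)ᵀ * c'` for `σ` fixing `K` -/
noncomputable def twist (σ : F ≃+* F) (hσ : ∀ r : K, σ (r : F) = r)
    (c c' : Matrix (Fin d) (Fin d) F) :
    Matrix (Fin d) (Fin d) F →ₗ[K] Matrix (Fin d) (Fin d) F where
  toFun X := c * (X.map σ)ᵀ * c'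
  map_add' X Y := by
    rw [Matrix.map_add _ (map_add σ), Matrix.transpose_add, Matrix.mul_add, Matrix.add_mul]
  map_smul' r X := by
    have h1 : (r • X).map σ = r • X.map σ := by
      ext i j
      simp [Matrix.map_apply, Matrix.smul_apply, Subfield.smul_def, hσ r]
    rw [h1, Matrix.transpose_smul, Matrix.mul_smul, Matrix.smul_mul]
    rfl

theorem twist_pow (σ : F ≃+* F) (hσ : ∀ r : K, σ (r : F) = r)
    (c c' g : Matrix (Fin d) (Fin d) F) (hc : c * c' = 1) (i : ℕ) :
    twist K σ hσ c c' (g ^ i) = (c * (g.map σ)ᵀ * c') ^ i := by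
  have hc' : c' * c = 1 := (Matrix.mul_eq_one_comm_of_card_eq (Fin d) (Fin d) F rfl).mp hc
  induction i with
  | zero =>
    show c * ((1 : Matrix (Fin d) (Fin d) F).map σ)ᵀ * c' = 1
    rw [Matrix.map_one σ (map_zero σ) (map_one σ), Matrix.transpose_one, Matrix.mul_one, hc]
  | succ i ih =>
    have ih' : c * ((g ^ i).map σ)ᵀ * c' = (c * (g.map σ)ᵀ * c') ^ i := ih
    show c * ((g ^ (i + 1)).map σ)ᵀ * c' = _
    rw [pow_succ (c * (g.map σ)ᵀ * c'), ← ih', pow_succ' g, Matrix.map_mul,
      Matrix.transpose_mul]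
    calc c * (((g ^ i).map σ)ᵀ * (g.map σ)ᵀ) * c'
        = c * ((g ^ i).map σ)ᵀ * 1 * (g.map σ)ᵀ * c' := by
          simp only [Matrix.mul_one, Matrix.mul_assoc]
      _ = c * ((g ^ i).map σ)ᵀ * c' * (c * (g.map σ)ᵀ * c') := by
          rw [← hc']
          simp only [Matrix.mul_assoc]

end

theorem sRS : StSRS.{u} := by
  intro F _ _ σ q₀ d g h hne hinv hcard hreal hd
  classical
  obtain ⟨hgh, c, c', hcc, hh⟩ := hreal
  -- the order of σ
  let σ' : RingAut F := σ
  have hσ2 : σ' ^ 2 = 1 := by
    apply RingEquiv.ext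
    intro x
    rw [pow_two]
    exact hinv x
  have hσ1 : σ' ≠ 1 := by
    intro h1
    obtain ⟨x, hx⟩ := hne
    apply hx
    have := congrArg (fun τ : RingAut F => τ x) h1
    exact this
  haveI : Fact (Nat.Prime 2) := ⟨Nat.prime_two⟩
  have hord : orderOf σ' = 2 := orderOf_eq_prime hσ2 hσ1
  -- the fixed field
  let K : Subfield F := Cfsg.Agent.H50.FieldAut.fixF σ'
  have hKfix : ∀ r : K, σ (r : F) = r := fun r =>
    (Cfsg.Agent.H50.FieldAut.mem_fixF σ' (r : F)).mp r.2
  haveI : Fintype K := Fintype.ofFinite K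
  have hq2 : 2 ≤ q₀ := by
    have h1 : 1 < Fintype.card F := Fintype.one_lt_card
    rw [hcard] at h1
    by_contra hlt
    have : q₀ = 0 ∨ q₀ = 1 := by omega
    rcases this with rfl | rfl <;> simp at h1
  have hKcard : Fintype.card K = q₀ := by
    have h1 := Cfsg.Agent.H50.FieldAut.card_fixF σ' hord
    rw [Nat.card_eq_fintype_card, Nat.card_eq_fintype_card, hcard] at h1
    exact Nat.pow_left_injective (by norm_num : (2 : ℕ) ≠ 0) h1
  -- the dimension
  have hrank : Module.finrank K (Fin d → F) = 2 * d := by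
    have h1 := Module.card_eq_pow_finrank (K := K) (V := Fin d → F)
    rw [Fintype.card_fun, Fintype.card_fin, hcard, hKcard, ← pow_mul] at h1
    exact (Nat.pow_right_injective hq2 h1).symm
  -- the representation
  let b := Module.finBasis K (Fin d → F)
  let ρ : Matrix (Fin d) (Fin d) F →ₐ[K]
      Matrix (Fin (Module.finrank K (Fin d → F))) (Fin (Module.finrank K (Fin d → F))) K :=
    (LinearMap.toMatrixAlgEquiv b).toAlgHom.comp (resEnd K)
  have hρinj : Function.Injective ρ := by
    intro A B hAB
    exact resEnd_injective K ((LinearMap.toMatrixAlgEquiv b).injective hAB)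
  haveI : CharP K (ringChar K) := ringChar.charP K
  haveI : Fact (Nat.Prime (ringChar K)) := ⟨CharP.char_is_prime K (ringChar K)⟩
  have hR : ∀ P : K[X], aeval (ρ g) P = 0 → aeval (ρ h) P = 0 := by
    intro P hP
    rw [Polynomial.aeval_algHom_apply] at hP ⊢
    have hg0 : aeval g P = 0 := hρinj (by rw [hP, map_zero])
    have hh0 : aeval h P = 0 := by
      rw [Polynomial.aeval_eq_sum_range] at hg0 ⊢
      have e : ∀ i, h ^ i = twist K σ hKfix c c' (g ^ i) := by
        intro i
        rw [twist_pow K σ hKfix c c' g hcc i, hh]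
      simp only [e]
      rw [← map_zero (twist K σ hKfix c c'), ← hg0, map_sum]
      refine Finset.sum_congr rfl (fun i _ => ?_)
      rw [map_smul]
    rw [hh0, map_zero]
  have hgh' : ρ g * ρ h = 1 := by rw [← map_mul, hgh, map_one]
  obtain ⟨N, hN1, hN2, hN3⟩ := Cfsg.Agent.H62.real_order_bound (ringChar K) (ρ g) (ρ h) hgh' hR
    (Or.inl ⟨by rw [Fintype.card_fin, hrank]; exact even_two_mul d,
      by rw [Fintype.card_fin, hrank]; omega⟩)
  refine ⟨N, hN1, ?_, ?_⟩
  · rw [Fintype.card_fin, hrank, hKcard] at hN2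
    have e : 2 * d / 2 + 1 = d + 1 := by omega
    rw [e] at hN2
    exact hN2
  · rcases hN3 with h3 | h3
    · left
      apply hρinj
      rw [map_pow, h3, map_one]
    · right
      apply hρinj
      rw [map_pow, h3, map_neg, map_one]

end Cfsg.Agent.H65.Am

universe u in
example : Cfsg.Agent.H50.Am.StSRS.{u} := Cfsg.Agent.H65.Am.sRS
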