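import Mathlib

/-!
# The Baer trick

For a group `G` of nilpotency class at most two in which every element has a unique square root
(e.g. a finite group of odd order), `x + y := x * y * ⁅y, x⁆ ^ k` (with `g ^ (2 * k) = g`) makes
`G` into an abelian group `Baer d` on which every endomorphism of `G` acts additively.
-/

set_option autoImplicit false

namespace Cfsg.Agent.H65

open scoped commutatorElement

/-- Data for the Baer construction: all commutators are central and `g ↦ g ^ k` is a "halving". -/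
structure BaerData (G : Type*) [Group G] where
  k : ℕ
  hk : ∀ g : G, g ^ (2 * k) = g
  hc : ∀ x y z : G, ⁅x, y⁆ * z = z * ⁅x, y⁆

/-- The Baer abelian group attached to `d`: a type synonym of `G`. -/
def Baer {G : Type*} [Group G] (_ : BaerData G) : Type _ := G

namespace BaerData

variable {G : Type*} [Group G]

theorem comm_mul_left (d : BaerData G) (x y z : G) : ⁅x * y, z⁆ = ⁅x, z⁆ * ⁅y, z⁆ := by
  have h1 : ⁅x * y, z⁆ = x * ⁅y, z⁆ * x⁻¹ * ⁅x, z⁆ := by
    simp only [commutatorElement_def]; group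
  rw [h1, ← d.hc y z x, mul_inv_cancel_right, d.hc y z]

theorem comm_mul_right (d : BaerData G) (x y z : G) : ⁅x, y * z⁆ = ⁅x, y⁆ * ⁅x, z⁆ := by
  have h1 : ⁅x, y * z⁆ = ⁅x, y⁆ * (y * ⁅x, z⁆ * y⁻¹) := by
    simp only [commutatorElement_def]; group
  rw [h1, ← d.hc x z y, mul_inv_cancel_right]

theorem pow_central (d : BaerData G) (x y z : G) (n : ℕ) : ⁅x, y⁆ ^ n * z = z * ⁅x, y⁆ ^ n := by
  have h : Commute ⁅x, y⁆ z := d.hc x y z
  exact (h.pow_left n).eq

theorem comm_pow_right (d : BaerData G) (x a b : G) (n : ℕ) : ⁅x, ⁅a, b⁆ ^ n⁆ = 1 := by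
  rw [commutatorElement_def, ← d.pow_central a b x n, mul_inv_cancel_right, mul_inv_cancel]

theorem comm_pow_left (d : BaerData G) (x a b : G) (n : ℕ) : ⁅⁅a, b⁆ ^ n, x⁆ = 1 := by
  rw [commutatorElement_def, d.pow_central a b x n, mul_inv_cancel_right, mul_inv_cancel]

/-- Baer addition. -/
def add (d : BaerData G) (x y : G) : G := x * y * ⁅y, x⁆ ^ d.k

theorem add_comm' (d : BaerData G) (x y : G) : d.add x y = d.add y x := by
  unfold add
  have h1 : x * y = ⁅x, y⁆ * (y * x) := by rw [commutatorElement_def]; group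
  have h2 : ⁅y, x⁆ = ⁅x, y⁆⁻¹ := (commutatorElement_inv x y).symm
  have h3 : ⁅x, y⁆ * (⁅x, y⁆⁻¹) ^ d.k = ⁅x, y⁆ ^ d.k := by
    have h4 := d.hk ⁅x, y⁆
    rw [two_mul, pow_add] at h4
    rw [inv_pow]
    nth_rewrite 1 [← h4]
    rw [mul_inv_cancel_right]
  rw [h1, d.hc x y (y * x), h2, mul_assoc, h3]

theorem add_assoc' (d : BaerData G) (x y z : G) : d.add (d.add x y) z = d.add x (d.add y z) := by
  unfold add
  have e1 : ⁅z, x * y * ⁅y, x⁆ ^ d.k⁆ = ⁅z, x⁆ * ⁅z, y⁆ := by
    rw [d.comm_mul_right, d.comm_mul_right, d.comm_pow_right, mul_one]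
  have e2 : ⁅y * z * ⁅z, y⁆ ^ d.k, x⁆ = ⁅y, x⁆ * ⁅z, x⁆ := by
    rw [d.comm_mul_left, d.comm_mul_left, d.comm_pow_left, mul_one]
  have hzx : Commute ⁅z, x⁆ ⁅z, y⁆ := d.hc z x _
  have hyx : Commute ⁅y, x⁆ ⁅z, x⁆ := d.hc y x _
  rw [e1, e2, hzx.mul_pow, hyx.mul_pow]
  set a := ⁅y, x⁆ ^ d.k with ha
  set b := ⁅z, x⁆ ^ d.k with hb
  set e := ⁅z, y⁆ ^ d.k with he
  have ha' : ∀ g : G, a * g = g * a := fun g => d.pow_central y x g d.k
  have he' : ∀ g : G, e * g = g * e := fun g => d.pow_central z y g d.k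
  calc x * y * a * z * (b * e) = x * y * (a * z) * (b * e) := by simp only [mul_assoc]
    _ = x * y * (z * a) * (b * e) := by rw [ha' z]
    _ = x * y * z * ((a * b) * e) := by simp only [mul_assoc]
    _ = x * y * z * (e * (a * b)) := by rw [he' (a * b)]
    _ = x * (y * z * e) * (a * b) := by simp only [mul_assoc]

theorem add_one (d : BaerData G) (x : G) : d.add x 1 = x := by
  unfold add; simp

theorem one_add (d : BaerData G) (x : G) : d.add 1 x = x := by
  unfold add; simp

theorem inv_add (d : BaerData G) (x : G) : d.add x⁻¹ x = 1 := by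
  unfold add
  have : ⁅x, x⁻¹⁆ = 1 := by rw [commutatorElement_def]; group
  rw [this]; simp

end BaerData

variable {G : Type*} [Group G] (d : BaerData G)

instance : Add (Baer d) := ⟨d.add⟩

instance : Zero (Baer d) := ⟨(1 : G)⟩

instance : Neg (Baer d) := ⟨fun x => Inv.inv (α := G) x⟩

instance : AddCommGroup (Baer d) where
  add_assoc := d.add_assoc'
  zero_add := d.one_add
  add_zero := d.add_one
  nsmul := nsmulRec
  zsmul := zsmulRec
  neg_add_cancel := fun x => d.inv_add x
  add_comm := d.add_comm'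

/-- The identity map `G → Baer d`. -/
def toBaer : G ≃ Baer d := Equiv.refl G

theorem toBaer_add (x y : G) : toBaer d x + toBaer d y = toBaer d (x * y * ⁅y, x⁆ ^ d.k) := rfl

theorem toBaer_one : toBaer d (1 : G) = 0 := rfl

instance [Finite G] : Finite (Baer d) := inferInstanceAs (Finite G)

theorem card_baer : Nat.card (Baer d) = Nat.card G := rfl

/-- A group endomorphism of `G` is additive on `Baer d`. -/
def baerHom (f : G →* G) : Baer d →+ Baer d where
  toFun x := toBaer d (f ((toBaer d).symm x))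
  map_zero' := by
    show toBaer d (f 1) = 0
    rw [map_one]; rfl
  map_add' x y := by
    have key : ∀ a b : G, f (a * b * ⁅b, a⁆ ^ d.k) = f a * f b * ⁅f b, f a⁆ ^ d.k := by
      intro a b
      rw [map_mul, map_mul, map_pow, map_commutatorElement]
    exact congrArg (toBaer d) (key ((toBaer d).symm x) ((toBaer d).symm y))

theorem baerHom_apply (f : G →* G) (x : G) : baerHom d f (toBaer d x) = toBaer d (f x) := rfl

end Cfsg.Agent.H65
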