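import Mathlib
import Cfsg.Agent.H79.BrDefs
import Cfsg.Agent.H4.Irr
import Cfsg.Agent.H4.IrrCount
import Cfsg.Agent.H4.PaQb
import Cfsg.Agent.H82.Irr

/-!
# S4504-CC3 (helper65, for helper79): for `p ≡ 3 (mod 4)` and trivial centre, the class
multiplication constants `N(x₁, x₁, y)`, `N(x₁, x₂, y)` force `-1 ≤ χ y ≤ 1` on the `p`-regular
elements `y ≠ 1`.
-/

set_option autoImplicit false
set_option linter.style.haveILetI false
set_option linter.unusedVariables false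

namespace Cfsg.Agent.H65.Br

open Cfsg Cfsg.Agent.H79.Br
open scoped ComplexConjugate

universe u

/-- The structure of `Irr G` for `p ≡ 3 (mod 4)` and trivial centre: `χ`, its partner `θ'`, the
trivial character, `Tp`, `Tm`, and the characters vanishing at `x₁`, `x₂`. -/
theorem struct3 (hP : Cfsg.Agent.H79.Br.StPair.{u}) {G : Type u} [Group G] [Finite G] (p : ℕ)
    [Fact p.Prime] (P : Subgroup G) (χ : G → ℂ) (x₁ x₂ : G) (hL : Loc p P χ x₁ x₂)
    (hp3 : p % 4 = 3) (hz : ∀ z ∈ Subgroup.center G, χ z = χ 1) :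
    (∀ (χ₀ : G → ℂ) (ψ : IrrCharacter G), ψ ∈ Ov χ₀) ∧
    χ x₂ = conj (χ x₁) ∧ 2 * (χ x₁ * χ x₂) = (charDegree χ : ℂ) + 1 ∧
    χ x₁ * χ x₁ + χ x₂ * χ x₂ = -(charDegree χ : ℂ) ∧ χ x₁ ≠ χ x₂ ∧
    ∃ χi θ' : IrrCharacter G, χi.1 = χ ∧ θ'.1 x₁ = χ x₂ ∧ θ'.1 x₂ = χ x₁ ∧
      charDegree θ'.1 = charDegree χ ∧ (∀ y : G, ¬ p ∣ orderOf y → θ'.1 y = χ y) ∧
      ∀ ψ : IrrCharacter G, ψ ≠ χi → ψ ≠ θ' →
        (ψ.1 x₁ = 0 ∧ ψ.1 x₂ = 0) ∨ (ψ.1 x₁ = 1 ∧ ψ.1 x₂ = 1) ∨ (ψ.1 x₁ = -1 ∧ ψ.1 x₂ = -1) := by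
  classical
  have hdeg := hL.deg
  have hZ : ∀ z ∈ Subgroup.center G, z = 1 := fun z hz' => hL.faith z (hz z hz')
  have hOv : ∀ (χ₀ : G → ℂ) (ψ : IrrCharacter G), ψ ∈ Ov χ₀ := by
    intro χ₀ ψ z hz'
    rw [hZ z hz']
    ring
  obtain ⟨χi, hχi⟩ : ∃ χi : IrrCharacter G, χi.1 = χ := ⟨⟨χ, hL.irr⟩, rfl⟩
  have hsum := hL.sum
  have hsq := hL.sq
  have hconj : χ x₂ = conj (χ x₁) := by
    have h1 := hL.grp.par3 hp3
    obtain ⟨c, hc⟩ := isConj_iff.mp h1
    have h2 := Cfsg.Agent.H82.irr_conj χi x₁⁻¹ c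
    have h3 := Cfsg.Agent.H82.irr_inv χi x₁
    rw [hc, hχi] at h2
    rw [hχi] at h3
    exact h2.trans h3
  have hprod : 2 * (χ x₁ * χ x₂) = (charDegree χ : ℂ) + 1 := by
    have h1 : conj (χ x₂) = χ x₁ := by rw [hconj, Complex.conj_conj]
    rw [h1, ← hconj] at hsq
    linear_combination hsq
  have hsqsum : χ x₁ * χ x₁ + χ x₂ * χ x₂ = -(charDegree χ : ℂ) := by
    linear_combination (χ x₁ + χ x₂ - 1) * hsum - hprod
  have hηne : χ x₁ ≠ χ x₂ := by
    intro h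
    have h1 : 2 * χ x₁ = -1 := by rw [← h] at hsum; linear_combination hsum
    have h2 : 2 * (χ x₁ * χ x₁) = (charDegree χ : ℂ) + 1 := by rw [← h] at hprod; exact hprod
    have h3 : ((2 * charDegree χ + 1 : ℕ) : ℂ) = ((0 : ℕ) : ℂ) := by
      push_cast
      linear_combination (2 * χ x₁ - 1) * h1 - 2 * h2
    have h4 : 2 * charDegree χ + 1 = 0 := by exact_mod_cast h3
    omega
  obtain ⟨ε, θ, θ', hε, -, -, hθ1, hθ2, hθ'1, hθ'2, hdegθ, hθy, hrest, -⟩ :=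
    hP p P χ x₁ x₂ hL χi
  have hχθ : χi = θ ∧ ε = 1 := by
    by_cases h1 : χi = θ
    · refine ⟨h1, ?_⟩
      have e1 : χ x₁ = ε * χ x₁ := by rw [← h1, hχi] at hθ1; exact hθ1
      have e2 : χ x₂ = ε * χ x₂ := by rw [← h1, hχi] at hθ2; exact hθ2
      linear_combination e1 + e2 - (1 - ε) * hsum
    · exfalso
      by_cases h2 : χi = θ'
      · have e1 : χ x₁ = ε * χ x₂ := by rw [← h2, hχi] at hθ'1; exact hθ'1
        have e2 : χ x₂ = ε * χ x₁ := by rw [← h2, hχi] at hθ'2; exact hθ'2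
        rcases hε with h | h
        · rw [h, one_mul] at e1
          exact hηne e1
        · rw [h] at e1
          have h3 : (1 : ℂ) = 0 := by linear_combination hsum - e1
          exact one_ne_zero h3
      · rcases hrest χi (hOv _ χi) h1 h2 with ⟨h3, h4⟩ | ⟨h3, h4⟩ | ⟨h3, h4⟩
        · rw [hχi] at h3 h4
          rw [h3, h4] at hsum
          norm_num at hsum
        · rw [hχi] at h3 h4
          rw [h3, h4] at hsum
          norm_num at hsum
        · rw [hχi] at h3 h4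
          rw [h3, h4] at hsum
          norm_num at hsum
  obtain ⟨hχθ1, hε1⟩ := hχθ
  subst hχθ1
  rw [hε1, one_mul] at hθ'1 hθ'2
  refine ⟨hOv, hconj, hprod, hsqsum, hηne, χi, θ', hχi, hθ'1, hθ'2, ?_, ?_, ?_⟩
  · rw [← hdegθ, hχi]
  · intro y hy
    rw [← hθy y hy, hχi]
  · intro ψ h1 h2
    exact hrest ψ (hOv _ ψ) h1 h2

theorem cc3 (hX : Cfsg.Agent.H79.Br.StProd3.{u}) (hT : Cfsg.Agent.H79.Br.StTwCCP.{u})
    (hP : Cfsg.Agent.H79.Br.StPair.{u}) (hA : Cfsg.Agent.H79.Br.StAbs.{u}) :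
    Cfsg.Agent.H79.Br.StCC3.{u} := by
  intro G _ _ p _ P χ x₁ x₂ hL hp3 hz y hy hy1
  classical
  letI : Fintype (IrrCharacter G) := Cfsg.Agent.H4.fintypeIrr G
  have hp : p.Prime := Fact.out
  have hdeg := hL.deg
  have hfive := hL.five
  have hf2 : 2 ≤ charDegree χ := by omega
  have hsum := hL.sum
  have hZ : ∀ z ∈ Subgroup.center G, z = 1 := fun z hz' => hL.faith z (hz z hz')
  obtain ⟨hOv, hconj, hprod, hsqsum, hηne, χi, θ', hχi, hθ'1, hθ'2, hdegθ', hθ'y, hrest⟩ :=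
    struct3 hP p P χ x₁ x₂ hL hp3 hz
  have hOvU : Ov (1 : G → ℂ) = Set.univ := Set.eq_univ_of_forall (hOv 1)
  obtain ⟨triv, htriv⟩ : ∃ triv : IrrCharacter G, triv.1 = 1 :=
    ⟨⟨fun _ => 1, Cfsg.Agent.H4.isIrrCharacter_one⟩, rfl⟩
  obtain ⟨c1, c2, c3, c4, c5, c6⟩ := hX p P χ x₁ x₂ hL hp3 hz
  have hfC : (charDegree χ : ℂ) ≠ 0 := by
    have : charDegree χ ≠ 0 := by omega
    exact_mod_cast this
  have hpC : (p : ℂ) = 2 * (charDegree χ : ℂ) + 1 := by exact_mod_cast hdeg.symm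
  -- sums over `Tp`, `Tm`
  have hAsum : ∑ ψ : IrrCharacter G, (if ψ ∈ Tp x₁ x₂ (1 : G → ℂ) then ψ.1 y else 0) =
      χ y * conj (χ y) - 1 := by
    have h1 := c1 y
    rw [finsum_mem_def, finsum_eq_sum_of_fintype] at h1
    rw [h1]
    simp only [Set.indicator_apply]
    ring
  have hBsum : ∑ ψ : IrrCharacter G, (if ψ ∈ Tm x₁ x₂ (1 : G → ℂ) then ψ.1 y else 0) =
      χ y * χ y - conj (χ y) := by
    have h1 := c2 y
    rw [finsum_mem_def, finsum_eq_sum_of_fintype] at h1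
    rw [h1]
    simp only [Set.indicator_apply]
    ring
  -- distinctness facts
  have hχi1 : χi.1 x₁ = χ x₁ := by rw [hχi]
  have hχi2 : χi.1 x₂ = χ x₂ := by rw [hχi]
  have sum_χi : χi.1 x₁ + χi.1 x₂ = -1 := by rw [hχi1, hχi2]; exact hsum
  have sum_θ' : θ'.1 x₁ + θ'.1 x₂ = -1 := by rw [hθ'1, hθ'2]; linear_combination hsum
  have hχiθ' : χi ≠ θ' := by
    intro h
    apply hηne
    rw [← hχi1, h, hθ'1]
  have notTp : ∀ ψ : IrrCharacter G, ψ.1 x₁ + ψ.1 x₂ = -1 → ψ ∉ Tp x₁ x₂ (1 : G → ℂ) := by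
    rintro ψ h ⟨-, h1, h2, -⟩
    rw [h1, h2] at h
    norm_num at h
  have notTm : ∀ ψ : IrrCharacter G, ψ.1 x₁ + ψ.1 x₂ = -1 → ψ ∉ Tm x₁ x₂ (1 : G → ℂ) := by
    rintro ψ h ⟨-, h1, h2⟩
    rw [h1, h2] at h
    norm_num at h
  have notTriv : ∀ ψ : IrrCharacter G, ψ.1 x₁ + ψ.1 x₂ = -1 → ψ ≠ triv := by
    rintro ψ h rfl
    rw [htriv] at h
    simp only [Pi.one_apply] at h
    norm_num at h
  have key : ∀ a : IrrCharacter G → ℂ, a triv = 1 →
      (∀ ψ ∈ Tp x₁ x₂ (1 : G → ℂ), a ψ = 1) → (∀ ψ ∈ Tm x₁ x₂ (1 : G → ℂ), a ψ = 1) →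
      (∀ ψ : IrrCharacter G, ψ.1 x₁ = 0 → a ψ = 0) →
      ∑ ψ : IrrCharacter G, a ψ * conj (ψ.1 y) / ψ.1 1 =
        1 + conj (χ y * conj (χ y) - 1) / ((p : ℂ) + 1) +
          conj (χ y * χ y - conj (χ y)) / ((p : ℂ) - 1) +
          a χi * conj (χ y) / (charDegree χ : ℂ) + a θ' * conj (χ y) / (charDegree χ : ℂ) := by
    intro a ha1 hap ham ha0
    have hpt : ∀ ψ : IrrCharacter G, a ψ * conj (ψ.1 y) / ψ.1 1 =
        (if ψ = triv then (1 : ℂ) else 0) +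
        conj (if ψ ∈ Tp x₁ x₂ (1 : G → ℂ) then ψ.1 y else 0) / ((p : ℂ) + 1) +
        conj (if ψ ∈ Tm x₁ x₂ (1 : G → ℂ) then ψ.1 y else 0) / ((p : ℂ) - 1) +
        (if ψ = χi then a χi * conj (χ y) / (charDegree χ : ℂ) else 0) +
        (if ψ = θ' then a θ' * conj (χ y) / (charDegree χ : ℂ) else 0) := by
      intro ψ
      by_cases h1 : ψ = χi
      · rw [if_neg (h1 ▸ notTriv χi sum_χi), if_neg (h1 ▸ notTp χi sum_χi),
          if_neg (h1 ▸ notTm χi sum_χi), if_pos h1, if_neg (h1 ▸ hχiθ'), h1,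
          Cfsg.Agent.H82.irr_one_eq_charDegree χi, hχi]
        simp
      · by_cases h2 : ψ = θ'
        · rw [if_neg (h2 ▸ notTriv θ' sum_θ'), if_neg (h2 ▸ notTp θ' sum_θ'),
            if_neg (h2 ▸ notTm θ' sum_θ'), if_neg h1, if_pos h2, h2,
            Cfsg.Agent.H82.irr_one_eq_charDegree θ', hdegθ', hθ'y y hy]
          simp
        · rw [if_neg h1, if_neg h2]
          rcases hrest ψ h1 h2 with ⟨h3, h4⟩ | ⟨h3, h4⟩ | ⟨h3, h4⟩
          · have n1 : ψ ≠ triv := by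
              rintro rfl
              rw [htriv] at h3
              simp at h3
            have n2 : ψ ∉ Tp x₁ x₂ (1 : G → ℂ) := by
              rintro ⟨-, h5, -, -⟩
              rw [h3] at h5
              norm_num at h5
            have n3 : ψ ∉ Tm x₁ x₂ (1 : G → ℂ) := by
              rintro ⟨-, h5, -⟩
              rw [h3] at h5
              norm_num at h5
            rw [if_neg n1, if_neg n2, if_neg n3, ha0 ψ h3]
            simp
          · have n3 : ψ ∉ Tm x₁ x₂ (1 : G → ℂ) := by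
              rintro ⟨-, h5, -⟩
              rw [h3] at h5
              norm_num at h5
            by_cases h5 : ψ = triv
            · have n2 : ψ ∉ Tp x₁ x₂ (1 : G → ℂ) := by
                rintro ⟨-, -, -, h6⟩
                exact h6 (h5 ▸ htriv)
              rw [if_pos h5, if_neg n2, if_neg n3, h5, ha1, htriv]
              simp
            · have n2 : ψ ∈ Tp x₁ x₂ (1 : G → ℂ) := by
                refine ⟨hOv _ ψ, h3, h4, ?_⟩
                intro h6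
                exact h5 (Subtype.ext (h6.trans htriv.symm))
              rw [if_neg h5, if_pos n2, if_neg n3, hap ψ n2,
                Cfsg.Agent.H82.irr_one_eq_charDegree ψ, c3 ψ n2]
              push_cast
              simp
          · have n1 : ψ ≠ triv := by
              rintro rfl
              rw [htriv] at h3
              simp only [Pi.one_apply] at h3
              norm_num at h3
            have n2 : ψ ∉ Tp x₁ x₂ (1 : G → ℂ) := by
              rintro ⟨-, h5, -, -⟩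
              rw [h3] at h5
              norm_num at h5
            have n3 : ψ ∈ Tm x₁ x₂ (1 : G → ℂ) := ⟨hOv _ ψ, h3, h4⟩
            have hd : (charDegree ψ.1 : ℂ) = (p : ℂ) - 1 := by
              have := c4 ψ n3
              have h6 : ((charDegree ψ.1 + 1 : ℕ) : ℂ) = (p : ℂ) := by exact_mod_cast this
              push_cast at h6
              linear_combination h6
            rw [if_neg n1, if_neg n2, if_pos n3, ham ψ n3,
              Cfsg.Agent.H82.irr_one_eq_charDegree ψ, hd]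
            simp
    rw [Finset.sum_congr rfl (fun ψ _ => hpt ψ), Finset.sum_add_distrib, Finset.sum_add_distrib,
      Finset.sum_add_distrib, Finset.sum_add_distrib, ← Finset.sum_div, ← Finset.sum_div,
      ← map_sum, ← map_sum, hAsum, hBsum]
    simp only [Finset.sum_ite_eq', Finset.mem_univ, if_true]
  -- `t = χ y` is real
  have ht : χ y = ((χ y).re : ℂ) := (Complex.conj_eq_iff_re.mp (c5 y hy)).symm
  obtain ⟨t, htdef⟩ : ∃ t : ℝ, t = (χ y).re := ⟨_, rfl⟩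
  rw [← htdef] at ht
  have hN : ∀ x' : G, ∑ᶠ ψ ∈ Ov (1 : G → ℂ), ψ.1 x₁ * ψ.1 x' * conj (ψ.1 y) / ψ.1 1 =
      ∑ ψ : IrrCharacter G, (ψ.1 x₁ * ψ.1 x') * conj (ψ.1 y) / ψ.1 1 := by
    intro x'
    rw [hOvU, finsum_mem_univ, finsum_eq_sum_of_fintype]
  -- the two constants
  have hN1 : ∑ᶠ ψ ∈ Ov (1 : G → ℂ), ψ.1 x₁ * ψ.1 x₁ * conj (ψ.1 y) / ψ.1 1 =
      ((1 + (t * t - 1) / ((p : ℝ) + 1) + (t * t - t) / ((p : ℝ) - 1) - t : ℝ) : ℂ) := by
    rw [hN x₁, key (fun ψ => ψ.1 x₁ * ψ.1 x₁) (by rw [htriv]; simp)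
      (fun ψ hψ => by rw [hψ.2.1]; simp) (fun ψ hψ => by rw [hψ.2.1]; simp)
      (fun ψ hψ => by rw [hψ]; simp)]
    have e1 : χi.1 x₁ * χi.1 x₁ * conj (χ y) / (charDegree χ : ℂ) +
        θ'.1 x₁ * θ'.1 x₁ * conj (χ y) / (charDegree χ : ℂ) = -(t : ℂ) := by
      rw [hχi1, hθ'1, ← add_div, ← add_mul, hsqsum, ht, Complex.conj_ofReal]
      field_simp
    rw [add_assoc, e1, ht]
    simp only [Complex.conj_ofReal, map_sub, map_mul, map_one]
    push_cast
    ring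
  have hN2 : ∑ᶠ ψ ∈ Ov (1 : G → ℂ), ψ.1 x₁ * ψ.1 x₂ * conj (ψ.1 y) / ψ.1 1 =
      ((1 + (t * t - 1) / ((p : ℝ) + 1) + (t * t - t) / ((p : ℝ) - 1) +
        ((charDegree χ : ℝ) + 1) * t / (charDegree χ : ℝ) : ℝ) : ℂ) := by
    rw [hN x₂, key (fun ψ => ψ.1 x₁ * ψ.1 x₂) (by rw [htriv]; simp)
      (fun ψ hψ => by rw [hψ.2.1, hψ.2.2.1]; simp) (fun ψ hψ => by rw [hψ.2.1, hψ.2.2]; simp)
      (fun ψ hψ => by rw [hψ]; simp)]
    have e1 : χi.1 x₁ * χi.1 x₂ * conj (χ y) / (charDegree χ : ℂ) +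
        θ'.1 x₁ * θ'.1 x₂ * conj (χ y) / (charDegree χ : ℂ) =
        ((charDegree χ : ℂ) + 1) * (t : ℂ) / (charDegree χ : ℂ) := by
      rw [hχi1, hχi2, hθ'1, hθ'2, ← add_div, ← add_mul, ht, Complex.conj_ofReal]
      congr 2
      linear_combination hprod
    rw [add_assoc, e1, ht]
    simp only [Complex.conj_ofReal, map_sub, map_mul, map_one]
    push_cast
    ring
  have hre1 := (hT triv x₁ x₁ y).2
  have hre2 := (hT triv x₁ x₂ y).2
  rw [hN1, Complex.ofReal_re] at hre1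
  rw [hN2, Complex.ofReal_re] at hre2
  have hpos1 := (norm_nonneg _).trans hre1
  have hpos2 := (norm_nonneg _).trans hre2
  -- the bound `|t| < f`
  obtain ⟨hA1, hA2⟩ := hA χi
  have hfR : (2 : ℝ) ≤ (charDegree χ : ℝ) := by exact_mod_cast hf2
  have hpR : (p : ℝ) = 2 * (charDegree χ : ℝ) + 1 := by exact_mod_cast hdeg.symm
  have hnorm : ‖χ y‖ = |t| := by
    rw [ht, Complex.norm_real, Real.norm_eq_abs]
  have hlt : |t| < (charDegree χ : ℝ) := by
    have h1 := hA1 y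
    rw [hχi, hnorm] at h1
    rcases lt_or_eq_of_le h1 with h2 | h2
    · exact h2
    · exfalso
      have h3 := hA2 (by rw [hχi]; exact hL.faith) y (by rw [hχi, hnorm]; exact h2)
      exact hy1 (hZ y h3)
  obtain ⟨hlt1, hlt2⟩ := abs_lt.mp hlt
  rw [← htdef]
  rw [hpR] at hpos1 hpos2
  have hF0 : (0 : ℝ) < (charDegree χ : ℝ) := by linarith
  constructor
  · have h1 : (1 + (t * t - 1) / (2 * (charDegree χ : ℝ) + 1 + 1) +
        (t * t - t) / (2 * (charDegree χ : ℝ) + 1 - 1) - t) *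
        (2 * (charDegree χ : ℝ) * ((charDegree χ : ℝ) + 1)) =
        (1 - t) * ((2 * (charDegree χ : ℝ) + 1) * ((charDegree χ : ℝ) - t)) := by
      field_simp
      ring
    have h2 : 0 ≤ (1 - t) * ((2 * (charDegree χ : ℝ) + 1) * ((charDegree χ : ℝ) - t)) := by
      rw [← h1]
      exact mul_nonneg hpos1 (by positivity)
    have h3 : 0 ≤ 1 - t :=
      nonneg_of_mul_nonneg_left h2 (mul_pos (by linarith) (by linarith))
    linarith
  · have h1 : (1 + (t * t - 1) / (2 * (charDegree χ : ℝ) + 1 + 1) +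
        (t * t - t) / (2 * (charDegree χ : ℝ) + 1 - 1) +
        ((charDegree χ : ℝ) + 1) * t / (charDegree χ : ℝ)) *
        (2 * (charDegree χ : ℝ) * ((charDegree χ : ℝ) + 1)) =
        (1 + t) * ((2 * (charDegree χ : ℝ) + 1) * ((charDegree χ : ℝ) + t)) := by
      field_simp
      ring
    have h2 : 0 ≤ (1 + t) * ((2 * (charDegree χ : ℝ) + 1) * ((charDegree χ : ℝ) + t)) := by
      rw [← h1]
      exact mul_nonneg hpos2 (by positivity)
    have h3 : 0 ≤ 1 + t :=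
      nonneg_of_mul_nonneg_left h2 (mul_pos (by linarith) (by linarith))
    linarith

example (hX : Cfsg.Agent.H79.Br.StProd3.{u}) (hT : Cfsg.Agent.H79.Br.StTwCCP.{u})
    (hP : Cfsg.Agent.H79.Br.StPair.{u}) (hA : Cfsg.Agent.H79.Br.StAbs.{u}) :
    Cfsg.Agent.H79.Br.StCC3.{u} := cc3 hX hT hP hA

end Cfsg.Agent.H65.Br
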