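import Mathlib
import Cfsg.Agent.H79.BrDefs
import Cfsg.Agent.H4.Irr
import Cfsg.Agent.H4.Chars
import Cfsg.Agent.H4.PaQb

/-!
# S4504-CFUN (helper65, for helper79): `Ξ 1 + f Ξ x₁ + f Ξ x₂ = ∑_{x ∈ P} Ξ x` is `p` times a
natural number (the multiplicity of the trivial character of `P` in `Ξ|_P`).
-/

set_option autoImplicit false
set_option linter.style.haveILetI false

namespace Cfsg.Agent.H65.Br

open Cfsg Cfsg.Agent.H79.Br
open scoped ComplexConjugate

universe u

/-- The sum of a character over a subgroup of order `p` is `p` times a natural number. -/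
theorem psum_nat {G : Type u} [Group G] [Finite G] (P : Subgroup G) (p : ℕ)
    (hp : 0 < p) (hP : Nat.card P = p) (ψ : G → ℂ) (hψ : IsCharacter G ψ) :
    ∃ w : ℕ, ∑ᶠ x : ↥P, ψ (x : G) = (p : ℂ) * (w : ℂ) := by
  classical
  haveI : Fintype P := Fintype.ofFinite P
  have h1 : IsCharacter P (fun h : P => ψ h) := Cfsg.Agent.H4.isCharacter_restrict P hψ
  have h2 : IsCharacter P (fun _ : P => (1 : ℂ)) :=
    Cfsg.Agent.H4.isCharacter_of_isIrrCharacter Cfsg.Agent.H4.isIrrCharacter_one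
  obtain ⟨w, hw⟩ := Cfsg.Agent.H4.classInner_isCharacter_nat h1 h2
  refine ⟨w, ?_⟩
  rw [finsum_eq_sum_of_fintype, ← hw]
  unfold classInner
  rw [hP]
  simp only [map_one, mul_one]
  rw [← mul_assoc, mul_inv_cancel₀ (by exact_mod_cast hp.ne'), one_mul]

theorem cfun : Cfsg.Agent.H79.Br.StCFun.{u} := by
  intro G _ _ p _ P f x₁ x₂ hL hP Ξ hΞ
  have hp : p.Prime := Fact.out
  obtain ⟨w, hw⟩ := psum_nat P p hp.pos hP Ξ hΞ
  refine ⟨w, ?_⟩
  rw [← hL.orb Ξ (Cfsg.Agent.H4.isClassFunction_of_isCharacter hΞ)]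
  exact hw

example : Cfsg.Agent.H79.Br.StCFun.{u} := cfun

end Cfsg.Agent.H65.Br
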