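import Mathlib
import Cfsg.Agent.H79.BrDefs
import Cfsg.Agent.H4.Irr
import Cfsg.Agent.H4.IrrCount
import Cfsg.Agent.H82.Irr

/-!
# S4504-DECC (helper65, for helper79): constituents of a character `Ξ` with
`c(Ξ) = Ξ 1 + f Ξ x₁ + f Ξ x₂ = 0`.
-/

set_option autoImplicit false
set_option linter.style.haveILetI false
set_option linter.unusedVariables false

namespace Cfsg.Agent.H65.Br

open Cfsg Cfsg.Agent.H79.Br
open scoped ComplexConjugate

universe u

/-- Evaluation of a finite combination of irreducible characters. -/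
theorem eval_comb {G : Type u} [Group G] [Finite G] [Fintype (IrrCharacter G)]
    (m : IrrCharacter G → ℕ) (g : G) :
    (∑ᶠ ψ : IrrCharacter G, (m ψ : ℂ) • ψ.1) g = ∑ ψ : IrrCharacter G, (m ψ : ℂ) * ψ.1 g := by
  rw [finsum_eq_sum_of_fintype, Finset.sum_apply]
  exact Finset.sum_congr rfl (fun ψ _ => by rw [Pi.smul_apply, smul_eq_mul])

theorem decC (hC : Cfsg.Agent.H79.Br.StCFun.{u}) (hD : Cfsg.Agent.H79.Br.StDeg.{u}) :
    Cfsg.Agent.H79.Br.StDecC.{u} := by
  intro G _ _ p _ P χ x₁ x₂ hL m Ξ hΞ h0 ψ hmψ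
  classical
  have hp : p.Prime := Fact.out
  letI : Fintype (IrrCharacter G) := Cfsg.Agent.H4.fintypeIrr G
  have hc : ∀ φ : IrrCharacter G, ∃ c : ℕ,
      φ.1 1 + (charDegree χ : ℂ) * φ.1 x₁ + (charDegree χ : ℂ) * φ.1 x₂ = (p : ℂ) * (c : ℂ) :=
    fun φ => hC p P (charDegree χ) x₁ x₂ hL.grp hL.cardP φ.1
      (Cfsg.Agent.H4.isCharacter_of_isIrrCharacter φ.2)
  choose c hc using hc
  have hsum : ((∑ φ : IrrCharacter G, m φ * (p * c φ) : ℕ) : ℂ) = 0 := by
    rw [← h0, hΞ, eval_comb, eval_comb, eval_comb, Finset.mul_sum, Finset.mul_sum,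
      ← Finset.sum_add_distrib, ← Finset.sum_add_distrib]
    push_cast
    apply Finset.sum_congr rfl
    intro φ _
    rw [← hc φ]
    ring
  have hsum' : ∑ φ : IrrCharacter G, m φ * (p * c φ) = 0 := by exact_mod_cast hsum
  have hterm := (Finset.sum_eq_zero_iff.mp hsum') ψ (Finset.mem_univ ψ)
  have hcψ : c ψ = 0 := by
    rcases Nat.mul_eq_zero.mp hterm with h | h
    · exact absurd h hmψ
    · rcases Nat.mul_eq_zero.mp h with h | h
      · exact absurd h hp.ne_zero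
      · exact h
  have hψ0 := hc ψ
  rw [hcψ, Nat.cast_zero, mul_zero, Cfsg.Agent.H82.irr_one_eq_charDegree ψ] at hψ0
  have hpos : 0 < charDegree ψ.1 := Cfsg.Agent.H82.charDegree_pos ψ
  have hdeg := hL.deg
  have hsumχ := hL.sum
  rcases hL.type ψ with ⟨h1, h2⟩ | ⟨h1, h2⟩ | ⟨h1, h2⟩ | ⟨h1, h2⟩ | ⟨h1, h2⟩ | ⟨h1, h2⟩ | ⟨h1, h2⟩
  · exfalso
    rw [h1, h2] at hψ0
    have h3 : ((charDegree ψ.1 : ℕ) : ℂ) = ((0 : ℕ) : ℂ) := by
      push_cast
      linear_combination hψ0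
    have h4 : charDegree ψ.1 = 0 := by exact_mod_cast h3
    omega
  · exfalso
    rw [h1, h2] at hψ0
    have h3 : ((charDegree ψ.1 + 2 * charDegree χ : ℕ) : ℂ) = ((0 : ℕ) : ℂ) := by
      push_cast
      linear_combination hψ0
    have h4 : charDegree ψ.1 + 2 * charDegree χ = 0 := by exact_mod_cast h3
    omega
  · left
    refine ⟨h1, h2, ?_⟩
    rw [h1, h2] at hψ0
    have h3 : ((charDegree ψ.1 : ℕ) : ℂ) = ((2 * charDegree χ : ℕ) : ℂ) := by
      push_cast
      linear_combination hψ0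
    have h4 : charDegree ψ.1 = 2 * charDegree χ := by exact_mod_cast h3
    omega
  · right
    refine ⟨Or.inl ⟨h1, h2⟩, ?_⟩
    rw [h1, h2] at hψ0
    have h3 : ((charDegree ψ.1 : ℕ) : ℂ) = ((charDegree χ : ℕ) : ℂ) := by
      linear_combination hψ0 - (charDegree χ : ℂ) * hsumχ
    exact_mod_cast h3
  · right
    refine ⟨Or.inr ⟨h1, h2⟩, ?_⟩
    rw [h1, h2] at hψ0
    have h3 : ((charDegree ψ.1 : ℕ) : ℂ) = ((charDegree χ : ℕ) : ℂ) := by
      linear_combination hψ0 - (charDegree χ : ℂ) * hsumχ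
    exact_mod_cast h3
  · exfalso
    rw [h1, h2] at hψ0
    have h3 : ((charDegree ψ.1 + charDegree χ : ℕ) : ℂ) = ((0 : ℕ) : ℂ) := by
      push_cast
      linear_combination hψ0 + (charDegree χ : ℂ) * hsumχ
    have h4 : charDegree ψ.1 + charDegree χ = 0 := by exact_mod_cast h3
    omega
  · exfalso
    rw [h1, h2] at hψ0
    have h3 : ((charDegree ψ.1 + charDegree χ : ℕ) : ℂ) = ((0 : ℕ) : ℂ) := by
      push_cast
      linear_combination hψ0 + (charDegree χ : ℂ) * hsumχ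
    have h4 : charDegree ψ.1 + charDegree χ = 0 := by exact_mod_cast h3
    omega

example (hC : Cfsg.Agent.H79.Br.StCFun.{u}) (hD : Cfsg.Agent.H79.Br.StDeg.{u}) :
    Cfsg.Agent.H79.Br.StDecC.{u} := decC hC hD

end Cfsg.Agent.H65.Br
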