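import Mathlib
import Cfsg.Agent.H79.BrDefs
import Cfsg.Agent.H4.Irr
import Cfsg.Agent.H4.IrrCount
import Cfsg.Agent.H82.Irr
import Cfsg.Agent.H65.BrDecC

/-!
# S4504-DECL / S4504-DECL0 (helper65, for helper79): the functional
`L(Ξ) = (f + 1) (Ξ x₁ + Ξ x₂) - Ξ 1` is `p` on the trivial character and a non-positive integer
on every other irreducible character, with the equality cases.
-/

set_option autoImplicit false
set_option linter.style.haveILetI false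
set_option linter.unusedVariables false

namespace Cfsg.Agent.H65.Br

open Cfsg Cfsg.Agent.H79.Br
open scoped ComplexConjugate

universe u

/-- `L(ψ) = -ℓ` with `ℓ ∈ ℕ` for a non-trivial irreducible `ψ`, and the equality case `ℓ = 0`. -/
theorem L_irr (hD : Cfsg.Agent.H79.Br.StDeg.{u}) {G : Type u} [Group G] [Finite G] (p : ℕ)
    [Fact p.Prime] (P : Subgroup G) (χ : G → ℂ) (x₁ x₂ : G) (hL : Loc p P χ x₁ x₂)
    (ψ : IrrCharacter G) (hψ : ψ.1 ≠ 1) :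
    ∃ ℓ : ℕ, ((charDegree χ : ℂ) + 1) * (ψ.1 x₁ + ψ.1 x₂) - ψ.1 1 = -(ℓ : ℂ) ∧
      (ℓ = 0 →
        (ψ.1 x₁ = 1 ∧ ψ.1 x₂ = 1 ∧ charDegree ψ.1 = p + 1) ∨
        (((ψ.1 x₁ = -χ x₁ ∧ ψ.1 x₂ = -χ x₂) ∨ (ψ.1 x₁ = -χ x₂ ∧ ψ.1 x₂ = -χ x₁)) ∧
          charDegree ψ.1 = charDegree χ + 1)) := by
  have hp : p.Prime := Fact.out
  have hpos : 0 < charDegree ψ.1 := Cfsg.Agent.H82.charDegree_pos ψ
  have hdeg := hL.deg
  have hsumχ := hL.sum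
  have h1deg := Cfsg.Agent.H82.irr_one_eq_charDegree ψ
  obtain ⟨d0, d1, d2, d3, d4⟩ := hD p P χ x₁ x₂ hL ψ
  have hpC : (p : ℂ) = 2 * (charDegree χ : ℂ) + 1 := by exact_mod_cast hdeg.symm
  rcases hL.type ψ with ⟨h1, h2⟩ | ⟨h1, h2⟩ | ⟨h1, h2⟩ | ⟨h1, h2⟩ | ⟨h1, h2⟩ | ⟨h1, h2⟩ | ⟨h1, h2⟩
  · refine ⟨charDegree ψ.1, ?_, fun h => by omega⟩
    rw [h1, h2, h1deg]
    ring
  · obtain ⟨d, hd⟩ := d1 ⟨h1, h2⟩
    have hd1 : 1 ≤ d := by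
      rcases Nat.eq_zero_or_pos d with h0 | h0
      · exfalso
        rw [h0, mul_zero, zero_add] at hd
        exact hψ (hL.nolin ψ hd)
      · exact h0
    obtain ⟨d', rfl⟩ : ∃ d', d = d' + 1 := ⟨d - 1, by omega⟩
    refine ⟨p * d', ?_, fun h => ?_⟩
    · rw [h1, h2, h1deg, hd]
      push_cast
      linear_combination -hpC
    · left
      refine ⟨h1, h2, ?_⟩
      rcases Nat.mul_eq_zero.mp h with h3 | h3
      · exact absurd h3 hp.ne_zero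
      · rw [hd, h3]
        ring
  · refine ⟨2 * (charDegree χ + 1) + charDegree ψ.1, ?_, fun h => by omega⟩
    rw [h1, h2, h1deg]
    push_cast
    ring
  · refine ⟨charDegree χ + 1 + charDegree ψ.1, ?_, fun h => by omega⟩
    rw [h1, h2, h1deg, hsumχ]
    push_cast
    ring
  · refine ⟨charDegree χ + 1 + charDegree ψ.1, ?_, fun h => by omega⟩
    rw [h1, h2, h1deg, add_comm (χ x₂) (χ x₁), hsumχ]
    push_cast
    ring
  · have hs : ψ.1 x₁ + ψ.1 x₂ = 1 := by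
      rw [h1, h2]
      linear_combination -hsumχ
    obtain ⟨d, hd⟩ := d4 hs
    have hd' : charDegree ψ.1 = p * d + charDegree χ + 1 := by
      have h5 : p * (d + 1) = p * d + p := by ring
      omega
    refine ⟨p * d, ?_, fun h => ?_⟩
    · rw [hs, h1deg, hd']
      push_cast
      ring
    · right
      refine ⟨Or.inl ⟨h1, h2⟩, ?_⟩
      rcases Nat.mul_eq_zero.mp h with h3 | h3
      · exact absurd h3 hp.ne_zero
      · rw [hd', h3]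
        ring
  · have hs : ψ.1 x₁ + ψ.1 x₂ = 1 := by
      rw [h1, h2]
      linear_combination -hsumχ
    obtain ⟨d, hd⟩ := d4 hs
    have hd' : charDegree ψ.1 = p * d + charDegree χ + 1 := by
      have h5 : p * (d + 1) = p * d + p := by ring
      omega
    refine ⟨p * d, ?_, fun h => ?_⟩
    · rw [hs, h1deg, hd']
      push_cast
      ring
    · right
      refine ⟨Or.inr ⟨h1, h2⟩, ?_⟩
      rcases Nat.mul_eq_zero.mp h with h3 | h3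
      · exact absurd h3 hp.ne_zero
      · rw [hd', h3]
        ring

/-- The decomposition `L(Ξ) = p · m(1) - ∑_{ψ ≠ 1} m(ψ) ℓ(ψ)`. -/
theorem L_decomp (hD : Cfsg.Agent.H79.Br.StDeg.{u}) {G : Type u} [Group G] [Finite G] (p : ℕ)
    [Fact p.Prime] (P : Subgroup G) (χ : G → ℂ) (x₁ x₂ : G) (hL : Loc p P χ x₁ x₂)
    (m : IrrCharacter G → ℕ) (Ξ : G → ℂ) (hΞ : Ξ = ∑ᶠ ψ : IrrCharacter G, (m ψ : ℂ) • ψ.1)
    (triv : IrrCharacter G) (htriv : triv.1 = 1) :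
    ∃ (ℓ : IrrCharacter G → ℕ) (S : Finset (IrrCharacter G)),
      (∀ ψ, ψ ∈ S ↔ ψ ≠ triv) ∧
      ((charDegree χ : ℂ) + 1) * (Ξ x₁ + Ξ x₂) - Ξ 1 =
        ((p * m triv : ℕ) : ℂ) - ((∑ ψ ∈ S, m ψ * ℓ ψ : ℕ) : ℂ) ∧
      ∀ ψ, ψ ≠ triv → ℓ ψ = 0 →
        (ψ.1 x₁ = 1 ∧ ψ.1 x₂ = 1 ∧ charDegree ψ.1 = p + 1) ∨
        (((ψ.1 x₁ = -χ x₁ ∧ ψ.1 x₂ = -χ x₂) ∨ (ψ.1 x₁ = -χ x₂ ∧ ψ.1 x₂ = -χ x₁)) ∧
          charDegree ψ.1 = charDegree χ + 1) := by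
  classical
  letI : Fintype (IrrCharacter G) := Cfsg.Agent.H4.fintypeIrr G
  have hne : ∀ ψ : IrrCharacter G, ψ ≠ triv → ψ.1 ≠ 1 := by
    intro ψ hψ h1
    exact hψ (Subtype.ext (h1.trans htriv.symm))
  have key : ∀ ψ : IrrCharacter G, ∃ ℓ : ℕ, ψ ≠ triv →
      (((charDegree χ : ℂ) + 1) * (ψ.1 x₁ + ψ.1 x₂) - ψ.1 1 = -(ℓ : ℂ) ∧
      (ℓ = 0 →
        (ψ.1 x₁ = 1 ∧ ψ.1 x₂ = 1 ∧ charDegree ψ.1 = p + 1) ∨
        (((ψ.1 x₁ = -χ x₁ ∧ ψ.1 x₂ = -χ x₂) ∨ (ψ.1 x₁ = -χ x₂ ∧ ψ.1 x₂ = -χ x₁)) ∧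
          charDegree ψ.1 = charDegree χ + 1))) := by
    intro ψ
    by_cases hψ : ψ = triv
    · exact ⟨0, fun h => absurd hψ h⟩
    · obtain ⟨ℓ, h1, h2⟩ := L_irr hD p P χ x₁ x₂ hL ψ (hne ψ hψ)
      exact ⟨ℓ, fun _ => ⟨h1, h2⟩⟩
  choose ℓ hℓ using key
  refine ⟨ℓ, Finset.univ.erase triv, fun ψ => by simp, ?_, fun ψ hψ h0 => (hℓ ψ hψ).2 h0⟩
  have hpC : (p : ℂ) = 2 * (charDegree χ : ℂ) + 1 := by exact_mod_cast hL.deg.symm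
  have htrivL : ((charDegree χ : ℂ) + 1) * (triv.1 x₁ + triv.1 x₂) - triv.1 1 = (p : ℂ) := by
    rw [htriv]
    simp only [Pi.one_apply]
    linear_combination -hpC
  have h1 : ((charDegree χ : ℂ) + 1) * (Ξ x₁ + Ξ x₂) - Ξ 1 =
      ∑ ψ : IrrCharacter G, (m ψ : ℂ) *
        (((charDegree χ : ℂ) + 1) * (ψ.1 x₁ + ψ.1 x₂) - ψ.1 1) := by
    rw [hΞ, eval_comb, eval_comb, eval_comb, ← Finset.sum_add_distrib, Finset.mul_sum,
      ← Finset.sum_sub_distrib]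
    exact Finset.sum_congr rfl (fun ψ _ => by ring)
  rw [h1, ← Finset.add_sum_erase Finset.univ _ (Finset.mem_univ triv), htrivL]
  have h2 : ∑ ψ ∈ Finset.univ.erase triv, (m ψ : ℂ) *
      (((charDegree χ : ℂ) + 1) * (ψ.1 x₁ + ψ.1 x₂) - ψ.1 1) =
      -((∑ ψ ∈ Finset.univ.erase triv, m ψ * ℓ ψ : ℕ) : ℂ) := by
    rw [Nat.cast_sum, ← Finset.sum_neg_distrib]
    apply Finset.sum_congr rfl
    intro ψ hψ
    rw [(hℓ ψ (Finset.ne_of_mem_erase hψ)).1]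
    push_cast
    ring
  rw [h2]
  push_cast
  ring

theorem decL (hD : Cfsg.Agent.H79.Br.StDeg.{u}) : Cfsg.Agent.H79.Br.StDecL.{u} := by
  intro G _ _ p _ P χ x₁ x₂ hL m Ξ hΞ triv htriv hLΞ ψ hmψ hψ
  have hp : p.Prime := Fact.out
  obtain ⟨ℓ, S, hS, hdec, hzero⟩ := L_decomp hD p P χ x₁ x₂ hL m Ξ hΞ triv htriv
  rw [hLΞ] at hdec
  have h1 : ((∑ φ ∈ S, m φ * ℓ φ : ℕ) : ℂ) = ((0 : ℕ) : ℂ) := by
    push_cast at hdec ⊢
    linear_combination hdec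
  have h2 : ∑ φ ∈ S, m φ * ℓ φ = 0 := by exact_mod_cast h1
  have h3 := (Finset.sum_eq_zero_iff.mp h2) ψ ((hS ψ).2 hψ)
  rcases Nat.mul_eq_zero.mp h3 with h4 | h4
  · exact absurd h4 hmψ
  · exact hzero ψ hψ h4

theorem decL0 (hD : Cfsg.Agent.H79.Br.StDeg.{u}) : Cfsg.Agent.H79.Br.StDecL0.{u} := by
  intro G _ _ p _ P χ x₁ x₂ hL m Ξ hΞ triv htriv hpos hm
  obtain ⟨ℓ, S, hS, hdec, hzero⟩ := L_decomp hD p P χ x₁ x₂ hL m Ξ hΞ triv htriv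
  rw [hdec, hm, mul_zero] at hpos
  simp only [Nat.cast_zero, zero_sub, Complex.neg_re, Complex.natCast_re] at hpos
  have h1 : (0 : ℝ) ≤ ((∑ φ ∈ S, m φ * ℓ φ : ℕ) : ℝ) := Nat.cast_nonneg _
  linarith

example (hD : Cfsg.Agent.H79.Br.StDeg.{u}) : Cfsg.Agent.H79.Br.StDecL.{u} := decL hD

example (hD : Cfsg.Agent.H79.Br.StDeg.{u}) : Cfsg.Agent.H79.Br.StDecL0.{u} := decL0 hD

end Cfsg.Agent.H65.Br
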