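import Mathlib
import Cfsg.Agent.H79.BrDefs
import Cfsg.Agent.H4.Irr
import Cfsg.Agent.H82.Irr

/-!
# S4504-DEG (helper65, for helper79): the degrees of the irreducible characters by type.
-/

set_option autoImplicit false
set_option linter.style.haveILetI false

namespace Cfsg.Agent.H65.Br

open Cfsg Cfsg.Agent.H79.Br
open scoped ComplexConjugate

universe u

theorem deg (hC : Cfsg.Agent.H79.Br.StCFun.{u}) : Cfsg.Agent.H79.Br.StDeg.{u} := by
  intro G _ _ p _ P χ x₁ x₂ hL ψ
  have hp : p.Prime := Fact.out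
  obtain ⟨c, hc⟩ := hC p P (charDegree χ) x₁ x₂ hL.grp hL.cardP ψ.1
    (Cfsg.Agent.H4.isCharacter_of_isIrrCharacter ψ.2)
  rw [Cfsg.Agent.H82.irr_one_eq_charDegree ψ] at hc
  have hpos : 0 < charDegree ψ.1 := Cfsg.Agent.H82.charDegree_pos ψ
  have hdeg := hL.deg
  have hpC : (p : ℂ) = 2 * (charDegree χ : ℂ) + 1 := by exact_mod_cast hdeg.symm
  refine ⟨?_, ?_, ?_, ?_, ?_⟩
  · rintro ⟨h1, h2⟩
    rw [h1, h2] at hc
    have h3 : (charDegree ψ.1 : ℂ) = ((p * c : ℕ) : ℂ) := by
      push_cast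
      linear_combination hc
    have h4 : charDegree ψ.1 = p * c := by exact_mod_cast h3
    exact ⟨c, h4⟩
  · rintro ⟨h1, h2⟩
    rw [h1, h2] at hc
    have h3 : ((charDegree ψ.1 + 2 * charDegree χ : ℕ) : ℂ) = ((p * c : ℕ) : ℂ) := by
      push_cast
      linear_combination hc
    have h4 : charDegree ψ.1 + 2 * charDegree χ = p * c := by exact_mod_cast h3
    have hc1 : 1 ≤ c := by
      rcases Nat.eq_zero_or_pos c with h0 | h0
      · rw [h0] at h4
        omega
      · exact h0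
    obtain ⟨d, rfl⟩ : ∃ d, c = d + 1 := ⟨c - 1, by omega⟩
    refine ⟨d, ?_⟩
    have h5 : p * (d + 1) = p * d + p := by ring
    omega
  · rintro ⟨h1, h2⟩
    rw [h1, h2] at hc
    have h3 : ((charDegree ψ.1 + 1 : ℕ) : ℂ) = ((p * (c + 1) : ℕ) : ℂ) := by
      push_cast
      linear_combination hc - hpC
    have h4 : charDegree ψ.1 + 1 = p * (c + 1) := by exact_mod_cast h3
    exact ⟨c, h4⟩
  · intro h1
    have h3 : (charDegree ψ.1 : ℂ) = ((p * c + charDegree χ : ℕ) : ℂ) := by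
      push_cast
      linear_combination hc - (charDegree χ : ℂ) * h1
    have h4 : charDegree ψ.1 = p * c + charDegree χ := by exact_mod_cast h3
    exact ⟨c, h4⟩
  · intro h1
    have h3 : ((charDegree ψ.1 + charDegree χ : ℕ) : ℂ) = ((p * c : ℕ) : ℂ) := by
      push_cast
      linear_combination hc - (charDegree χ : ℂ) * h1
    have h4 : charDegree ψ.1 + charDegree χ = p * c := by exact_mod_cast h3
    have hc1 : 1 ≤ c := by
      rcases Nat.eq_zero_or_pos c with h0 | h0
      · rw [h0] at h4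
        omega
      · exact h0
    obtain ⟨d, rfl⟩ : ∃ d, c = d + 1 := ⟨c - 1, by omega⟩
    exact ⟨d, h4⟩

example (hC : Cfsg.Agent.H79.Br.StCFun.{u}) : Cfsg.Agent.H79.Br.StDeg.{u} := deg hC

end Cfsg.Agent.H65.Br
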