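import Mathlib
import Cfsg.Agent.H79.BrDefs
import Cfsg.Agent.H4.Irr
import Cfsg.Agent.H4.IrrCount
import Cfsg.Agent.H4.PaQb
import Cfsg.Agent.H82.Irr

/-!
# S4504-MOM3 (helper65, for helper79): the fourth moment of `χ` for `p ≡ 3 (mod 4)` and trivial
centre gives `|G| ≤ (p + 1) p f`.
-/

set_option autoImplicit false
set_option linter.style.haveILetI false
set_option linter.unusedVariables false

namespace Cfsg.Agent.H65.Br

open Cfsg Cfsg.Agent.H79.Br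
open scoped ComplexConjugate

universe u

theorem mom3 (hX : Cfsg.Agent.H79.Br.StProd3.{u}) (hC : Cfsg.Agent.H79.Br.StCC3.{u})
    (hM : Cfsg.Agent.H79.Br.StMSplit.{u}) : Cfsg.Agent.H79.Br.StMom3.{u} := by
  intro G _ _ p _ P χ x₁ x₂ hL hp3 hz
  classical
  letI : Fintype G := Fintype.ofFinite G
  letI : Fintype (IrrCharacter G) := Cfsg.Agent.H4.fintypeIrr G
  have hp : p.Prime := Fact.out
  have hdeg := hL.deg
  have hfive := hL.five
  have hf2 : 2 ≤ charDegree χ := by omega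
  have hsum := hL.sum
  have hsq := hL.sq
  have hZ : ∀ z ∈ Subgroup.center G, z = 1 := fun z hz' => hL.faith z (hz z hz')
  obtain ⟨χi, hχi⟩ : ∃ χi : IrrCharacter G, χi.1 = χ := ⟨⟨χ, hL.irr⟩, rfl⟩
  obtain ⟨triv, htriv⟩ : ∃ triv : IrrCharacter G, triv.1 = 1 :=
    ⟨⟨fun _ => 1, Cfsg.Agent.H4.isIrrCharacter_one⟩, rfl⟩
  obtain ⟨c1, c2, c3, c4, c5, c6⟩ := hX p P χ x₁ x₂ hL hp3 hz
  have hcc := hC p P χ x₁ x₂ hL hp3 hz
  have hconj : χ x₂ = conj (χ x₁) := by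
    have h1 := hL.grp.par3 hp3
    obtain ⟨c, hc⟩ := isConj_iff.mp h1
    have h2 := Cfsg.Agent.H82.irr_conj χi x₁⁻¹ c
    have h3 := Cfsg.Agent.H82.irr_inv χi x₁
    rw [hc, hχi] at h2
    rw [hχi] at h3
    exact h2.trans h3
  have hconj2 : conj (χ x₂) = χ x₁ := by rw [hconj, Complex.conj_conj]
  have hprod : 2 * (χ x₁ * χ x₂) = (charDegree χ : ℂ) + 1 := by
    rw [hconj2, ← hconj] at hsq
    linear_combination hsq
  have hχ1 : χ 1 = (charDegree χ : ℂ) := by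
    rw [← hχi]
    exact Cfsg.Agent.H82.irr_one_eq_charDegree χi
  have hGpos : 0 < Nat.card G := Nat.card_pos
  have hGC : (Nat.card G : ℂ) ≠ 0 := by exact_mod_cast hGpos.ne'
  -- the number of characters in `Tp`
  obtain ⟨Tn, hTn⟩ : ∃ Tn : ℕ, Tn =
      (Finset.univ.filter (fun ψ : IrrCharacter G => ψ ∈ Tp x₁ x₂ (1 : G → ℂ))).card := ⟨_, rfl⟩
  have hTsum : ∑ ψ : IrrCharacter G, (if ψ ∈ Tp x₁ x₂ (1 : G → ℂ) then (1 : ℂ) else 0) =
      (Tn : ℂ) := by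
    rw [hTn, Finset.card_filter, Nat.cast_sum]
    exact Finset.sum_congr rfl (fun ψ _ => by split_ifs <;> simp)
  have hTcountC : ((p : ℂ) + 1) * (Tn : ℂ) + 1 = (charDegree χ : ℂ) * (charDegree χ : ℂ) := by
    have h1 := c1 1
    rw [finsum_mem_def, finsum_eq_sum_of_fintype] at h1
    have h2 : ∑ ψ : IrrCharacter G,
        Set.indicator (Tp x₁ x₂ (1 : G → ℂ)) (fun ψ => ψ.1 1) ψ = ((p : ℂ) + 1) * (Tn : ℂ) := by
      rw [← hTsum, Finset.mul_sum]
      apply Finset.sum_congr rfl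
      intro ψ _
      rw [Set.indicator_apply]
      by_cases hψ : ψ ∈ Tp x₁ x₂ (1 : G → ℂ)
      · rw [if_pos hψ, if_pos hψ, Cfsg.Agent.H82.irr_one_eq_charDegree ψ, c3 ψ hψ]
        push_cast
        ring
      · rw [if_neg hψ, if_neg hψ, mul_zero]
    rw [h2, hχ1, Complex.conj_natCast] at h1
    linear_combination -h1
  have hTcount : (p + 1) * Tn + 1 = charDegree χ * charDegree χ := by exact_mod_cast hTcountC
  -- `Ξ = χ · conj χ = 1 + ∑_{Tp} ψ`
  obtain ⟨Ξ, hΞdef⟩ : ∃ Ξ : G → ℂ, Ξ = fun g => χ g * conj (χ g) := ⟨_, rfl⟩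
  have hΞg : ∀ g, Ξ g = χ g * conj (χ g) := fun g => by rw [hΞdef]
  obtain ⟨c, hc⟩ : ∃ c : IrrCharacter G → ℂ, c = fun ψ =>
      (if ψ = triv then (1 : ℂ) else 0) + (if ψ ∈ Tp x₁ x₂ (1 : G → ℂ) then (1 : ℂ) else 0) :=
    ⟨_, rfl⟩
  have hcψ : ∀ ψ, c ψ = (if ψ = triv then (1 : ℂ) else 0) +
      (if ψ ∈ Tp x₁ x₂ (1 : G → ℂ) then (1 : ℂ) else 0) := fun ψ => by rw [hc]
  have htrivTp : triv ∉ Tp x₁ x₂ (1 : G → ℂ) := by
    rintro ⟨-, -, -, h5⟩
    exact h5 htriv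
  have hΞ : Ξ = ∑ᶠ ψ : IrrCharacter G, c ψ • ψ.1 := by
    funext g
    rw [finsum_eq_sum_of_fintype, Finset.sum_apply, hΞg]
    have h1 := c1 g
    rw [finsum_mem_def, finsum_eq_sum_of_fintype] at h1
    rw [h1]
    have h2 : ∀ ψ : IrrCharacter G, (c ψ • ψ.1) g = (if ψ = triv then ψ.1 g else 0) +
        Set.indicator (Tp x₁ x₂ (1 : G → ℂ)) (fun ψ => ψ.1 g) ψ := by
      intro ψ
      rw [Pi.smul_apply, smul_eq_mul, Set.indicator_apply, hcψ]
      by_cases h3 : ψ = triv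
      · have h4 : ψ ∉ Tp x₁ x₂ (1 : G → ℂ) := h3 ▸ htrivTp
        simp only [if_pos h3, if_neg h4]
        ring
      · by_cases h4 : ψ ∈ Tp x₁ x₂ (1 : G → ℂ)
        · simp only [if_neg h3, if_pos h4]
          ring
        · simp only [if_neg h3, if_neg h4]
          ring
    rw [Finset.sum_congr rfl (fun ψ _ => h2 ψ), Finset.sum_add_distrib, Finset.sum_ite_eq']
    simp [htriv]
  have hcsq : ∀ ψ : IrrCharacter G, conj (c ψ) * c ψ = (if ψ = triv then (1 : ℂ) else 0) +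
      (if ψ ∈ Tp x₁ x₂ (1 : G → ℂ) then (1 : ℂ) else 0) := by
    intro ψ
    rw [hcψ]
    by_cases h3 : ψ = triv
    · have h4 : ψ ∉ Tp x₁ x₂ (1 : G → ℂ) := h3 ▸ htrivTp
      rw [if_pos h3, if_neg h4]
      simp
    · by_cases h4 : ψ ∈ Tp x₁ x₂ (1 : G → ℂ)
      · rw [if_neg h3, if_pos h4]
        simp
      · rw [if_neg h3, if_neg h4]
        simp
  have hinner : classInner Ξ Ξ = 1 + (Tn : ℂ) := by
    have h1 : ∀ ψ : IrrCharacter G, classInner Ξ ψ.1 = c ψ := by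
      intro ψ
      rw [hΞ]
      exact Cfsg.Agent.H4.classInner_finsum_irr c ψ
    have h2 : classInner Ξ Ξ = classInner Ξ (∑ ψ : IrrCharacter G, c ψ • ψ.1) := by
      congr 1
      rw [hΞ, finsum_eq_sum_of_fintype]
    rw [h2, Cfsg.Agent.H4.classInner_sum_right]
    rw [Finset.sum_congr rfl (fun ψ _ => by
      rw [Cfsg.Agent.H4.classInner_smul_right, h1 ψ, hcsq ψ]), Finset.sum_add_distrib,
      Finset.sum_ite_eq', hTsum]
    simp
  have hsum2 : ∑ g : G, χ g * conj (χ g) = (Nat.card G : ℂ) := by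
    have h1 := Cfsg.Agent.H4.irr_inner_self χi
    rw [hχi] at h1
    unfold classInner at h1
    have h2 : (Nat.card G : ℂ) * ((Nat.card G : ℂ)⁻¹ * ∑ g : G, χ g * conj (χ g)) =
        (Nat.card G : ℂ) * 1 := by rw [h1]
    rw [← mul_assoc, mul_inv_cancel₀ hGC, one_mul, mul_one] at h2
    exact h2
  have hsum4 : ∑ g : G, (χ g * conj (χ g)) * (χ g * conj (χ g)) =
      (Nat.card G : ℂ) * (1 + (Tn : ℂ)) := by
    have h1 := hinner
    unfold classInner at h1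
    have h2 : (Nat.card G : ℂ) * ((Nat.card G : ℂ)⁻¹ * ∑ g : G, Ξ g * conj (Ξ g)) =
        (Nat.card G : ℂ) * (1 + (Tn : ℂ)) := by rw [h1]
    rw [← mul_assoc, mul_inv_cancel₀ hGC, one_mul] at h2
    rw [← h2]
    apply Finset.sum_congr rfl
    intro g _
    rw [hΞg, map_mul, Complex.conj_conj, mul_comm (conj (χ g)) (χ g)]
  -- the function `F = |χ|² - |χ|⁴`
  obtain ⟨F, hFdef⟩ : ∃ F : G → ℂ, F = fun g =>
      χ g * conj (χ g) - (χ g * conj (χ g)) * (χ g * conj (χ g)) := ⟨_, rfl⟩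
  have hFg : ∀ g, F g = χ g * conj (χ g) - (χ g * conj (χ g)) * (χ g * conj (χ g)) :=
    fun g => by rw [hFdef]
  have hsumF : ∑ g : G, F g = -((Nat.card G : ℂ) * (Tn : ℂ)) := by
    rw [Finset.sum_congr rfl (fun g _ => hFg g), Finset.sum_sub_distrib, hsum2, hsum4]
    ring
  have hFcl : IsClassFunction G F := by
    intro g h
    have hcl := Cfsg.Agent.H4.isClassFunction_of_isCharacter
      (Cfsg.Agent.H4.isCharacter_of_isIrrCharacter hL.irr)
    rw [hFg, hFg, hcl g h]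
  have hFz : ∀ g : G, ∀ z ∈ Subgroup.center G, F (g * z) = F g := by
    intro g z hz'
    rw [hZ z hz', mul_one]
  have hsplit := hM p P (charDegree χ) x₁ x₂ hL.grp F hFcl hFz
  rw [finsum_eq_sum_of_fintype, hsumF] at hsplit
  have hFx : F x₁ + F x₂ = (((1 - (charDegree χ : ℝ) ^ 2) / 2 : ℝ) : ℂ) := by
    rw [hFg, hFg, hconj2, ← hconj]
    push_cast
    linear_combination (-(χ x₁ * χ x₂) - (charDegree χ : ℂ) / 2 + 1 / 2) * hprod
  -- lower bound for the `p`-regular part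
  have hS : (charDegree χ : ℝ) ^ 2 - (charDegree χ : ℝ) ^ 4 ≤
      (∑ᶠ g ∈ {g : G | ¬ p ∣ orderOf g}, F g).re := by
    rw [finsum_mem_def, finsum_eq_sum_of_fintype, Complex.re_sum]
    have h1 : ∑ g : G, (if g = 1 then ((charDegree χ : ℝ) ^ 2 - (charDegree χ : ℝ) ^ 4) else 0) =
        (charDegree χ : ℝ) ^ 2 - (charDegree χ : ℝ) ^ 4 := by
      rw [Finset.sum_ite_eq']
      simp
    rw [← h1]
    apply Finset.sum_le_sum
    intro g _
    rw [Set.indicator_apply]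
    by_cases hg1 : g = 1
    · have hmem : g ∈ {g : G | ¬ p ∣ orderOf g} := by
        rw [hg1]
        show ¬ p ∣ orderOf (1 : G)
        rw [orderOf_one]
        exact hp.not_dvd_one
      rw [if_pos hg1, if_pos hmem, hg1, hFg, hχ1, Complex.conj_natCast]
      have h2 : ((charDegree χ : ℂ) * (charDegree χ : ℂ) - (charDegree χ : ℂ) * (charDegree χ : ℂ) *
          ((charDegree χ : ℂ) * (charDegree χ : ℂ))) =
          (((charDegree χ : ℝ) ^ 2 - (charDegree χ : ℝ) ^ 4 : ℝ) : ℂ) := by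
        push_cast
        ring
      rw [h2, Complex.ofReal_re]
    · rw [if_neg hg1]
      by_cases hmem : g ∈ {g : G | ¬ p ∣ orderOf g}
      · rw [if_pos hmem]
        have hreg : ¬ p ∣ orderOf g := hmem
        obtain ⟨hle1, hle2⟩ := hcc g hreg hg1
        have ht : χ g = ((χ g).re : ℂ) := (Complex.conj_eq_iff_re.mp (c5 g hreg)).symm
        obtain ⟨t, htdef⟩ : ∃ t : ℝ, t = (χ g).re := ⟨_, rfl⟩
        rw [← htdef] at ht hle1 hle2
        rw [hFg, ht, Complex.conj_ofReal]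
        have h2 : ((t : ℂ) * (t : ℂ) - (t : ℂ) * (t : ℂ) * ((t : ℂ) * (t : ℂ))) =
            ((t ^ 2 * (1 - t ^ 2) : ℝ) : ℂ) := by
          push_cast
          ring
        rw [h2, Complex.ofReal_re]
        have h3 : 0 ≤ 1 - t ^ 2 := by nlinarith
        exact mul_nonneg (sq_nonneg t) h3
      · rw [if_neg hmem]
        simp
  -- real parts
  have hre := congrArg Complex.re hsplit
  rw [hFx] at hre
  simp only [Complex.mul_re, Complex.add_re, Complex.neg_re, Complex.natCast_re,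
    Complex.natCast_im, Complex.ofReal_re, Complex.ofReal_im, zero_mul, mul_zero, sub_zero] at hre
  obtain ⟨S, hSdef⟩ : ∃ S : ℝ, S = (∑ᶠ g ∈ {g : G | ¬ p ∣ orderOf g}, F g).re := ⟨_, rfl⟩
  rw [← hSdef] at hre hS
  have hfR : (2 : ℝ) ≤ (charDegree χ : ℝ) := by exact_mod_cast hf2
  have hpR : (p : ℝ) = 2 * (charDegree χ : ℝ) + 1 := by exact_mod_cast hdeg.symm
  have hTR : ((p : ℝ) + 1) * (Tn : ℝ) + 1 = (charDegree χ : ℝ) * (charDegree χ : ℝ) := by
    exact_mod_cast hTcount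
  have hpos : 0 < 2 * (charDegree χ : ℝ) * ((charDegree χ : ℝ) ^ 2 - 1) := by nlinarith
  have hpRpos : (0 : ℝ) < (p : ℝ) := by linarith
  have ha : 2 * (charDegree χ : ℝ) * ((charDegree χ : ℝ) ^ 2 - 1) * (Nat.card G : ℝ) +
      2 * ((p : ℝ) + 1) * ((p : ℝ) * S) = 0 := by
    linear_combination (-((Nat.card G : ℝ) * ((charDegree χ : ℝ) ^ 2 - 1))) * hpR -
      2 * (p : ℝ) * (Nat.card G : ℝ) * hTR - 2 * ((p : ℝ) + 1) * hre
  have hb : (p : ℝ) * ((charDegree χ : ℝ) ^ 2 - (charDegree χ : ℝ) ^ 4) ≤ (p : ℝ) * S :=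
    mul_le_mul_of_nonneg_left hS hpRpos.le
  have key : 2 * (charDegree χ : ℝ) * ((charDegree χ : ℝ) ^ 2 - 1) * (Nat.card G : ℝ) ≤
      2 * (charDegree χ : ℝ) * ((charDegree χ : ℝ) ^ 2 - 1) *
        (((p : ℝ) + 1) * (p : ℝ) * (charDegree χ : ℝ)) := by
    have h1 : 2 * ((p : ℝ) + 1) * ((p : ℝ) * ((charDegree χ : ℝ) ^ 2 - (charDegree χ : ℝ) ^ 4)) ≤
        2 * ((p : ℝ) + 1) * ((p : ℝ) * S) :=
      mul_le_mul_of_nonneg_left hb (by linarith)
    nlinarith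
  have hfin : (Nat.card G : ℝ) ≤ ((p : ℝ) + 1) * (p : ℝ) * (charDegree χ : ℝ) :=
    le_of_mul_le_mul_left key hpos
  exact_mod_cast hfin

example (hX : Cfsg.Agent.H79.Br.StProd3.{u}) (hC : Cfsg.Agent.H79.Br.StCC3.{u})
    (hM : Cfsg.Agent.H79.Br.StMSplit.{u}) : Cfsg.Agent.H79.Br.StMom3.{u} := mom3 hX hC hM

end Cfsg.Agent.H65.Br
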