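import Mathlib
import Cfsg.Agent.H93.ConwayDefs

/-!
# C-CNT (helper65, for helper93's S0406): the code has more than 2048 words and the lattice
contains a vector of the third shape (counting the 196560 vectors of squared length 32).
-/

set_option autoImplicit false

namespace Cfsg.Agent.H65.Conway

open Matrix Cfsg.Agent.H93.Conway

theorem cnt : Cfsg.Agent.H93.Conway.StmtCnt := by
  intro hShape hT2 hT3 Λ hΛ C hC
  have hcount := hΛ.hcount
  set S : Set (Fin 24 → ℤ) := {x | x ∈ Λ ∧ ∑ i, x i ^ 2 = 32} with hS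
  set A1 : Set (Fin 24 → ℤ) := {x | IsT1 x} with hA1
  set A2 : Set (Fin 24 → ℤ) := {x | x ∈ Λ ∧ IsT2 x} with hA2
  set A3 : Set (Fin 24 → ℤ) := {x | x ∈ Λ ∧ IsT3 x} with hA3
  have hsub : S ⊆ A1 ∪ (A2 ∪ A3) := by
    intro x hx
    rcases hShape Λ hΛ x hx.1 hx.2 with h | h | h
    · exact Or.inl h
    · exact Or.inr (Or.inl ⟨hx.1, h⟩)
    · exact Or.inr (Or.inr ⟨hx.1, h⟩)
  let f : Fin 24 × Fin 24 × Bool × Bool → (Fin 24 → ℤ) := fun q =>
    Pi.single q.1 (if q.2.2.1 then 4 else -4) + Pi.single q.2.1 (if q.2.2.2 then 4 else -4)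
  have hA1sub : A1 ⊆ Set.range f := by
    rintro x ⟨i, j, -, a, b, ha, hb, rfl⟩
    refine ⟨(i, j, decide (a = 4), decide (b = 4)), ?_⟩
    rcases ha with rfl | rfl <;> rcases hb with rfl | rfl <;> simp [f]
  have hA1fin : A1.Finite := (Set.finite_range f).subset hA1sub
  have hA1card : A1.ncard ≤ 2304 := by
    calc A1.ncard ≤ (Set.range f).ncard := Set.ncard_le_ncard hA1sub (Set.finite_range f)
      _ ≤ Nat.card (Fin 24 × Fin 24 × Bool × Bool) := by
          rw [← Set.image_univ]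
          exact (Set.ncard_image_le Set.finite_univ).trans (by rw [Set.ncard_univ])
      _ = 2304 := by simp
  have hbox : (Set.pi Set.univ (fun _ : Fin 24 => Set.Icc (-3 : ℤ) 3)).Finite :=
    Set.Finite.pi (fun _ => Set.finite_Icc _ _)
  have hA2fin : A2.Finite := by
    refine hbox.subset ?_
    rintro x ⟨-, hx, -⟩ i -
    rcases hx i with h | h | h <;> rw [h] <;> simp
  have hA3fin : A3.Finite := by
    refine hbox.subset ?_
    rintro x ⟨-, i0, hi0, hx⟩ i -
    by_cases hi : i = i0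
    · subst hi
      rcases hi0 with h | h <;> rw [h] <;> simp
    · rcases hx i hi with h | h <;> rw [h] <;> simp
  have h1 : S.ncard ≤ A1.ncard + (A2.ncard + A3.ncard) := by
    calc S.ncard ≤ (A1 ∪ (A2 ∪ A3)).ncard :=
          Set.ncard_le_ncard hsub (hA1fin.union (hA2fin.union hA3fin))
      _ ≤ A1.ncard + (A2 ∪ A3).ncard := Set.ncard_union_le _ _
      _ ≤ A1.ncard + (A2.ncard + A3.ncard) :=
          Nat.add_le_add_left (Set.ncard_union_le _ _) _
  have h2 : A2.ncard ≤ 128 * 759 := hT2 Λ hΛ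
  have h3 : A3.ncard ≤ 24 * Nat.card C := hT3 Λ hΛ C hC
  rw [hcount] at h1
  have h4 : 97104 ≤ A3.ncard := by omega
  refine ⟨by omega, ?_⟩
  have hne : A3.Nonempty := Set.nonempty_of_ncard_ne_zero (by omega)
  obtain ⟨z, hz⟩ := hne
  exact ⟨z, hz.1, hz.2⟩

example : Cfsg.Agent.H93.Conway.StmtCnt := cnt

end Cfsg.Agent.H65.Conway
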