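import Mathlib
import Cfsg.Agent.H93.ConwayDefs

/-!
# C-FRAME (helper65, for helper93's S0406): a class modulo `2L` with at least 48 vectors of
norm 8 contains a frame of 24 pairwise orthogonal vectors of norm 8.
-/

set_option autoImplicit false

namespace Cfsg.Agent.H65.Conway

open Matrix Cfsg.Agent.H93.Conway

theorem frame : Cfsg.Agent.H93.Conway.StmtFrame := by
  intro hOrth B hB s hs hs8 hscong
  classical
  let ψ : (Fin 24 → ℤ) → Sym2 (Fin 24 → ℤ) := fun x => s(x, -x)
  have hψ : ∀ x y, ψ x = ψ y → y = x ∨ y = -x := by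
    intro x y h
    rcases Sym2.eq_iff.1 h with ⟨h1, -⟩ | ⟨-, h2⟩
    · exact Or.inl h1.symm
    · exact Or.inr h2.symm
  have hcard : s.card ≤ 2 * (s.image ψ).card := by
    refine Finset.card_le_mul_card_image s 2 ?_
    intro a ha
    obtain ⟨x, hx, rfl⟩ := Finset.mem_image.1 ha
    calc (s.filter fun y => ψ y = ψ x).card ≤ ({x, -x} : Finset (Fin 24 → ℤ)).card := by
          refine Finset.card_le_card ?_
          intro y hy
          rw [Finset.mem_filter] at hy
          rcases hψ x y hy.2.symm with h | h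
          · simp [h]
          · simp [h]
      _ ≤ 2 := Finset.card_le_two
  have h24 : 24 ≤ (s.image ψ).card := by omega
  obtain ⟨t, hts, htc⟩ := Finset.exists_subset_card_eq h24
  let r := (Finset.equivFinOfCardEq htc).symm
  have hr : ∀ i : Fin 24, ∃ x ∈ s, ψ x = (r i : Sym2 (Fin 24 → ℤ)) := by
    intro i
    exact Finset.mem_image.1 (hts (r i).2)
  choose x hxs hxψ using hr
  have hne : ∀ i j, i ≠ j → x i ≠ x j ∧ x i ≠ - x j := by
    intro i j hij
    have hne' : ψ (x i) ≠ ψ (x j) := by
      rw [hxψ, hxψ]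
      intro h
      exact hij (r.injective (Subtype.ext h))
    constructor
    · intro h
      exact hne' (by rw [h])
    · intro h
      apply hne'
      rw [h]
      show s(-x j, - -x j) = s(x j, -x j)
      rw [neg_neg]
      exact Sym2.eq_swap
  refine ⟨Matrix.of x, ?_, ?_⟩
  · ext i j
    have h1 : (Matrix.of x * B * (Matrix.of x)ᵀ) i j = x i ⬝ᵥ (B *ᵥ x j) := by
      rw [Matrix.mul_apply', Matrix.dotProduct_mulVec]
      rfl
    rw [h1, Matrix.smul_apply, Matrix.one_apply]
    by_cases hij : i = j
    · subst hij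
      rw [hs8 _ (hxs i)]
      simp
    · obtain ⟨u, hu⟩ := hscong _ (hxs i) _ (hxs j)
      have := (hOrth B hB (x i) (x j) u (hs8 _ (hxs i)).le (hs8 _ (hxs j)).le hu
        (hne i j hij).1 (hne i j hij).2).2.2
      rw [this]
      simp [hij]
  · intro i j
    exact hscong _ (hxs i) _ (hxs j)

example : Cfsg.Agent.H93.Conway.StmtFrame := frame

end Cfsg.Agent.H65.Conway
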