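import Mathlib
import Cfsg.Agent.H81.CycDefs
import Cfsg.Agent.H32.SNC2

/-!
# S1502-CARD (helper65, for helper81)

For a self-normalizing cyclic `W = W₁ × W₂` of odd order, the numbers of nontrivial linear
characters trivial on `W₂`, resp. on `W₁`, are even, at least `2`, and one of them is at least `4`.
-/

set_option autoImplicit false
set_option linter.style.haveILetI false

namespace Cfsg.Agent.H65.Cyc

open Cfsg Cfsg.Agent.H81.Cyc

universe u

/-- Removing one point from a type of cardinality `n ≥ 1`. -/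
theorem card_subtype_and_ne {α : Type*} (P : α → Prop) (a : α) (ha : P a) (n : ℕ) (hn : 0 < n)
    (hcard : Nat.card {x : α // P x} = n) :
    Nat.card {x : α // x ≠ a ∧ P x} + 1 = n := by
  classical
  haveI : Finite {x : α // P x} := Nat.finite_of_card_ne_zero (by omega)
  let e : {y : {x : α // P x} // y ≠ ⟨a, ha⟩} ≃ {x : α // x ≠ a ∧ P x} :=
    { toFun := fun x => ⟨x.1.1, fun h => x.2 (Subtype.ext h), x.1.2⟩
      invFun := fun y => ⟨⟨y.1, y.2.2⟩, fun h => y.2.1 (congrArg Subtype.val h)⟩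
      left_inv := fun _ => rfl
      right_inv := fun _ => rfl }
  rw [← Nat.card_congr e, ← hcard,
    ← Nat.card_congr (Equiv.optionSubtypeNe (⟨a, ha⟩ : {x : α // P x})), Finite.card_option]

theorem card : StmtCard.{u} := by
  intro G _ _ W₁ W₂ hW' hodd
  obtain ⟨hW1, hW2, hinf, -, hcyc, -⟩ := id hW'
  have hL := Cfsg.Agent.H32.snc_card_left W₁ W₂ hW'
  have hR := Cfsg.Agent.H32.snc_card_right W₁ W₂ hW'
  have hn1pos : 0 < Nat.card W₁ := Nat.card_pos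
  have hn2pos : 0 < Nat.card W₂ := Nat.card_pos
  have hIL : Nat.card (IdxL W₁ W₂) + 1 = Nat.card W₁ :=
    card_subtype_and_ne (fun φ : ↥(W₁ ⊔ W₂) →* ℂˣ => ∀ w : ↥(W₁ ⊔ W₂), (w : G) ∈ W₂ → φ w = 1)
      1 (fun _ _ => rfl) _ hn1pos hL
  have hIR : Nat.card (IdxR W₁ W₂) + 1 = Nat.card W₂ :=
    card_subtype_and_ne (fun ψ : ↥(W₁ ⊔ W₂) →* ℂˣ => ∀ w : ↥(W₁ ⊔ W₂), (w : G) ∈ W₁ → ψ w = 1)
      1 (fun _ _ => rfl) _ hn2pos hR
  have hd1 : Nat.card W₁ ∣ Nat.card ↥(W₁ ⊔ W₂) := Subgroup.card_dvd_of_le le_sup_left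
  have hd2 : Nat.card W₂ ∣ Nat.card ↥(W₁ ⊔ W₂) := Subgroup.card_dvd_of_le le_sup_right
  have ho1 : Odd (Nat.card W₁) := hodd.of_dvd_nat hd1
  have ho2 : Odd (Nat.card W₂) := hodd.of_dvd_nat hd2
  have hne1 : Nat.card W₁ ≠ 1 := fun h => hW1 (Subgroup.eq_bot_of_card_eq W₁ h)
  have hne2 : Nat.card W₂ ≠ 1 := fun h => hW2 (Subgroup.eq_bot_of_card_eq W₂ h)
  have hne : Nat.card W₁ ≠ Nat.card W₂ := by
    intro heq
    apply hW2
    rw [Subgroup.eq_bot_iff_forall]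
    intro w hw
    have hpow : w ^ Nat.card W₁ = 1 := by
      rw [heq]
      have h1 : (⟨w, hw⟩ : W₂) ^ Nat.card W₂ = 1 := pow_card_eq_one'
      have h2 : (((⟨w, hw⟩ : W₂) ^ Nat.card W₂ : W₂) : G) = ((1 : W₂) : G) := by rw [h1]
      rw [Subgroup.coe_pow] at h2
      exact h2
    have hw1 : w ∈ W₁ := Cfsg.Agent.H32.mem_of_pow_card_eq_one_of_cyclic W₁ (W₁ ⊔ W₂)
      le_sup_left hcyc (Subgroup.mem_sup_right hw) hpow
    have hmem : w ∈ W₁ ⊓ W₂ := ⟨hw1, hw⟩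
    rw [hinf, Subgroup.mem_bot] at hmem
    exact hmem
  obtain ⟨k1, hk1⟩ := ho1
  obtain ⟨k2, hk2⟩ := ho2
  by_cases h5 : 5 ≤ Nat.card W₂
  · left
    omega
  · right
    omega

example : StmtCard.{u} := card

end Cfsg.Agent.H65.Cyc
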