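import Mathlib
import Cfsg.Agent.H81.CycDefs
import Cfsg.Agent.H32.SNC2
import Cfsg.Agent.H82.Irr
import Cfsg.Agent.H4.Irr
import Cfsg.Agent.H65.CycCard

/-!
# S1502-FAM (helper65, for helper81)

From an array `X` of standard shape expanding the induced functions `indFun W α_{φψ}`, build the
family `χ` of signed irreducible characters indexed by the linear characters of `W = W₁ × W₂`.
-/

set_option autoImplicit false
set_option linter.style.haveILetI false

namespace Cfsg.Agent.H65.Cyc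

open Cfsg Cfsg.Agent.H81.Cyc

open scoped ComplexConjugate

universe u

/-- The irreducible character attached to a pair of optional indices. -/
def famT {I J ι : Type*} (triv : ι) (a : I → ι) (b : J → ι) (c : I → J → ι) :
    Option I → Option J → ι
  | none, none => triv
  | some i, none => a i
  | none, some j => b j
  | some i, some j => c i j

/-- The sign attached to a pair of optional indices. -/
def famS {I J : Type*} (ea : I → ℤ) (eb : J → ℤ) (ec : I → J → ℤ) : Option I → Option J → ℤ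
  | none, none => 1
  | some i, none => - ea i
  | none, some j => - eb j
  | some i, some j => ec i j

theorem famT_inj {I J ι : Type*} (triv : ι) (a : I → ι) (b : J → ι) (c : I → J → ι)
    (hta : ∀ i, a i ≠ triv) (htb : ∀ j, b j ≠ triv) (htc : ∀ i j, c i j ≠ triv)
    (ha : Function.Injective a) (hb : Function.Injective b)
    (hc : ∀ i j k l, c i j = c k l → i = k ∧ j = l)
    (hab : ∀ i j, a i ≠ b j) (hac : ∀ i k l, a i ≠ c k l) (hbc : ∀ j k l, b j ≠ c k l) :
    ∀ (p : Option I) (q : Option J) (p' : Option I) (q' : Option J),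
      famT triv a b c p q = famT triv a b c p' q' → p = p' ∧ q = q'
  | none, none, none, none, _ => ⟨rfl, rfl⟩
  | none, none, some i, none, h => absurd h.symm (hta i)
  | none, none, none, some j, h => absurd h.symm (htb j)
  | none, none, some i, some j, h => absurd h.symm (htc i j)
  | some i, none, none, none, h => absurd h (hta i)
  | some _, none, some _, none, h => ⟨congrArg some (ha h), rfl⟩
  | some i, none, none, some j, h => absurd h (hab i j)
  | some i, none, some k, some l, h => absurd h (hac i k l)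
  | none, some j, none, none, h => absurd h (htb j)
  | none, some j, some i, none, h => absurd h.symm (hab i j)
  | none, some _, none, some _, h => ⟨rfl, congrArg some (hb h)⟩
  | none, some j, some k, some l, h => absurd h (hbc j k l)
  | some i, some j, none, none, h => absurd h (htc i j)
  | some i, some j, some k, none, h => absurd h.symm (hac k i j)
  | some i, some j, none, some l, h => absurd h.symm (hbc l i j)
  | some i, some j, some k, some l, h => by
    obtain ⟨h1, h2⟩ := hc i j k l h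
    exact ⟨congrArg some h1, congrArg some h2⟩

theorem famS_cases {I J : Type*} (ea : I → ℤ) (eb : J → ℤ) (ec : I → J → ℤ)
    (hea : ∀ i, ea i = 1 ∨ ea i = -1) (heb : ∀ j, eb j = 1 ∨ eb j = -1)
    (hec : ∀ i j, ec i j = 1 ∨ ec i j = -1) :
    ∀ (p : Option I) (q : Option J), famS ea eb ec p q = 1 ∨ famS ea eb ec p q = -1
  | none, none => Or.inl rfl
  | some i, none => by rcases hea i with h | h <;> simp [famS, h]
  | none, some j => by rcases heb j with h | h <;> simp [famS, h]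
  | some i, some j => hec i j

theorem sum_three {ι : Type*} [Fintype ι] {M : Type*} [AddCommMonoid M] (f : ι → M) (x y z : ι)
    (hxy : x ≠ y) (hxz : x ≠ z) (hyz : y ≠ z)
    (h : ∀ t, t ≠ x → t ≠ y → t ≠ z → f t = 0) : ∑ t, f t = f x + f y + f z := by
  classical
  rw [← Finset.sum_subset (Finset.subset_univ {x, y, z})]
  · rw [Finset.sum_insert (by simp [hxy, hxz]), Finset.sum_insert (by simp [hyz]),
      Finset.sum_singleton, add_assoc]
  · intro t _ ht
    simp only [Finset.mem_insert, Finset.mem_singleton, not_or] at ht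
    exact h t ht.1 ht.2.1 ht.2.2

theorem fam : StmtFam.{u} := by
  intro G _ _ _ W₁ W₂ hW X hStd hprinc hind
  classical
  obtain ⟨a, b, c, ea, eb, ec, hea, heb, hec, ha_inj, hb_inj, hc_inj, hab, hac, hbc, hXa, hXb,
    hXc, hX0⟩ := hStd
  -- nonemptiness of the index types
  have hneL : Nonempty (IdxL W₁ W₂) := by
    have hIL : Nat.card (IdxL W₁ W₂) + 1 = Nat.card W₁ :=
      card_subtype_and_ne (fun φ : ↥(W₁ ⊔ W₂) →* ℂˣ => ∀ w : ↥(W₁ ⊔ W₂), (w : G) ∈ W₂ → φ w = 1)
        1 (fun _ _ => rfl) _ Nat.card_pos (Cfsg.Agent.H32.snc_card_left W₁ W₂ hW)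
    have hne1 : Nat.card W₁ ≠ 1 := fun h => hW.1 (Subgroup.eq_bot_of_card_eq W₁ h)
    have : Nat.card (IdxL W₁ W₂) ≠ 0 := by omega
    exact (Nat.card_ne_zero.mp this).1
  have hneR : Nonempty (IdxR W₁ W₂) := by
    have hIR : Nat.card (IdxR W₁ W₂) + 1 = Nat.card W₂ :=
      card_subtype_and_ne (fun ψ : ↥(W₁ ⊔ W₂) →* ℂˣ => ∀ w : ↥(W₁ ⊔ W₂), (w : G) ∈ W₁ → ψ w = 1)
        1 (fun _ _ => rfl) _ Nat.card_pos (Cfsg.Agent.H32.snc_card_right W₁ W₂ hW)
    have hne1 : Nat.card W₂ ≠ 1 := fun h => hW.2.1 (Subgroup.eq_bot_of_card_eq W₂ h)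
    have : Nat.card (IdxR W₁ W₂) ≠ 0 := by omega
    exact (Nat.card_ne_zero.mp this).1
  obtain ⟨i₀⟩ := hneL
  obtain ⟨j₀⟩ := hneR
  -- the principal character
  let triv : IrrCharacter G := Cfsg.Agent.H82.linChar 1
  have htriv : (triv : G → ℂ) = fun _ => 1 := by
    funext g
    show ((((1 : G →* ℂˣ) g : ℂˣ)) : ℂ) = 1
    simp
  have hsign : ∀ z : ℤ, z = 1 ∨ z = -1 → z ≠ 0 := by
    intro z hz
    rcases hz with h | h <;> omega
  have hta : ∀ i, a i ≠ triv := by
    intro i h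
    have h0 := hprinc i j₀ (a i) (by rw [h]; exact htriv)
    rw [hXa] at h0
    exact hsign _ (hea i) h0
  have htb : ∀ j, b j ≠ triv := by
    intro j h
    have h0 := hprinc i₀ j (b j) (by rw [h]; exact htriv)
    rw [hXb] at h0
    exact hsign _ (heb j) h0
  have htc : ∀ i j, c i j ≠ triv := by
    intro i j h
    have h0 := hprinc i j (c i j) (by rw [h]; exact htriv)
    rw [hXc] at h0
    exact hsign _ (hec i j) h0
  -- the decomposition of linear characters
  have hdec := Cfsg.Agent.H32.snc_decomp W₁ W₂ hW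
  choose dL dR hdL hdR hd using hdec
  have huniq : ∀ (φ ψ : ↥(W₁ ⊔ W₂) →* ℂˣ),
      (∀ w : ↥(W₁ ⊔ W₂), (w : G) ∈ W₂ → φ w = 1) → (∀ w : ↥(W₁ ⊔ W₂), (w : G) ∈ W₁ → ψ w = 1) →
      dL (φ * ψ) = φ ∧ dR (φ * ψ) = ψ := by
    intro φ ψ hφ hψ
    exact Cfsg.Agent.H32.snc_mul_eq_mul W₁ W₂ (dL (φ * ψ)) φ (dR (φ * ψ)) ψ (hdL _) hφ (hdR _) hψ
      (hd (φ * ψ)).symm
  let kL : (↥(W₁ ⊔ W₂) →* ℂˣ) → Option (IdxL W₁ W₂) := fun ω =>
    if h : dL ω = 1 then none else some ⟨dL ω, h, hdL ω⟩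
  let kR : (↥(W₁ ⊔ W₂) →* ℂˣ) → Option (IdxR W₁ W₂) := fun ω =>
    if h : dR ω = 1 then none else some ⟨dR ω, h, hdR ω⟩
  have hkL_none : ∀ ω, dL ω = 1 → kL ω = none := fun ω h => dif_pos h
  have hkR_none : ∀ ω, dR ω = 1 → kR ω = none := fun ω h => dif_pos h
  have hkL_some : ∀ ω (i : IdxL W₁ W₂), dL ω = i.1 → kL ω = some i := by
    intro ω i h
    have hne : dL ω ≠ 1 := by rw [h]; exact i.2.1
    show (if h : dL ω = 1 then none else some ⟨dL ω, h, hdL ω⟩) = some i
    rw [dif_neg hne]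
    exact congrArg some (Subtype.ext h)
  have hkR_some : ∀ ω (j : IdxR W₁ W₂), dR ω = j.1 → kR ω = some j := by
    intro ω j h
    have hne : dR ω ≠ 1 := by rw [h]; exact j.2.1
    show (if h : dR ω = 1 then none else some ⟨dR ω, h, hdR ω⟩) = some j
    rw [dif_neg hne]
    exact congrArg some (Subtype.ext h)
  -- the key is injective
  have hkL_inj : ∀ ω ω', kL ω = kL ω' → dL ω = dL ω' := by
    intro ω ω' h
    by_cases h1 : dL ω = 1
    · by_cases h2 : dL ω' = 1
      · rw [h1, h2]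
      · have e1 : kL ω = none := dif_pos h1
        have e2 : kL ω' = some ⟨dL ω', h2, hdL ω'⟩ := dif_neg h2
        rw [e1, e2] at h
        exact absurd h (by simp)
    · by_cases h2 : dL ω' = 1
      · have e1 : kL ω = some ⟨dL ω, h1, hdL ω⟩ := dif_neg h1
        have e2 : kL ω' = none := dif_pos h2
        rw [e1, e2] at h
        exact absurd h (by simp)
      · have e1 : kL ω = some ⟨dL ω, h1, hdL ω⟩ := dif_neg h1
        have e2 : kL ω' = some ⟨dL ω', h2, hdL ω'⟩ := dif_neg h2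
        rw [e1, e2] at h
        exact congrArg Subtype.val (Option.some.inj h)
  have hkR_inj : ∀ ω ω', kR ω = kR ω' → dR ω = dR ω' := by
    intro ω ω' h
    by_cases h1 : dR ω = 1
    · by_cases h2 : dR ω' = 1
      · rw [h1, h2]
      · have e1 : kR ω = none := dif_pos h1
        have e2 : kR ω' = some ⟨dR ω', h2, hdR ω'⟩ := dif_neg h2
        rw [e1, e2] at h
        exact absurd h (by simp)
    · by_cases h2 : dR ω' = 1
      · have e1 : kR ω = some ⟨dR ω, h1, hdR ω⟩ := dif_neg h1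
        have e2 : kR ω' = none := dif_pos h2
        rw [e1, e2] at h
        exact absurd h (by simp)
      · have e1 : kR ω = some ⟨dR ω, h1, hdR ω⟩ := dif_neg h1
        have e2 : kR ω' = some ⟨dR ω', h2, hdR ω'⟩ := dif_neg h2
        rw [e1, e2] at h
        exact congrArg Subtype.val (Option.some.inj h)
  have hkey_inj : ∀ ω ω', kL ω = kL ω' → kR ω = kR ω' → ω = ω' := by
    intro ω ω' h1 h2
    rw [hd ω, hd ω', hkL_inj ω ω' h1, hkR_inj ω ω' h2]
  -- the family
  let T : (↥(W₁ ⊔ W₂) →* ℂˣ) → IrrCharacter G := fun ω => famT triv a b c (kL ω) (kR ω)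
  let S : (↥(W₁ ⊔ W₂) →* ℂˣ) → ℤ := fun ω => famS ea eb ec (kL ω) (kR ω)
  have hS : ∀ ω, S ω = 1 ∨ S ω = -1 := fun ω => famS_cases ea eb ec hea heb hec _ _
  have hT_inj : ∀ ω ω', T ω = T ω' → ω = ω' := by
    intro ω ω' h
    obtain ⟨h1, h2⟩ := famT_inj triv a b c hta htb htc ha_inj hb_inj hc_inj hab hac hbc _ _ _ _ h
    exact hkey_inj ω ω' h1 h2
  refine ⟨fun ω => ((S ω : ℤ) : ℂ) • (T ω : G → ℂ), ?_, ?_, ?_, ?_, ?_⟩
  · -- irr_or_neg
    intro ω
    rcases hS ω with h | h
    · left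
      have : (((S ω : ℤ) : ℂ) • (T ω : G → ℂ)) = (T ω : G → ℂ) := by
        rw [h]; simp
      rw [this]
      exact (T ω).2
    · right
      have : -(((S ω : ℤ) : ℂ) • (T ω : G → ℂ)) = (T ω : G → ℂ) := by
        rw [h]; simp
      rw [this]
      exact (T ω).2
  · -- norm_one
    intro ω
    show classInner (((S ω : ℤ) : ℂ) • (T ω : G → ℂ)) (((S ω : ℤ) : ℂ) • (T ω : G → ℂ)) = 1
    rw [Cfsg.Agent.H4.classInner_smul_left, Cfsg.Agent.H4.classInner_smul_right,
      Cfsg.Agent.H4.irr_inner_self, map_intCast]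
    rcases hS ω with h | h <;> rw [h] <;> norm_num
  · -- orth
    intro ω ω' hne
    show classInner (((S ω : ℤ) : ℂ) • (T ω : G → ℂ)) (((S ω' : ℤ) : ℂ) • (T ω' : G → ℂ)) = 0
    rw [Cfsg.Agent.H4.classInner_smul_left, Cfsg.Agent.H4.classInner_smul_right,
      Cfsg.Agent.H4.irr_inner_ne (fun h => hne (hT_inj ω ω' h))]
    simp
  · -- map_one
    have h11 := huniq 1 1 (fun _ _ => rfl) (fun _ _ => rfl)
    have e11 : (1 : ↥(W₁ ⊔ W₂) →* ℂˣ) * 1 = 1 := by ext w; simp
    rw [e11] at h11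
    have e1 : kL 1 = none := hkL_none 1 h11.1
    have e2 : kR 1 = none := hkR_none 1 h11.2
    show ((S 1 : ℤ) : ℂ) • (T 1 : G → ℂ) = fun _ => 1
    have hS1 : S 1 = 1 := by
      show famS ea eb ec (kL 1) (kR 1) = 1
      rw [e1, e2]; rfl
    have hT1 : T 1 = triv := by
      show famT triv a b c (kL 1) (kR 1) = triv
      rw [e1, e2]; rfl
    rw [hS1, hT1, htriv]
    simp
  · -- induced_eq
    intro φ ψ hφ1 hψ1 hφ hψ
    funext g
    let i : IdxL W₁ W₂ := ⟨φ, hφ1, hφ⟩
    let j : IdxR W₁ W₂ := ⟨ψ, hψ1, hψ⟩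
    have hφφ := huniq φ 1 hφ (fun _ _ => rfl)
    have eφ1 : φ * 1 = φ := by ext w; simp
    rw [eφ1] at hφφ
    have hψψ := huniq 1 ψ (fun _ _ => rfl) hψ
    have e1ψ : 1 * ψ = ψ := by ext w; simp
    rw [e1ψ] at hψψ
    have hφψ := huniq φ ψ hφ hψ
    have eφL : kL φ = some i := hkL_some φ i hφφ.1
    have eφR : kR φ = none := hkR_none φ hφφ.2
    have eψL : kL ψ = none := hkL_none ψ hψψ.1
    have eψR : kR ψ = some j := hkR_some ψ j hψψ.2
    have eφψL : kL (φ * ψ) = some i := hkL_some (φ * ψ) i hφψ.1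
    have eφψR : kR (φ * ψ) = some j := hkR_some (φ * ψ) j hφψ.2
    have hSφ : S φ = - ea i := by
      show famS ea eb ec (kL φ) (kR φ) = _
      rw [eφL, eφR]; rfl
    have hTφ : T φ = a i := by
      show famT triv a b c (kL φ) (kR φ) = _
      rw [eφL, eφR]; rfl
    have hSψ : S ψ = - eb j := by
      show famS ea eb ec (kL ψ) (kR ψ) = _
      rw [eψL, eψR]; rfl
    have hTψ : T ψ = b j := by
      show famT triv a b c (kL ψ) (kR ψ) = _
      rw [eψL, eψR]; rfl
    have hSφψ : S (φ * ψ) = ec i j := by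
      show famS ea eb ec (kL (φ * ψ)) (kR (φ * ψ)) = _
      rw [eφψL, eφψR]; rfl
    have hTφψ : T (φ * ψ) = c i j := by
      show famT triv a b c (kL (φ * ψ)) (kR (φ * ψ)) = _
      rw [eφψL, eφψR]; rfl
    have hsum : ∑ χ : IrrCharacter G, (X i j χ : ℂ) * (χ : G → ℂ) g =
        (ea i : ℂ) * (a i : G → ℂ) g + (eb j : ℂ) * (b j : G → ℂ) g +
          (ec i j : ℂ) * (c i j : G → ℂ) g := by
      rw [sum_three (fun χ : IrrCharacter G => (X i j χ : ℂ) * (χ : G → ℂ) g) (a i) (b j) (c i j)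
        (hab i j) (hac i i j) (hbc j i j)
        (fun t h1 h2 h3 => by rw [hX0 i j t h1 h2 h3]; simp)]
      rw [hXa, hXb, hXc]
    refine (hind i j g).trans ?_
    rw [hsum]
    show _ = 1 - (((S φ : ℤ) : ℂ) • (T φ : G → ℂ)) g - (((S ψ : ℤ) : ℂ) • (T ψ : G → ℂ)) g +
      (((S (φ * ψ) : ℤ) : ℂ) • (T (φ * ψ) : G → ℂ)) g
    rw [hSφ, hTφ, hSψ, hTψ, hSφψ, hTφψ]
    simp only [Pi.smul_apply, smul_eq_mul]
    push_cast
    ring

example : StmtFam.{u} := fam

end Cfsg.Agent.H65.Cyc
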