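import Mathlib
import Cfsg.Prelude.Def_Characters

/-!
# The "determinant trick" (helper65)

A perfect group has no character `χ` of degree `4` taking the value `-1` on the non-identity powers
of an element `x` of order `5` that is conjugate to its square by an element `y` with
`χ (y ^ 4) ∈ {4, -1}`: in the representation, `1 + X + X² + X³ + X⁴ = 0`, so the traces of
`Y, Y², Y³` vanish, and Newton's identity gives `24 det Y = -6 tr Y⁴ ≠ 24`.
-/

set_option autoImplicit false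

namespace Cfsg.Agent.H65.DetTrick

/-- Newton's identity: the determinant of a `4 × 4` matrix through its power traces. -/
theorem newton4 {R : Type*} [CommRing R] (M : Matrix (Fin 4) (Fin 4) R) :
    24 * M.det = M.trace ^ 4 - 6 * M.trace ^ 2 * (M ^ 2).trace + 3 * (M ^ 2).trace ^ 2
      + 8 * M.trace * (M ^ 3).trace - 6 * (M ^ 4).trace := by
  simp only [Matrix.det_succ_row_zero, Matrix.trace, Matrix.diag, pow_succ, pow_zero, one_mul,
    Matrix.mul_apply, Fin.sum_univ_succ, Fin.sum_univ_zero, Matrix.submatrix_apply,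
    Matrix.det_unique, Fin.succAbove]
  simp
  ring

theorem trace_toMatrix' (f : Module.End ℂ (Fin 4 → ℂ)) :
    (LinearMap.toMatrix' f).trace = LinearMap.trace ℂ _ f := by
  rw [LinearMap.trace_eq_matrix_trace ℂ (Pi.basisFun ℂ (Fin 4)) f, LinearMap.toMatrix_eq_toMatrix']

theorem toMatrix'_pow (f : Module.End ℂ (Fin 4 → ℂ)) (k : ℕ) :
    LinearMap.toMatrix' (f ^ k) = (LinearMap.toMatrix' f) ^ k := by
  induction k with
  | zero => rw [pow_zero, pow_zero, LinearMap.toMatrix'_one]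
  | succ k ih => rw [pow_succ, pow_succ, LinearMap.toMatrix'_mul, ih]

/-- Newton's identity for endomorphisms of `ℂ⁴`. -/
theorem newton4_lin (f : Module.End ℂ (Fin 4 → ℂ)) :
    24 * LinearMap.det f = (LinearMap.trace ℂ _ f) ^ 4
      - 6 * (LinearMap.trace ℂ _ f) ^ 2 * LinearMap.trace ℂ _ (f ^ 2)
      + 3 * (LinearMap.trace ℂ _ (f ^ 2)) ^ 2
      + 8 * LinearMap.trace ℂ _ f * LinearMap.trace ℂ _ (f ^ 3)
      - 6 * LinearMap.trace ℂ _ (f ^ 4) := by
  have h := newton4 (LinearMap.toMatrix' f)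
  rw [LinearMap.det_toMatrix', ← toMatrix'_pow, ← toMatrix'_pow, ← toMatrix'_pow,
    trace_toMatrix', trace_toMatrix', trace_toMatrix', trace_toMatrix'] at h
  exact h

section Trace

variable {V : Type*} [AddCommGroup V] [Module ℂ V]

theorem trace_period (X Z : Module.End ℂ V) (hX : X ^ 5 = 1) (k : ℕ) :
    LinearMap.trace ℂ V (X ^ (k + 5) * Z) = LinearMap.trace ℂ V (X ^ k * Z) := by
  rw [pow_add, hX, mul_one]

theorem trace_step (X Z : Module.End ℂ V) (c : ℕ) (hX : X ^ 5 = 1) (h : Z * X = X ^ c * Z)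
    (k : ℕ) :
    LinearMap.trace ℂ V (X ^ (k + c + 4) * Z) = LinearMap.trace ℂ V (X ^ k * Z) := by
  have e1 : X ^ (k + c + 4) * Z = (X ^ 4 * X ^ k * Z) * X := by
    rw [mul_assoc (X ^ 4 * X ^ k) Z X, h, ← mul_assoc, ← pow_add, ← pow_add]
    congr 2
    omega
  rw [e1, LinearMap.trace_mul_comm]
  have e2 : X * (X ^ 4 * X ^ k * Z) = X ^ k * Z := by
    rw [← mul_assoc, ← mul_assoc, ← pow_succ', hX, one_mul]
  rw [e2]

/-- If `Z X = X ^ c Z` with `c ∈ {2, 3, 4}`, `X ^ 5 = 1` and `1 + X + X² + X³ + X⁴ = 0`, then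
`tr Z = 0`. -/
theorem trace_eq_zero_of_rel (X Z : Module.End ℂ V) (c : ℕ) (hc : c = 2 ∨ c = 3 ∨ c = 4)
    (hX : X ^ 5 = 1) (hS : 1 + X + X ^ 2 + X ^ 3 + X ^ 4 = 0) (h : Z * X = X ^ c * Z) :
    LinearMap.trace ℂ V Z = 0 := by
  set f : ℕ → ℂ := fun k => LinearMap.trace ℂ V (X ^ k * Z) with hf
  have hper : ∀ k, f (k + 5) = f k := fun k => trace_period X Z hX k
  have hstep : ∀ k, f (k + c + 4) = f k := fun k => trace_step X Z c hX h k
  have hsum : f 0 + f 1 + f 2 + f 3 + f 4 = 0 := by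
    have : (1 + X + X ^ 2 + X ^ 3 + X ^ 4) * Z = 0 := by rw [hS, zero_mul]
    have h2 := congrArg (LinearMap.trace ℂ V) this
    simp only [add_mul, map_add, map_zero] at h2
    simp only [hf, pow_zero, pow_one]
    exact h2
  have hall : f 1 = f 0 ∧ f 2 = f 0 ∧ f 3 = f 0 ∧ f 4 = f 0 := by
    rcases hc with rfl | rfl | rfl
    · have h1 : ∀ k, f (k + 1) = f k := fun k => by
        have := hstep k; rw [show k + 2 + 4 = (k + 1) + 5 by omega, hper] at this; exact this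
      refine ⟨h1 0, ?_, ?_, ?_⟩
      · rw [h1 1, h1 0]
      · rw [h1 2, h1 1, h1 0]
      · rw [h1 3, h1 2, h1 1, h1 0]
    · have h2 : ∀ k, f (k + 2) = f k := fun k => by
        have := hstep k; rw [show k + 3 + 4 = (k + 2) + 5 by omega, hper] at this; exact this
      have e2 : f 2 = f 0 := h2 0
      have e4 : f 4 = f 0 := by rw [h2 2, e2]
      have e1 : f 1 = f 0 := by rw [← hper 1, h2 4, e4]
      have e3 : f 3 = f 0 := by rw [h2 1, e1]
      exact ⟨e1, e2, e3, e4⟩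
    · have h3 : ∀ k, f (k + 3) = f k := fun k => by
        have := hstep k; rw [show k + 4 + 4 = (k + 3) + 5 by omega, hper] at this; exact this
      have e3 : f 3 = f 0 := h3 0
      have e1 : f 1 = f 0 := by rw [← hper 1, h3 3, e3]
      have e4 : f 4 = f 0 := by rw [h3 1, e1]
      have e2 : f 2 = f 0 := by rw [← hper 2, h3 4, e4]
      exact ⟨e1, e2, e3, e4⟩
  obtain ⟨e1, e2, e3, e4⟩ := hall
  rw [e1, e2, e3, e4] at hsum
  have h0 : f 0 = 0 := by linear_combination hsum / 5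
  simpa [hf] using h0

/-- If `X ^ 5 = 1` and the traces of `X, X², X³, X⁴` are all `-1` on a `4`-dimensional space,
then `1 + X + X² + X³ + X⁴ = 0`. -/
theorem sum_pow_eq_zero [Module.Finite ℂ V] (X : Module.End ℂ V)
    (hdim : Module.finrank ℂ V = 4) (hX : X ^ 5 = 1)
    (h1 : LinearMap.trace ℂ V X = -1) (h2 : LinearMap.trace ℂ V (X ^ 2) = -1)
    (h3 : LinearMap.trace ℂ V (X ^ 3) = -1) (h4 : LinearMap.trace ℂ V (X ^ 4) = -1) :
    1 + X + X ^ 2 + X ^ 3 + X ^ 4 = 0 := by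
  set S : Module.End ℂ V := 1 + X + X ^ 2 + X ^ 3 + X ^ 4 with hS
  have hSX : S * X = S := by
    rw [hS]
    have : (1 + X + X ^ 2 + X ^ 3 + X ^ 4) * X = X + X ^ 2 + X ^ 3 + X ^ 4 + X ^ 5 := by
      noncomm_ring
    rw [this, hX]
    abel
  have hSXk : ∀ k : ℕ, S * X ^ k = S := by
    intro k
    induction k with
    | zero => rw [pow_zero, mul_one]
    | succ k ih => rw [pow_succ, ← mul_assoc, ih, hSX]
  have hSS : S * S = (5 : ℂ) • S := by
    have e : S * S = S * (1 + X + X ^ 2 + X ^ 3 + X ^ 4) := by rw [← hS]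
    rw [e]
    simp only [mul_add]
    rw [mul_one, hSX, hSXk 2, hSXk 3, hSXk 4]
    module
  have hidem : IsIdempotentElem ((1 / 5 : ℂ) • S) := by
    unfold IsIdempotentElem
    rw [smul_mul_smul_comm, hSS, smul_smul]
    congr 1
    norm_num
  have htr : LinearMap.trace ℂ V ((1 / 5 : ℂ) • S) = 0 := by
    rw [map_smul, hS]
    simp only [map_add]
    rw [h1, h2, h3, h4, LinearMap.trace_one, hdim]
    norm_num
  have h0 := LinearMap.IsIdempotentElem.eq_zero_of_trace_eq_zero hidem htr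
  have h5 : (1 / 5 : ℂ) ≠ 0 := by norm_num
  exact (smul_eq_zero.mp h0).resolve_left h5

end Trace

theorem mul_pow_comm {G : Type*} [Group G] (x y : G) (h : y * x = x ^ 2 * y) (k : ℕ) :
    y * x ^ k = x ^ (2 * k) * y := by
  induction k with
  | zero => simp
  | succ k ih =>
    rw [pow_succ, ← mul_assoc, ih, mul_assoc, h, ← mul_assoc, ← pow_add]
    congr 2

/-- The determinant trick, representation form. -/
theorem rep4_false {G : Type*} [Group G] (ρ : Representation ℂ G (Fin 4 → ℂ)) (x y : G)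
    (hx5 : x ^ 5 = 1) (hyx : y * x * y⁻¹ = x ^ 2)
    (h1 : LinearMap.trace ℂ _ (ρ x) = -1) (h2 : LinearMap.trace ℂ _ (ρ (x ^ 2)) = -1)
    (h3 : LinearMap.trace ℂ _ (ρ (x ^ 3)) = -1) (h4 : LinearMap.trace ℂ _ (ρ (x ^ 4)) = -1)
    (hy4 : LinearMap.trace ℂ _ (ρ (y ^ 4)) = 4 ∨ LinearMap.trace ℂ _ (ρ (y ^ 4)) = -1)
    (hdet : LinearMap.det (ρ y) = 1) : False := by
  have hX : (ρ x) ^ 5 = 1 := by rw [← map_pow, hx5, map_one]
  have hS : 1 + ρ x + (ρ x) ^ 2 + (ρ x) ^ 3 + (ρ x) ^ 4 = 0 := by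
    refine sum_pow_eq_zero (ρ x) (by simp) hX h1 ?_ ?_ ?_
    · rw [← map_pow]; exact h2
    · rw [← map_pow]; exact h3
    · rw [← map_pow]; exact h4
  have hyx' : y * x = x ^ 2 * y := by
    rw [← hyx]; group
  have r1 : ρ y * ρ x = (ρ x) ^ 2 * ρ y := by
    rw [← map_pow, ← map_mul, ← map_mul, hyx']
  have g2 : y ^ 2 * x = x ^ 4 * y ^ 2 := by
    have e := mul_pow_comm x y hyx' 2
    calc y ^ 2 * x = y * (y * x) := by rw [pow_two, mul_assoc]
      _ = y * (x ^ 2 * y) := by rw [hyx']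
      _ = (y * x ^ 2) * y := by rw [mul_assoc]
      _ = x ^ 4 * y * y := by rw [e]
      _ = x ^ 4 * y ^ 2 := by rw [pow_two, mul_assoc]
  have g3 : y ^ 3 * x = x ^ 3 * y ^ 3 := by
    have e := mul_pow_comm x y hyx' 4
    have x8 : x ^ 8 = x ^ 3 := by
      rw [show 8 = 3 + 5 by norm_num, pow_add, hx5, mul_one]
    calc y ^ 3 * x = y * (y ^ 2 * x) := by rw [pow_succ' y 2, mul_assoc]
      _ = y * (x ^ 4 * y ^ 2) := by rw [g2]
      _ = (y * x ^ 4) * y ^ 2 := by rw [mul_assoc]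
      _ = x ^ 8 * y * y ^ 2 := by rw [e]
      _ = x ^ 3 * y ^ 3 := by rw [x8, mul_assoc, ← pow_succ' y 2]
  have r2 : (ρ y) ^ 2 * ρ x = (ρ x) ^ 4 * (ρ y) ^ 2 := by
    rw [← map_pow, ← map_pow, ← map_mul, ← map_mul, g2]
  have r3 : (ρ y) ^ 3 * ρ x = (ρ x) ^ 3 * (ρ y) ^ 3 := by
    rw [← map_pow, ← map_pow, ← map_mul, ← map_mul, g3]
  have t1 := trace_eq_zero_of_rel (ρ x) (ρ y) 2 (Or.inl rfl) hX hS r1
  have t2 := trace_eq_zero_of_rel (ρ x) ((ρ y) ^ 2) 4 (Or.inr (Or.inr rfl)) hX hS r2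
  have t3 := trace_eq_zero_of_rel (ρ x) ((ρ y) ^ 3) 3 (Or.inr (Or.inl rfl)) hX hS r3
  have hN := newton4_lin (ρ y)
  rw [t1, t2, t3, hdet, ← map_pow] at hN
  rcases hy4 with h | h
  · rw [h] at hN; norm_num at hN
  · rw [h] at hN; norm_num at hN

/-- The determinant trick, character form: a perfect group has no character of degree `4`
with value `-1` at the non-identity powers of an element `x`, `x ^ 5 = 1`, conjugate to its
square by an element `y` such that `χ (y ^ 4) ∈ {4, -1}`. -/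
theorem no_char4 {G : Type*} [Group G] (hperf : commutator G = ⊤) (χ : G → ℂ)
    (hχ : Cfsg.IsCharacter G χ) (hdeg : χ 1 = 4) (x y : G) (hx5 : x ^ 5 = 1)
    (hyx : y * x * y⁻¹ = x ^ 2)
    (h1 : χ x = -1) (h2 : χ (x ^ 2) = -1) (h3 : χ (x ^ 3) = -1) (h4 : χ (x ^ 4) = -1)
    (hy4 : χ (y ^ 4) = 4 ∨ χ (y ^ 4) = -1) : False := by
  obtain ⟨n, ρ, rfl⟩ := hχ
  have hn : n = 4 := by
    have := ρ.char_one
    rw [hdeg, Module.finrank_fin_fun] at this
    exact_mod_cast this.symm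
  subst hn
  have hdet : LinearMap.det (ρ y) = 1 := by
    let φ : G →* ℂˣ := ((LinearMap.det : Module.End ℂ (Fin 4 → ℂ) →* ℂ).comp ρ).toHomUnits
    have hker : commutator G ≤ φ.ker := Abelianization.commutator_subset_ker φ
    rw [hperf] at hker
    have hy : φ y = 1 := hker (Subgroup.mem_top y)
    have := congrArg (fun u : ℂˣ => (u : ℂ)) hy
    simpa [φ] using this
  exact rep4_false ρ x y hx5 hyx h1 h2 h3 h4 hy4 hdet

end Cfsg.Agent.H65.DetTrick
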