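import Mathlib
import Cfsg.Agent.H48.GUCDefs

/-!
# GUC-REIDX (helper65, for helper48's S2646): transport from index `Fin n` to index `JI d`.
-/

set_option autoImplicit false

namespace Cfsg.Agent.H65.GUC

open Cfsg.Agent.H48.GUC Cfsg.Agent.H97.Herm Cfsg.Agent.H61

universe u

theorem reidx : ReidxStmt.{u} := by
  intro K _ n t σ d e
  let r : Matrix (JI d) (JI d) K ≃ₐ[K] Matrix (Fin n) (Fin n) K := Matrix.reindexAlgEquiv K K e
  have hr : ∀ M, r M = Matrix.reindex e e M := fun M => rfl
  have hadj : ∀ M : Matrix (JI d) (JI d) K, adj σ (r M) = r ((M.map σ).transpose) := by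
    intro M
    ext i j
    rfl
  have hN : ((jordanNil d K).map σ).transpose = (jordanNil d K).transpose := by
    ext x y
    simp only [Matrix.transpose_apply, Matrix.map_apply, jordanNil, Matrix.of_apply]
    split_ifs <;> simp
  have hdet : ∀ M : Matrix (JI d) (JI d) K, (r M).det = M.det := fun M =>
    Matrix.det_reindex_self e M
  constructor
  · refine ⟨{ toFun := fun G => ⟨r.symm G.1, ?_, ?_, ?_⟩
              invFun := fun G => ⟨r G.1, ?_, ?_, ?_⟩
              left_inv := fun G => Subtype.ext (r.apply_symm_apply G.1)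
              right_inv := fun G => Subtype.ext (r.symm_apply_apply G.1) }⟩
    · apply r.injective
      rw [← hadj, r.apply_symm_apply]
      exact G.2.1
    · rw [← hdet, r.apply_symm_apply]
      exact G.2.2.1
    · apply r.injective
      rw [map_mul, map_mul, r.apply_symm_apply, ← hN, ← hadj]
      exact G.2.2.2
    · rw [hadj, G.2.1]
    · rw [hdet]
      exact G.2.2.1
    · show adj σ (r (jordanNil d K)) * r G.1 = r G.1 * r (jordanNil d K)
      rw [hadj, hN, ← map_mul, ← map_mul, G.2.2.2]
  · let φ : GL (Fin n) K ≃* GL (JI d) K :=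
      Units.mapEquiv (r.symm : Matrix (Fin n) (Fin n) K ≃* Matrix (JI d) (JI d) K)
    have hφ : ∀ g : GL (Fin n) K, ((φ g : GL (JI d) K) : Matrix (JI d) (JI d) K) =
        r.symm (g : Matrix (Fin n) (Fin n) K) := fun g => rfl
    refine ⟨Equiv.subtypeEquiv φ.toEquiv ?_⟩
    intro g
    show (g : Matrix (Fin n) (Fin n) K) * r (jordanNil d K) =
        r (jordanNil d K) * (g : Matrix (Fin n) (Fin n) K) ↔
      ((φ g : GL (JI d) K) : Matrix (JI d) (JI d) K) * Cfsg.jordanTypeMatrix d K =
        Cfsg.jordanTypeMatrix d K * ((φ g : GL (JI d) K) : Matrix (JI d) (JI d) K)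
    rw [commute_jordanType_iff, hφ]
    constructor
    · intro h
      apply r.injective
      rw [map_mul, map_mul, r.apply_symm_apply]
      exact h
    · intro h
      have := congrArg r h
      rw [map_mul, map_mul, r.apply_symm_apply] at this
      exact this

example : ReidxStmt.{u} := reidx

end Cfsg.Agent.H65.GUC
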