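import Mathlib
import Cfsg.Agent.H48.GUCDefs

/-!
# GUC-UNF (helper65, for helper48's S2646): the centraliser in `GU_n(q)` as a set of matrices.
-/

set_option autoImplicit false

namespace Cfsg.Agent.H65.GUC

open Cfsg.Agent.H48.GUC Cfsg.Agent.H97.Herm

universe u

theorem unf : UnfStmt.{u} := by
  intro K _ _ q n hq σ hσ u
  have hmemiff : ∀ g : GL (Fin n) K, g ∈ Cfsg.GU n K q ↔
      adj σ (g : Matrix (Fin n) (Fin n) K) * (g : Matrix (Fin n) (Fin n) K) = 1 := by
    intro g
    rw [← herm_iff σ q hq hσ]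
    rfl
  refine ⟨(hmemiff u.1).1 u.2, ?_⟩
  intro s hs
  have hcent : ∀ c : ↥(Cfsg.GU n K q),
      c ∈ Subgroup.centralizer ({u} : Set ↥(Cfsg.GU n K q)) ↔
        ((c : GL (Fin n) K) : Matrix (Fin n) (Fin n) K) * s =
          s * ((c : GL (Fin n) K) : Matrix (Fin n) (Fin n) K) := by
    intro c
    rw [Subgroup.mem_centralizer_singleton_iff, ← hs]
    constructor
    · intro h
      have h' := congrArg
        (fun x : ↥(Cfsg.GU n K q) => ((x : GL (Fin n) K) : Matrix (Fin n) (Fin n) K)) h
      simp only [Subgroup.coe_mul, Units.val_mul] at h'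
      exact h'
    · intro h
      apply Subtype.ext
      apply Units.ext
      rw [Subgroup.coe_mul, Subgroup.coe_mul, Units.val_mul, Units.val_mul]
      exact h
  exact ⟨{ toFun := fun c => ⟨(c.1 : GL (Fin n) K), (hmemiff _).1 c.1.2, (hcent c.1).1 c.2⟩
           invFun := fun g => ⟨⟨g.1, (hmemiff _).2 g.2.1⟩, (hcent _).2 g.2.2⟩
           left_inv := fun c => rfl
           right_inv := fun g => rfl }⟩

example : UnfStmt.{u} := unf

end Cfsg.Agent.H65.GUC
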