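import Mathlib
import Cfsg.Agent.H64.JzDefs
import Cfsg.Agent.H64.JyDefs
import Cfsg.Agent.H52.JwDefs
import Cfsg.Agent.H12.JzOut1
import Cfsg.Agent.H12.UqK0Conj
import Cfsg.Agent.H14.Thompson

/-!
# JY-CONJ (piece Y3 of S2953; helper64's project) = W-CONJ (helper52's outer assembly)

`Base S M T K L`, `g ∈ M`, `g ∈ N_G(T)`, `g ∉ L`: the conjugates `K^g`, `L^g` form a second
configuration `Base S M T (K^g) (L^g)` over the same `T`, and `L^g ≠ L` (a maximal 2-local
subgroup is self-normalizing).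
-/

set_option autoImplicit false
set_option linter.style.haveILetI false
set_option linter.unusedVariables false
open Cfsg

namespace Cfsg.Agent.H65.Jy

universe u

/-- JY-CONJ, explicit form: the conjugate configuration. -/
theorem conj_base {G : Type u} [Group G] [Finite G] (S : Sylow 2 G) (M T K L : Subgroup G)
    (hB : Cfsg.Agent.H64.Jz.Base S M T K L) (g : G) (hgM : g ∈ M)
    (hgT : g ∈ Subgroup.normalizer (T : Set G)) (hgL : g ∉ L) :
    Cfsg.Agent.H64.Jz.Base S M T (K.map (MulAut.conj g).toMonoidHom)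
        (L.map (MulAut.conj g).toMonoidHom) ∧
      L.map (MulAut.conj g).toMonoidHom ≠ L := by
  obtain ⟨hZN, hO, hM, hMJ, hT, hTS, hK, hLmax, hKJL⟩ := hB
  obtain ⟨hK0, hKM, hKT⟩ := hK
  have hTg : T.map (MulAut.conj g).toMonoidHom = T :=
    Cfsg.Agent.H12.Jz.map_conj_eq_of_mem_normalizer hgT
  have hne : L.map (MulAut.conj g).toMonoidHom ≠ L := fun h =>
    hgL (Cfsg.Agent.H12.Jz.mem_of_map_conj_eq hLmax h)
  refine ⟨⟨hZN, hO, hM, hMJ, hT, hTS, ⟨?_, ?_, ?_⟩,
    Cfsg.Agent.H12.Jz.isMaximalTwoLocal_conj g hLmax, ?_⟩, hne⟩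
  · have h := Cfsg.Agent.H12.Uq.k0conj T K g hK0
    rwa [hTg] at h
  · intro hle
    apply hKM
    intro x hx
    have hx' : g * x * g⁻¹ ∈ M := hle ⟨x, hx, rfl⟩
    have e : x = g⁻¹ * (g * x * g⁻¹) * g := by group
    rw [e]
    exact M.mul_mem (M.mul_mem (M.inv_mem hgM) hx') hgM
  · have h1 : K.map (MulAut.conj g).toMonoidHom ⊔ T =
        (K ⊔ T).map (MulAut.conj g).toMonoidHom := by
      rw [Subgroup.map_sup, hTg]
    rw [h1, Cfsg.Agent.H51.pCoreOf_map 2 (K ⊔ T) (MulAut.conj g)]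
    intro h0
    exact hKT ((Subgroup.map_eq_bot_iff_of_injective _ (MulAut.conj g).injective).mp h0)
  · have hJ : thompsonSubgroupOf 2 T =
        (thompsonSubgroupOf 2 T).map (MulAut.conj g).toMonoidHom := by
      rw [Cfsg.Agent.H14.thompsonSubgroupOf_conj 2 g T, hTg]
    rw [hJ, ← Subgroup.map_sup]
    exact Subgroup.map_mono hKJL

/-- JY-CONJ (Y3), the exact Prop of `H64/JyDefs.lean`. -/
theorem conj : Cfsg.Agent.H64.Jy.StConj.{u} := by
  intro G _ _ S M T K L hB g hgM hgT hgL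
  exact ⟨_, _, conj_base S M T K L hB g hgM hgT hgL⟩

/-- W-CONJ, the exact Prop of `H52/JwDefs.lean`. -/
theorem conjX : Cfsg.Agent.H52.Jw.StConjX.{u} := by
  intro G _ _ S M T K L hB x hxM hxT hxL
  exact ⟨_, _, conj_base S M T K L hB x hxM hxT hxL⟩

end Cfsg.Agent.H65.Jy

example : Cfsg.Agent.H64.Jy.StConj := Cfsg.Agent.H65.Jy.conj
example : Cfsg.Agent.H52.Jw.StConjX := Cfsg.Agent.H65.Jy.conjX
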