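import Mathlib
import Cfsg.Agent.H64.JzDefs
import Cfsg.Agent.S2947

set_option autoImplicit false
set_option linter.style.haveILetI false
set_option linter.unusedVariables false

/-!
# JZ-NSE (helper64's team project S2951 / S2952): a member of the family of `S` containing
`N_G(J(S))` has a straddling 2-subgroup

Otherwise S2947 makes `L` strongly embedded.  Then centralizers of involutions of `L` lie in `L`,
there is an involution `t ∉ L`, `t u` has odd order for every involution `u ∈ L` (else a central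
involution of `⟨t, u⟩` would pull `t` into `L`), so all involutions of `L` are conjugate to `t`,
hence `L`-conjugate to each other, hence contained in `O₂(L) ≠ 1`; so `J(S) ≤ O₂(L)`, which is
excluded.
-/

namespace Cfsg.Agent.H65.Jz

open Cfsg Cfsg.Agent.H64.Jz

universe u

/-- conjugation by an involution inverting `r` fixes every power of `r` of order at most 2. -/
theorem comm_of_invert {G : Type u} [Group G] (s r : G) (m : ℕ) (hs : s * r * s⁻¹ = r⁻¹)
    (hz : (r ^ m) ^ 2 = 1) : r ^ m * s = s * r ^ m := by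
  have h1 : s * r ^ m * s⁻¹ = (r ^ m)⁻¹ := by
    rw [← conj_pow, hs, inv_pow]
  have h2 : (r ^ m)⁻¹ = r ^ m := by
    rw [inv_eq_iff_mul_eq_one, ← pow_two]; exact hz
  rw [h2] at h1
  calc r ^ m * s = (s * r ^ m * s⁻¹) * s := by rw [h1]
    _ = s * r ^ m := by group

/-- if the product of two involutions has even order, some involution commutes with both. -/
theorem exists_invol_comm {G : Type u} [Group G] [Finite G] (t u : G) (ht : t * t = 1)
    (hu : u * u = 1) (he : Even (orderOf (t * u))) :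
    ∃ z : G, orderOf z = 2 ∧ z * t = t * z ∧ z * u = u * z := by
  haveI : Fact (Nat.Prime 2) := ⟨Nat.prime_two⟩
  obtain ⟨m, hm⟩ := he
  have hpos : 0 < orderOf (t * u) := orderOf_pos _
  have hm1 : 0 < m := by omega
  have htinv : t⁻¹ = t := inv_eq_of_mul_eq_one_left ht
  have huinv : u⁻¹ = u := inv_eq_of_mul_eq_one_left hu
  have hz2 : ((t * u) ^ m) ^ 2 = 1 := by
    rw [← pow_mul, mul_two, ← hm]; exact pow_orderOf_eq_one _
  have hz1 : (t * u) ^ m ≠ 1 := by
    intro h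
    have h1 := orderOf_dvd_of_pow_eq_one h
    have h2 := Nat.le_of_dvd hm1 h1
    omega
  have hst : t * (t * u) * t⁻¹ = (t * u)⁻¹ := by
    rw [mul_inv_rev, htinv, huinv, ← mul_assoc, ht, one_mul]
  have hsu : u * (t * u) * u⁻¹ = (t * u)⁻¹ := by
    rw [mul_inv_rev, htinv, huinv, mul_assoc, mul_assoc, hu, mul_one]
  exact ⟨(t * u) ^ m, orderOf_eq_prime hz2 hz1, comm_of_invert t (t * u) m hst hz2,
    comm_of_invert u (t * u) m hsu hz2⟩

/-- if the product of two involutions has odd order, they are conjugate. -/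
theorem conj_of_odd {G : Type u} [Group G] [Finite G] (t u : G) (ht : t * t = 1)
    (hu : u * u = 1) (ho : Odd (orderOf (t * u))) : ∃ d : G, d * t * d⁻¹ = u := by
  obtain ⟨m, hm⟩ := ho
  have htinv : t⁻¹ = t := inv_eq_of_mul_eq_one_left ht
  have huinv : u⁻¹ = u := inv_eq_of_mul_eq_one_left hu
  have hst : t * (t * u) * t⁻¹ = (t * u)⁻¹ := by
    rw [mul_inv_rev, htinv, huinv, ← mul_assoc, ht, one_mul]
  obtain ⟨d, hd⟩ : ∃ d, d = (t * u) ^ m := ⟨_, rfl⟩
  have h1 : t * d * t⁻¹ = d⁻¹ := by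
    rw [hd, ← conj_pow, hst, inv_pow]
  have h2 : t * d⁻¹ * t⁻¹ = d := by
    have h3 : t * d⁻¹ * t⁻¹ = (t * d * t⁻¹)⁻¹ := by group
    rw [h3, h1, inv_inv]
  have h4 : d * d * (t * u) = 1 := by
    rw [hd, ← pow_add, ← pow_succ, ← two_mul, ← hm]
    exact pow_orderOf_eq_one _
  have h5 : d⁻¹ * d⁻¹ = t * u := by
    have h6 : (d * d)⁻¹ = t * u := inv_eq_of_mul_eq_one_right h4
    rw [← h6, mul_inv_rev]
  refine ⟨d, ?_⟩
  calc d * t * d⁻¹ = (t * d⁻¹ * t⁻¹) * t * d⁻¹ := by rw [h2]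
    _ = t * (d⁻¹ * d⁻¹) := by group
    _ = t * (t * u) := by rw [h5]
    _ = u := by rw [← mul_assoc, ht, one_mul]

theorem nse : StNSE.{u} := by
  intro G _ _ hZN hO S L hL2 hNJ hLT
  by_contra hne
  haveI : Fact (Nat.Prime 2) := ⟨Nat.prime_two⟩
  have hempty : straddlingTwoSubgroups L = ∅ := Set.not_nonempty_iff_eq_empty.mp hne
  have hSE : IsStronglyEmbedded L :=
    (Cfsg.Agent.S2947.result hZN.1 hZN.2.1 hZN.2.2 hO S L hL2 hNJ).mpr hempty
  obtain ⟨hLtop, hLeven, hLint⟩ := hSE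
  have hsq : ∀ v : G, orderOf v = 2 → v * v = 1 := by
    intro v hv
    rw [← pow_two, ← hv]; exact pow_orderOf_eq_one v
  -- (A) fusion of involutions is controlled by `L`
  have hA : ∀ (v g : G), orderOf v = 2 → v ∈ L → g⁻¹ * v * g ∈ L → g ∈ L := by
    intro v g hv hvL hvg
    by_contra hg
    have hodd := hLint g hg
    have hmem : v ∈ L ⊓ L.map (MulAut.conj g).toMonoidHom :=
      ⟨hvL, ⟨g⁻¹ * v * g, hvg, by show g * (g⁻¹ * v * g) * g⁻¹ = v; group⟩⟩
    have h1 : orderOf (⟨v, hmem⟩ : ↥(L ⊓ L.map (MulAut.conj g).toMonoidHom)) ∣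
        Nat.card ↥(L ⊓ L.map (MulAut.conj g).toMonoidHom) := orderOf_dvd_natCard _
    rw [Subgroup.orderOf_mk, hv] at h1
    exact (Nat.not_even_iff_odd.mpr hodd) (even_iff_two_dvd.mpr h1)
  -- centralizers of involutions of `L`
  have hC : ∀ u x : G, orderOf u = 2 → u ∈ L → x * u = u * x → x ∈ L := by
    intro u x hu huL hx
    apply hA u x hu huL
    have h1 : x⁻¹ * u * x = u := by rw [mul_assoc, ← hx, ← mul_assoc, inv_mul_cancel, one_mul]
    rw [h1]; exact huL
  -- an involution outside `L`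
  have hout : ∃ t : G, orderOf t = 2 ∧ t ∉ L := by
    by_contra hcon
    push Not at hcon
    obtain ⟨g, hg⟩ : ∃ g : G, g ∉ L := by
      by_contra h
      push Not at h
      exact hLtop (eq_top_iff.mpr (fun x _ => h x))
    obtain ⟨u', hu'⟩ := exists_prime_orderOf_dvd_card' (G := ↥L) 2 (even_iff_two_dvd.mp hLeven)
    have hu2 : orderOf (u' : G) = 2 := by rw [Subgroup.orderOf_coe]; exact hu'
    have hv : orderOf (g * (u' : G) * g⁻¹) = 2 := by
      have h1 : orderOf (g * (u' : G) * g⁻¹) = orderOf (u' : G) := (MulAut.conj g).orderOf_eq _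
      rw [h1]; exact hu2
    apply hg
    apply hA (g * (u' : G) * g⁻¹) g hv (hcon _ hv)
    have h2 : g⁻¹ * (g * (u' : G) * g⁻¹) * g = (u' : G) := by group
    rw [h2]; exact u'.2
  obtain ⟨t, ht2, htL⟩ := hout
  -- every involution of `L` is conjugate to `t`
  have hconj : ∀ u : G, orderOf u = 2 → u ∈ L → ∃ d : G, d * t * d⁻¹ = u := by
    intro u hu huL
    rcases Nat.even_or_odd (orderOf (t * u)) with he | ho
    · exfalso
      obtain ⟨z, hz2, hzt, hzu⟩ := exists_invol_comm t u (hsq t ht2) (hsq u hu) he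
      have hzL : z ∈ L := hC u z hu huL hzu
      exact htL (hC z t hz2 hzL hzt.symm)
    · exact conj_of_odd t u (hsq t ht2) (hsq u hu) ho
  -- all involutions of `L` are `L`-conjugate
  have hLconj : ∀ u1 u2 : G, orderOf u1 = 2 → u1 ∈ L → orderOf u2 = 2 → u2 ∈ L →
      ∃ l ∈ L, l * u1 * l⁻¹ = u2 := by
    intro u1 u2 h1 h1L h2 h2L
    obtain ⟨d1, hd1⟩ := hconj u1 h1 h1L
    obtain ⟨d2, hd2⟩ := hconj u2 h2 h2L
    refine ⟨d2 * d1⁻¹, ?_, ?_⟩
    · apply hA u2 (d2 * d1⁻¹) h2 h2L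
      have h3 : (d2 * d1⁻¹)⁻¹ * u2 * (d2 * d1⁻¹) = u1 := by rw [← hd2, ← hd1]; group
      rw [h3]; exact h1L
    · rw [← hd1, ← hd2]; group
  -- `Q = O₂(L)`
  have hQn : (pCore 2 ↥L).Normal := Subgroup.sSup_normal _ (fun _ h => h.1)
  have hQ2 : IsPGroup 2 ↥(pCore 2 ↥L) := Sylow.sSup_of_normal _ (fun _ h => h.2) (fun _ h => h.1)
  have hQL : pCoreOf 2 L ≤ L := by unfold pCoreOf; exact Subgroup.map_subtype_le _
  have hQ2' : IsPGroup 2 ↥(pCoreOf 2 L) := by
    unfold pCoreOf; exact hQ2.map _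
  have hQne : pCoreOf 2 L ≠ ⊥ := by
    intro hbot
    have h1 := hLT.2.2
    rw [hbot] at h1
    apply hLtop
    rw [eq_top_iff]
    intro x _
    have hx : x ∈ Subgroup.centralizer (((⊥ : Subgroup G) : Subgroup G) : Set G) := by
      rw [Subgroup.mem_centralizer_iff]
      intro y hy
      have hy1 : y = 1 := hy
      rw [hy1, one_mul, mul_one]
    have hx1 : x = 1 := h1 hx
    rw [hx1]; exact one_mem L
  obtain ⟨q', hq'⟩ := exists_prime_orderOf_dvd_card' (G := ↥(pCoreOf 2 L)) 2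
    (Cfsg.Agent.Helper55.dvd_card_of_isPGroup_ne_bot hQ2' hQne)
  have hq2 : orderOf (q' : G) = 2 := by rw [Subgroup.orderOf_coe]; exact hq'
  have hQconj : ∀ l ∈ L, ∀ x ∈ pCoreOf 2 L, l * x * l⁻¹ ∈ pCoreOf 2 L := by
    rintro l hl x ⟨x', hx', rfl⟩
    exact ⟨⟨l, hl⟩ * x' * ⟨l, hl⟩⁻¹, hQn.conj_mem x' hx' ⟨l, hl⟩, rfl⟩
  have hinvQ : ∀ u : G, orderOf u = 2 → u ∈ L → u ∈ pCoreOf 2 L := by
    intro u hu huL
    obtain ⟨l, hl, hlu⟩ := hLconj (q' : G) u hq2 (hQL q'.2) hu huL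
    rw [← hlu]; exact hQconj l hl _ q'.2
  -- `J(S) ≤ Q`
  apply hLT.2.1
  unfold thompsonSubgroupOf thompsonSubgroup
  rw [Subgroup.map_le_iff_le_comap]
  apply sSup_le
  intro A hA'
  intro a ha
  show ((S : Subgroup G).subtype a) ∈ pCoreOf 2 L
  have ha2 : a ^ 2 = 1 := hA'.1.2 a ha
  by_cases ha1 : a = 1
  · rw [ha1, map_one]; exact one_mem _
  · apply hinvQ
    · rw [Subgroup.coe_subtype, Subgroup.orderOf_coe]; exact orderOf_eq_prime ha2 ha1
    · exact hLT.1.1 a.2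

end Cfsg.Agent.H65.Jz

universe u in
example : Cfsg.Agent.H64.Jz.StNSE.{u} := Cfsg.Agent.H65.Jz.nse
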