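import Mathlib
import Cfsg.Prelude.Def_TwoFusion
import Cfsg.Agent.H65.NatSL2

/-!
# Natural `SL₂(F)`-modules, part 2: decomposition and irreducibility (helper65)
-/

set_option autoImplicit false

namespace Cfsg.Agent.H65.NatSL2

open Matrix
open scoped Pointwise commutatorElement

theorem mem_cent_conj_iff {G : Type*} [Group G] (g x : G) (T : Subgroup G) :
    x ∈ Subgroup.centralizer ((T.map (MulAut.conj g).toMonoidHom : Subgroup G) : Set G) ↔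
      g⁻¹ * x * g ∈ Subgroup.centralizer (T : Set G) := by
  rw [Subgroup.mem_centralizer_iff, Subgroup.mem_centralizer_iff]
  constructor
  · intro h t ht
    have h1 : g * t * g⁻¹ * x = x * (g * t * g⁻¹) := h (g * t * g⁻¹) ⟨t, ht, rfl⟩
    calc t * (g⁻¹ * x * g) = g⁻¹ * (g * t * g⁻¹ * x) * g := by group
      _ = g⁻¹ * (x * (g * t * g⁻¹)) * g := by rw [h1]
      _ = g⁻¹ * x * g * t := by group
  · rintro h y ⟨t, ht, rfl⟩
    have h1 := h t ht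
    show g * t * g⁻¹ * x = x * (g * t * g⁻¹)
    calc g * t * g⁻¹ * x = g * (t * (g⁻¹ * x * g)) * g⁻¹ := by group
      _ = g * (g⁻¹ * x * g * t) * g⁻¹ := by rw [h1]
      _ = x * (g * t * g⁻¹) := by group

variable {F : Type*} [Field F]

namespace Model

variable {G : Type*} [Group G] {V L T : Subgroup G} (M : Model F V L T)
include M

/-- `g x g⁻¹ ∈ T` for `x ∈ T` when `ρ g` is upper triangular. -/
theorem conj_mem_T (g : L) (h : (M.ρ g).1 1 0 = 0) {x : G} (hx : x ∈ T) :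
    (g : G) * x * (g : G)⁻¹ ∈ T := by
  have hxL := M.T_le hx
  obtain ⟨h00, h10, h11⟩ := M.T_entries (l := ⟨x, hxL⟩) hx
  have hd := SL2.det_eq (M.ρ g)
  rw [h] at hd
  have : ((g * ⟨x, hxL⟩ * g⁻¹ : L) : G) ∈ T := by
    rw [M.mem_T, map_mul, map_mul, map_inv]
    refine ⟨?_, ?_⟩
    · rw [SL2.mul10, SL2.mul10, SL2.mul11, SL2.inv00, SL2.inv10, h, h10, h11]; ring
    · rw [SL2.mul00, SL2.mul00, SL2.mul01, SL2.inv00, SL2.inv10, h, h00, h10, h11]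
      linear_combination hd
  exact this

theorem mem_normalizer (g : L) (h : (M.ρ g).1 1 0 = 0) :
    (g : G) ∈ Subgroup.normalizer (T : Set G) := by
  rw [Subgroup.mem_normalizer_iff]
  intro x
  constructor
  · exact M.conj_mem_T g h
  · intro hx
    have h' : (M.ρ g⁻¹).1 1 0 = 0 := by rw [map_inv, SL2.inv10, h, neg_zero]
    have := M.conj_mem_T g⁻¹ h' hx
    simpa [mul_assoc] using this

theorem mem_V1_iff (g : L) (x : G) :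
    x ∈ V ⊓ Subgroup.centralizer
      ((T.map (MulAut.conj (g : G)).toMonoidHom : Subgroup G) : Set G) ↔
    ∃ hx : x ∈ V, (M.ρ g).1 0 0 * M.φ ⟨x, hx⟩ 1 = (M.ρ g).1 1 0 * M.φ ⟨x, hx⟩ 0 := by
  rw [Subgroup.mem_inf, mem_cent_conj_iff]
  constructor
  · rintro ⟨hx, hc⟩
    refine ⟨hx, ?_⟩
    have h1 : ((M.cj g⁻¹ ⟨x, hx⟩ : V) : G) ∈ V ⊓ Subgroup.centralizer (T : Set G) :=
      ⟨(M.cj _ _).2, by rw [M.coe_cj]; simpa using hc⟩
    obtain ⟨_, h2⟩ := (M.mem_V0_iff _).1 h1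
    have h3 : M.φ (M.cj g⁻¹ ⟨x, hx⟩) 1 = 0 := h2
    rw [M.φ_cj1, map_inv, SL2.inv10, SL2.inv11] at h3
    linear_combination h3
  · rintro ⟨hx, h⟩
    refine ⟨hx, ?_⟩
    have h3 : M.φ (M.cj g⁻¹ ⟨x, hx⟩) 1 = 0 := by
      rw [M.φ_cj1, map_inv, SL2.inv10, SL2.inv11]; linear_combination h
    have h1 := (M.mem_V0_iff ((M.cj g⁻¹ ⟨x, hx⟩ : V) : G)).2 ⟨(M.cj _ _).2, h3⟩
    have h4 := h1.2
    rw [M.coe_cj] at h4
    simpa using h4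

theorem eq_one_of_φ {x : G} (hx : x ∈ V) (h0 : M.φ ⟨x, hx⟩ 0 = 0) (h1 : M.φ ⟨x, hx⟩ 1 = 0) :
    x = 1 := by
  have : (⟨x, hx⟩ : V) = 1 :=
    M.φ_ext (by rw [h0, M.φ_one]; rfl) (by rw [h1, M.φ_one]; rfl)
  exact congrArg Subtype.val this

theorem directProduct (g : L) (hg : (g : G) ∉ Subgroup.normalizer (T : Set G)) :
    Cfsg.IsInternalDirectProduct (V ⊓ Subgroup.centralizer (T : Set G))
      (V ⊓ Subgroup.centralizer
        ((T.map (MulAut.conj (g : G)).toMonoidHom : Subgroup G) : Set G)) V := by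
  have hc : (M.ρ g).1 1 0 ≠ 0 := fun h => hg (M.mem_normalizer g h)
  refine ⟨inf_le_left, inf_le_left, fun a ha b hb => M.comm' ha.1 hb.1, ?_, ?_⟩
  · rw [Subgroup.eq_bot_iff_forall]
    intro x hx
    obtain ⟨hx0, hx1⟩ := Subgroup.mem_inf.1 hx
    obtain ⟨hxV, h1⟩ := (M.mem_V0_iff x).1 hx0
    obtain ⟨_, h2⟩ := (M.mem_V1_iff g x).1 hx1
    rw [h1, mul_zero] at h2
    have h0 : M.φ ⟨x, hxV⟩ 0 = 0 := (mul_eq_zero.1 h2.symm).resolve_left hc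
    exact M.eq_one_of_φ hxV h0 h1
  · refine le_antisymm (sup_le inf_le_left inf_le_left) (fun v hv => ?_)
    obtain ⟨x, hx0, hx1⟩ := M.exists_φ
      (M.φ ⟨v, hv⟩ 0 - (M.ρ g).1 0 0 * M.φ ⟨v, hv⟩ 1 / (M.ρ g).1 1 0) 0
    obtain ⟨y, hy0, hy1⟩ := M.exists_φ
      ((M.ρ g).1 0 0 * M.φ ⟨v, hv⟩ 1 / (M.ρ g).1 1 0) (M.φ ⟨v, hv⟩ 1)
    have hxy : (⟨v, hv⟩ : V) = x * y :=
      M.φ_ext (by rw [M.φ_mul, Pi.add_apply, hx0, hy0]; ring)
        (by rw [M.φ_mul, Pi.add_apply, hx1, hy1]; ring)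
    have hv' : v = (x : G) * y := congrArg Subtype.val hxy
    rw [hv']
    have hy' : (M.ρ g).1 0 0 * M.φ y 1 = (M.ρ g).1 1 0 * M.φ y 0 := by
      rw [hy0, hy1]; field_simp
    exact Subgroup.mul_mem_sup ((M.mem_V0_iff x).2 ⟨x.2, hx1⟩)
      ((M.mem_V1_iff g y).2 ⟨y.2, hy'⟩)

theorem fixed_point_free (p : ℕ) [Fact p.Prime] [CharP F p] (x : L) (hx : (x : G) ≠ 1)
    (hcop : (orderOf (x : G)).Coprime p) :
    V ⊓ Subgroup.centralizer ({(x : G)} : Set G) = ⊥ := by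
  rw [Subgroup.eq_bot_iff_forall]
  intro v hv
  obtain ⟨hvV, hvc⟩ := Subgroup.mem_inf.1 hv
  by_contra hv1
  obtain ⟨e0, e1⟩ := (M.commute_iff' x ⟨v, hvV⟩).1 (Subgroup.mem_centralizer_iff.1 hvc x rfl)
  have hd := SL2.det_eq (M.ρ x)
  have hα : (2 - ((M.ρ x).1 0 0 + (M.ρ x).1 1 1)) * M.φ ⟨v, hvV⟩ 0 = 0 := by
    linear_combination ((M.ρ x).1 1 1 - 1) * e0 - (M.ρ x).1 0 1 * e1 - M.φ ⟨v, hvV⟩ 0 * hd
  have hβ : (2 - ((M.ρ x).1 0 0 + (M.ρ x).1 1 1)) * M.φ ⟨v, hvV⟩ 1 = 0 := by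
    linear_combination ((M.ρ x).1 0 0 - 1) * e1 - (M.ρ x).1 1 0 * e0 - M.φ ⟨v, hvV⟩ 1 * hd
  have htr : SL2.tr (M.ρ x) = 2 := by
    unfold SL2.tr
    by_contra htr
    have hne : 2 - ((M.ρ x).1 0 0 + (M.ρ x).1 1 1) ≠ 0 := fun h => htr (by linear_combination -h)
    exact hv1 (M.eq_one_of_φ hvV ((mul_eq_zero.1 hα).resolve_left hne)
      ((mul_eq_zero.1 hβ).resolve_left hne))
  have hpow := SL2.pow_char_eq_one p (M.ρ x) htr
  have hx1 : x ^ p = 1 := M.ρ_bij.1 (by rw [map_pow, hpow, map_one])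
  have hx2 : (x : G) ^ p = 1 := by
    have := congrArg (fun z : L => (z : G)) hx1
    simpa using this
  have := Nat.Coprime.eq_one_of_dvd hcop (orderOf_dvd_of_pow_eq_one hx2)
  exact hx (orderOf_eq_one_iff.1 this)

theorem exists_diag (c : F) (hc : c ≠ 0) :
    ∃ h : L, (h : G) ∈ L ⊓ Subgroup.normalizer (T : Set G) ∧ (M.ρ h).1 0 0 = c ∧
      (M.ρ h).1 0 1 = 0 ∧ (M.ρ h).1 1 0 = 0 ∧ (M.ρ h).1 1 1 = c⁻¹ := by
  obtain ⟨h, h00, h01, h10, h11⟩ := M.exists_ρ c 0 0 c⁻¹ (by field_simp; ring)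
  exact ⟨h, ⟨h.2, M.mem_normalizer h h10⟩, h00, h01, h10, h11⟩

theorem irr_V0 (U : Subgroup G) (hU : U ≤ V ⊓ Subgroup.centralizer (T : Set G))
    (hN : L ⊓ Subgroup.normalizer (T : Set G) ≤ Subgroup.normalizer (U : Set G)) :
    U = ⊥ ∨ U = V ⊓ Subgroup.centralizer (T : Set G) := by
  by_cases hbot : U = ⊥
  · exact Or.inl hbot
  right
  rw [Subgroup.eq_bot_iff_forall] at hbot
  push Not at hbot
  obtain ⟨x, hxU, hx1⟩ := hbot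
  obtain ⟨hxV, hx1'⟩ := (M.mem_V0_iff x).1 (hU hxU)
  have hα : M.φ ⟨x, hxV⟩ 0 ≠ 0 := fun h0 => hx1 (M.eq_one_of_φ hxV h0 hx1')
  refine le_antisymm hU (fun y hy => ?_)
  obtain ⟨hyV, hy1⟩ := (M.mem_V0_iff y).1 hy
  by_cases hβ : M.φ ⟨y, hyV⟩ 0 = 0
  · rw [M.eq_one_of_φ hyV hβ hy1]; exact U.one_mem
  · obtain ⟨h, hh, h00, h01, h10, h11⟩ :=
      M.exists_diag (M.φ ⟨y, hyV⟩ 0 / M.φ ⟨x, hxV⟩ 0) (div_ne_zero hβ hα)
    have hmem : (h : G) * x * (h : G)⁻¹ ∈ U :=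
      ((Subgroup.mem_normalizer_iff.1 (hN hh)) x).1 hxU
    have he : (⟨y, hyV⟩ : V) = M.cj h ⟨x, hxV⟩ :=
      M.φ_ext (by rw [M.φ_cj0, h00, h01]; field_simp <;> ring)
        (by rw [M.φ_cj1, h10, h11, hx1', hy1]; ring)
    have he' : y = (h : G) * x * (h : G)⁻¹ := congrArg Subtype.val he
    rw [he']; exact hmem

theorem irr_quot (U : Subgroup G) (hU0 : V ⊓ Subgroup.centralizer (T : Set G) ≤ U)
    (hUV : U ≤ V)
    (hN : L ⊓ Subgroup.normalizer (T : Set G) ≤ Subgroup.normalizer (U : Set G)) :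
    U = V ⊓ Subgroup.centralizer (T : Set G) ∨ U = V := by
  by_cases hle : U ≤ V ⊓ Subgroup.centralizer (T : Set G)
  · exact Or.inl (le_antisymm hle hU0)
  right
  obtain ⟨x, hxU, hxn⟩ := SetLike.not_le_iff_exists.1 hle
  have hxV := hUV hxU
  have hβ : M.φ ⟨x, hxV⟩ 1 ≠ 0 := fun h => hxn ((M.mem_V0_iff x).2 ⟨hxV, h⟩)
  refine le_antisymm hUV (fun y hyV => ?_)
  by_cases hδ : M.φ ⟨y, hyV⟩ 1 = 0
  · exact hU0 ((M.mem_V0_iff y).2 ⟨hyV, hδ⟩)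
  · obtain ⟨h, hh, h00, h01, h10, h11⟩ :=
      M.exists_diag (M.φ ⟨x, hxV⟩ 1 / M.φ ⟨y, hyV⟩ 1) (div_ne_zero hβ hδ)
    have hmem : (h : G) * x * (h : G)⁻¹ ∈ U :=
      ((Subgroup.mem_normalizer_iff.1 (hN hh)) x).1 hxU
    obtain ⟨z, hz0, hz1⟩ := M.exists_φ
      (M.φ ⟨y, hyV⟩ 0 - (M.φ ⟨x, hxV⟩ 1 / M.φ ⟨y, hyV⟩ 1) * M.φ ⟨x, hxV⟩ 0) 0
    have he : (⟨y, hyV⟩ : V) = M.cj h ⟨x, hxV⟩ * z :=
      M.φ_ext (by rw [M.φ_mul, Pi.add_apply, M.φ_cj0, h00, h01, hz0]; ring)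
        (by rw [M.φ_mul, Pi.add_apply, M.φ_cj1, h10, h11, hz1]; field_simp <;> ring)
    have he' : y = (h : G) * x * (h : G)⁻¹ * z := congrArg Subtype.val he
    rw [he']; exact U.mul_mem hmem (hU0 ((M.mem_V0_iff z).2 ⟨z.2, hz1⟩))

end Model

end Cfsg.Agent.H65.NatSL2
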