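import Cfsg.Agent.H21.ResidueTrick
import Cfsg.Agent.H21.Counting
import Cfsg.Agent.H21.ConjCount
import Cfsg.Agent.H21.OrderCount
import Cfsg.Agent.H21.SimpleTools
import Cfsg.Agent.S1001

/-!
# Characters of a simple group of order `5 · 3^a · 2^b` at the elements of order `5` (helper65)

If every element of order `5` is conjugate to a fixed `x` (which the Sylow count forces for
`|G| = 720` and `|G| = 4320`), then every irreducible character is a rational integer `c χ` at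
`x`, and column orthogonality (`|C(x)| = 5`) leaves, besides the principal character, exactly
four characters with `c χ = ± 1`; all others vanish at `x`.
-/

set_option autoImplicit false
set_option linter.unusedSectionVars false
set_option linter.style.haveILetI false

namespace Cfsg.Agent.H65.Ord5

open Cfsg

open scoped ComplexConjugate

/-- The principal character as an irreducible character. -/
noncomputable def triv (G : Type*) [Group G] : IrrCharacter G :=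
  ⟨fun _ => 1, Cfsg.Agent.H4.isIrrCharacter_one⟩

theorem triv_apply {G : Type*} [Group G] (g : G) : (triv G : G → ℂ) g = 1 := rfl

theorem not_five_dvd (a b : ℕ) : ¬ 5 ∣ 3 ^ a * 2 ^ b := by
  intro h
  have h5 : Nat.Prime 5 := by norm_num
  rcases (Nat.Prime.dvd_mul h5).mp h with h | h
  · have := Nat.le_of_dvd (by norm_num) (h5.dvd_of_dvd_pow h)
    omega
  · have := Nat.le_of_dvd (by norm_num) (h5.dvd_of_dvd_pow h)
    omega

/-- In a simple group of order `5 · 3^a · 2^b` for which the Sylow count forces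
`4 n_5 = 3^a 2^b`, all elements of order `5` are conjugate, and self-centralizing. -/
theorem conj_of_order5 {G : Type*} [Group G] [Finite G] [IsSimpleGroup G] (a b : ℕ)
    (hG : Nat.card G = 5 * 3 ^ a * 2 ^ b)
    (hnum : ∀ n : ℕ, n ∣ 3 ^ a * 2 ^ b → n % 5 = 1 → 3 ^ a * 2 ^ b ≤ 4 * n → 4 * n = 3 ^ a * 2 ^ b)
    (x : G) (hx : orderOf x = 5) :
    (∀ y : G, orderOf y = 5 → IsConj x y) ∧
      Nat.card (Subgroup.centralizer ({x} : Set G)) = 5 := by
  classical
  haveI : Fact (Nat.Prime 5) := ⟨by norm_num⟩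
  have hnp : ¬ (Nat.card G).Prime := by
    intro hp
    have h5 : 5 ∣ Nat.card G := ⟨3 ^ a * 2 ^ b, by rw [hG]; ring⟩
    have h5' := (Nat.prime_dvd_prime_iff_eq (by norm_num) hp).mp h5
    have hpos : 0 < 3 ^ a * 2 ^ b := by positivity
    have hge : Nat.card G = 5 := h5'.symm
    rw [hG, mul_assoc] at hge
    have h1 : 3 ^ a * 2 ^ b = 1 := by omega
    have hn := hnum 1 (one_dvd _) (by norm_num) (by omega)
    omega
  have hGnc := Cfsg.Agent.H21.not_comm_of_not_prime hnp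
  let P : Sylow 5 G := default
  obtain ⟨hP, -, -, hdvd, hmod, -, -, -, -⟩ := Cfsg.Agent.H21.simple_sylow_facts hGnc (p := 5)
    (k := 1) (m := 3 ^ a * 2 ^ b) (by rw [hG]; ring) (not_five_dvd a b) one_ne_zero P
  have hcnt := Cfsg.Agent.H21.card_orderOf_eq_prime 5 P (by simpa using hP)
  have hC : Subgroup.centralizer ({x} : Set G) = Subgroup.zpowers x :=
    Cfsg.Agent.S1001.result 5 a b (by norm_num) hG x hx
  have hCcard : Nat.card (Subgroup.centralizer ({x} : Set G)) = 5 := by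
    rw [hC, Nat.card_zpowers, hx]
  have hcls := Cfsg.Agent.H21.card_conj_mul_card_centralizer x
  rw [hCcard, hG] at hcls
  have hcls' : Nat.card {h : G // IsConj x h} = 3 ^ a * 2 ^ b := by
    have : Nat.card {h : G // IsConj x h} * 5 = (3 ^ a * 2 ^ b) * 5 := by rw [hcls]; ring
    exact Nat.eq_of_mul_eq_mul_right (by norm_num) this
  have hle := Cfsg.Agent.H21.card_conj_le_card_orderOf x
  rw [hx, hcnt, hcls'] at hle
  have h4 := hnum _ hdvd hmod (by omega)
  refine ⟨?_, hCcard⟩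
  -- the class of `x` is the set of all elements of order `5`
  have hinj : Function.Injective
      (fun g : {h : G // IsConj x h} => (⟨g.1, by
        obtain ⟨c, hc⟩ := isConj_iff.1 g.2
        rw [← hc, Cfsg.Agent.S1018.orderOf_conj_eq, hx]⟩ : {g : G // orderOf g = 5})) := by
    intro u v huv
    exact Subtype.ext (congrArg (fun t : {g : G // orderOf g = 5} => t.1) huv)
  have hcardeq : Nat.card {h : G // IsConj x h} = Nat.card {g : G // orderOf g = 5} := by
    rw [hcls', hcnt]; omega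
  have hbij := (Nat.bijective_iff_injective_and_card _).2 ⟨hinj, hcardeq⟩
  intro y hy
  obtain ⟨g, hg⟩ := hbij.2 ⟨y, hy⟩
  have : g.1 = y := congrArg (fun t : {g : G // orderOf g = 5} => t.1) hg
  rw [← this]
  exact g.2

/-- A character which is constant (`= c`) on the non-identity elements of a subgroup of order `5`
takes there an integer value congruent to its degree modulo `5`. -/
theorem const_value_int {G : Type*} [Group G] [Finite G] {ψ : G → ℂ}
    (hψ : IsCharacter G ψ) (P : Subgroup G) (hP : Nat.card P = 5)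
    (n : ℕ) (hn : ψ 1 = n) (c : ℂ) (hc : ∀ y ∈ P, y ≠ 1 → ψ y = c) (hint : IsIntegral ℤ c) :
    ∃ z : ℤ, c = z ∧ (5 : ℤ) ∣ (n : ℤ) - z := by
  classical
  haveI : Fintype P := Fintype.ofFinite P
  obtain ⟨d, hd⟩ := Cfsg.Agent.H4.classInner_isCharacter_nat
    (Cfsg.Agent.H4.isCharacter_restrict P hψ)
    (Cfsg.Agent.H4.isCharacter_of_isIrrCharacter (Cfsg.Agent.H4.isIrrCharacter_one (G := P)))
  unfold classInner at hd
  have hsum : ∑ g : P, ψ (g : G) * conj (1 : ℂ) = (n : ℂ) + 4 * c := by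
    rw [← Finset.add_sum_erase Finset.univ _ (Finset.mem_univ (1 : P))]
    have h1 : ∀ g ∈ Finset.univ.erase (1 : P), ψ (g : G) * conj (1 : ℂ) = c := by
      intro g hg
      rw [Finset.mem_erase] at hg
      rw [hc g g.2 (fun h => hg.1 (Subtype.ext h))]
      simp
    rw [Finset.sum_congr rfl h1, Finset.sum_const, Finset.card_erase_of_mem (Finset.mem_univ _),
      Finset.card_univ, ← Nat.card_eq_fintype_card, hP]
    simp only [Subgroup.coe_one, hn, map_one, mul_one, nsmul_eq_mul]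
    norm_num
  rw [hsum, hP] at hd
  have h2 : (n : ℂ) + 4 * c = 5 * d := by
    rw [← hd]; push_cast; field_simp
  -- `c` is rational
  have hq : c = ((((5 * d - n : ℤ) : ℚ) / 4 : ℚ) : ℂ) := by
    push_cast
    linear_combination h2 / 4
  have hintq : IsIntegral ℤ ((((5 * d - n : ℤ) : ℚ) / 4 : ℚ)) := by
    have h3 : IsIntegral ℤ (algebraMap ℚ ℂ (((5 * d - n : ℤ) : ℚ) / 4)) := by
      have : algebraMap ℚ ℂ (((5 * d - n : ℤ) : ℚ) / 4) = c := by
        rw [hq]; rfl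
      rw [this]; exact hint
    exact (isIntegral_algebraMap_iff (algebraMap ℚ ℂ).injective).mp h3
  obtain ⟨z, hz⟩ := IsIntegrallyClosed.isIntegral_iff.mp hintq
  have hcz : c = z := by
    rw [hq, ← hz]; simp
  refine ⟨z, hcz, ?_⟩
  rw [hcz] at h2
  refine ⟨(d : ℤ) - z, ?_⟩
  have h3 : ((n : ℤ) : ℂ) - z = ((5 : ℤ) : ℂ) * (((d : ℤ) : ℂ) - z) := by
    push_cast; linear_combination h2
  exact_mod_cast h3


/-- **The five characters.**  In a simple group of order `5 · 3^a · 2^b` whose Sylow count forces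
`4 n_5 = 3^a 2^b`, every irreducible character takes an integer value `c χ` on the elements of
order `5`; besides the principal character exactly four characters `χ₁, …, χ₄` do not vanish
there, with `c χᵢ = ± 1`, and `1 + ∑ c χᵢ · χᵢ(1) = 0`. -/
theorem five_chars {G : Type*} [Group G] [Finite G] [IsSimpleGroup G] (a b : ℕ)
    (hG : Nat.card G = 5 * 3 ^ a * 2 ^ b)
    (hnum : ∀ n : ℕ, n ∣ 3 ^ a * 2 ^ b → n % 5 = 1 → 3 ^ a * 2 ^ b ≤ 4 * n → 4 * n = 3 ^ a * 2 ^ b)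
    (x : G) (hx : orderOf x = 5) :
    ∃ (c : IrrCharacter G → ℤ) (χ₁ χ₂ χ₃ χ₄ : IrrCharacter G),
      (∀ (χ : IrrCharacter G) (y : G), orderOf y = 5 → (χ : G → ℂ) y = c χ) ∧
      (∀ χ : IrrCharacter G, (5 : ℤ) ∣ (charDegree (χ : G → ℂ) : ℤ) - c χ) ∧
      (χ₁ ≠ χ₂ ∧ χ₁ ≠ χ₃ ∧ χ₁ ≠ χ₄ ∧ χ₂ ≠ χ₃ ∧ χ₂ ≠ χ₄ ∧ χ₃ ≠ χ₄) ∧
      (χ₁ ≠ triv G ∧ χ₂ ≠ triv G ∧ χ₃ ≠ triv G ∧ χ₄ ≠ triv G) ∧
      (∀ χ : IrrCharacter G, c χ ≠ 0 → χ = triv G ∨ χ = χ₁ ∨ χ = χ₂ ∨ χ = χ₃ ∨ χ = χ₄) ∧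
      ((c χ₁ = 1 ∨ c χ₁ = -1) ∧ (c χ₂ = 1 ∨ c χ₂ = -1) ∧ (c χ₃ = 1 ∨ c χ₃ = -1) ∧
        (c χ₄ = 1 ∨ c χ₄ = -1)) ∧
      1 + c χ₁ * charDegree (χ₁ : G → ℂ) + c χ₂ * charDegree (χ₂ : G → ℂ)
        + c χ₃ * charDegree (χ₃ : G → ℂ) + c χ₄ * charDegree (χ₄ : G → ℂ) = 0 ∧
      1 + charDegree (χ₁ : G → ℂ) ^ 2 + charDegree (χ₂ : G → ℂ) ^ 2
        + charDegree (χ₃ : G → ℂ) ^ 2 + charDegree (χ₄ : G → ℂ) ^ 2 ≤ Nat.card G := by
  classical
  haveI : Fintype G := Fintype.ofFinite G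
  letI := Cfsg.Agent.H4.fintypeIrr G
  obtain ⟨hconj, hCcard⟩ := conj_of_order5 a b hG hnum x hx
  have hx1 : x ≠ 1 := by
    intro h; rw [h, orderOf_one] at hx; omega
  have hval : ∀ χ : IrrCharacter G, ∀ y : G, orderOf y = 5 →
      (χ : G → ℂ) y = (χ : G → ℂ) x := by
    intro χ y hy
    obtain ⟨g, hg⟩ := isConj_iff.1 (hconj y hy)
    rw [← hg]; exact Cfsg.Agent.H4.irr_isClassFunction χ x g
  have hPcard : Nat.card (Subgroup.zpowers x) = 5 := by rw [Nat.card_zpowers, hx]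
  have hex : ∀ χ : IrrCharacter G, ∃ z : ℤ, (χ : G → ℂ) x = z ∧
      (5 : ℤ) ∣ (charDegree (χ : G → ℂ) : ℤ) - z := by
    intro χ
    obtain ⟨hd1, -⟩ := Cfsg.Agent.H81.irr_charDegree χ
    refine const_value_int (Cfsg.Agent.H4.isCharacter_of_isIrrCharacter χ.2) (Subgroup.zpowers x)
      hPcard _ hd1 _ ?_ (Cfsg.Agent.H81.irr_isIntegral χ x)
    intro y hy hy1
    apply hval χ y
    exact Cfsg.Agent.H21.orderOf_eq_of_mem_card_prime (by norm_num) _ hPcard y hy hy1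
  choose c hc hc5 using hex
  set n : IrrCharacter G → ℕ := fun χ => charDegree (χ : G → ℂ) with hn
  have hn1 : ∀ χ : IrrCharacter G, (χ : G → ℂ) 1 = n χ :=
    fun χ => (Cfsg.Agent.H81.irr_charDegree χ).1
  -- column orthogonality at `(x, x)`
  have hco1 : ∑ χ : IrrCharacter G, (c χ) ^ 2 = 5 := by
    have h := Cfsg.Agent.H4.column_orthogonality (G := G) x x
    rw [Cfsg.Agent.H4.finsum_irr_eq_sum] at h
    have hcard : Nat.card {g : G // g * x * g⁻¹ = x} = 5 := by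
      rw [← hCcard]
      apply Nat.card_congr
      refine Equiv.subtypeEquivRight (fun g => ?_)
      rw [Subgroup.mem_centralizer_singleton_iff]
      exact mul_inv_eq_iff_eq_mul
    rw [hcard] at h
    have h2 : ∑ χ : IrrCharacter G, ((c χ : ℂ)) ^ 2 = ((5 : ℕ) : ℂ) := by
      rw [← h]
      refine Finset.sum_congr rfl fun χ _ => ?_
      rw [hc χ, map_intCast, sq]
    exact_mod_cast h2
  -- column orthogonality at `(1, x)`
  have hco2 : ∑ χ : IrrCharacter G, (n χ : ℤ) * c χ = 0 := by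
    have h := Cfsg.Agent.H4.column_orthogonality (G := G) 1 x
    rw [Cfsg.Agent.H4.finsum_irr_eq_sum] at h
    have hcard : Nat.card {g : G // g * 1 * g⁻¹ = x} = 0 := by
      haveI : IsEmpty {g : G // g * 1 * g⁻¹ = x} := ⟨fun ⟨g, hg⟩ => hx1 (by rw [← hg]; group)⟩
      exact Nat.card_of_isEmpty
    rw [hcard] at h
    have h2 : ∑ χ : IrrCharacter G, ((n χ : ℂ)) * (c χ : ℂ) = ((0 : ℕ) : ℂ) := by
      rw [← h]
      refine Finset.sum_congr rfl fun χ _ => ?_
      rw [hc χ, map_intCast, hn1 χ]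
    exact_mod_cast h2
  -- the sum of the squares of the degrees
  have hsq : ∑ χ : IrrCharacter G, (n χ) ^ 2 = Nat.card G := by
    have h := Cfsg.Agent.H4.sum_irr_sq (G := G)
    rw [Cfsg.Agent.H4.finsum_irr_eq_sum] at h
    have h2 : ∑ χ : IrrCharacter G, ((n χ : ℂ)) ^ 2 = (Nat.card G : ℂ) := by
      rw [← h]
      refine Finset.sum_congr rfl fun χ _ => ?_
      rw [hn1 χ]
    exact_mod_cast h2
  have hct : c (triv G) = 1 := by
    have := hc (triv G); rw [triv_apply] at this; exact_mod_cast this.symm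
  have hnt : n (triv G) = 1 := by
    have := hn1 (triv G); rw [triv_apply] at this; exact_mod_cast this.symm
  set T : Finset (IrrCharacter G) := Finset.univ.filter (fun χ => c χ ≠ 0 ∧ χ ≠ triv G) with hT
  have hmemT : ∀ χ, χ ∈ T ↔ c χ ≠ 0 ∧ χ ≠ triv G := by
    intro χ; rw [hT, Finset.mem_filter]; simp
  have hsub : ∀ f : IrrCharacter G → ℤ, (∀ χ, c χ = 0 → f χ = 0) →
      ∑ χ : IrrCharacter G, f χ = f (triv G) + ∑ χ ∈ T, f χ := by
    intro f hf
    rw [← Finset.add_sum_erase Finset.univ f (Finset.mem_univ (triv G))]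
    congr 1
    symm
    apply Finset.sum_subset
    · intro χ hχ
      exact Finset.mem_erase.mpr ⟨((hmemT χ).1 hχ).2, Finset.mem_univ _⟩
    · intro χ hχ hχT
      rw [Finset.mem_erase] at hχ
      apply hf
      by_contra h0
      exact hχT ((hmemT χ).2 ⟨h0, hχ.1⟩)
  have hsumT : ∑ χ ∈ T, (c χ) ^ 2 = 4 := by
    have := hsub (fun χ => (c χ) ^ 2) (fun χ h => by simp [h])
    try simp only at this
    rw [hco1, hct] at this
    linarith
  have hsumnc : 1 + ∑ χ ∈ T, (n χ : ℤ) * c χ = 0 := by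
    have := hsub (fun χ => (n χ : ℤ) * c χ) (fun χ h => by simp [h])
    try simp only at this
    rw [hco2, hct, hnt] at this
    push_cast at this
    linarith
  have hpos : ∀ χ ∈ T, 1 ≤ (c χ) ^ 2 := by
    intro χ hχ
    have h0 : c χ ≠ 0 := ((hmemT χ).1 hχ).1
    have : 0 < (c χ) ^ 2 := by positivity
    omega
  have hsq1 : ∀ χ ∈ T, (c χ) ^ 2 = 1 := by
    by_contra hne
    push Not at hne
    obtain ⟨χ₀, h₀T, h₀⟩ := hne
    have h4 : 4 ≤ (c χ₀) ^ 2 := by
      have h1 := hpos χ₀ h₀T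
      by_contra hlt
      push Not at hlt
      have hb : -2 < c χ₀ ∧ c χ₀ < 2 := by constructor <;> nlinarith
      have h0 : c χ₀ ≠ 0 := ((hmemT χ₀).1 h₀T).1
      have : c χ₀ = 1 ∨ c χ₀ = -1 := by omega
      rcases this with h | h <;> simp [h] at h₀
    have hrest : ∑ χ ∈ T.erase χ₀, (c χ) ^ 2 = 4 - (c χ₀) ^ 2 := by
      have := Finset.add_sum_erase T (fun χ => (c χ) ^ 2) h₀T
      try simp only at this
      linarith
    have hrest0 : T.erase χ₀ = ∅ := by
      by_contra hne'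
      obtain ⟨χ', hχ'⟩ := Finset.nonempty_iff_ne_empty.mpr hne'
      have h1 : (c χ') ^ 2 ≤ ∑ χ ∈ T.erase χ₀, (c χ) ^ 2 :=
        Finset.single_le_sum (f := fun χ => (c χ) ^ 2) (fun χ _ => sq_nonneg (c χ)) hχ'
      have h2 := hpos χ' (Finset.mem_of_mem_erase hχ')
      linarith
    have hc4 : (c χ₀) ^ 2 = 4 := by
      rw [hrest0, Finset.sum_empty] at hrest; linarith
    have hs : ∑ χ ∈ T, (n χ : ℤ) * c χ = (n χ₀ : ℤ) * c χ₀ := by
      rw [← Finset.add_sum_erase T _ h₀T, hrest0, Finset.sum_empty, add_zero]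
    have hc2 : c χ₀ = 2 ∨ c χ₀ = -2 := by
      have : (c χ₀ - 2) * (c χ₀ + 2) = 0 := by ring_nf; linarith
      rcases mul_eq_zero.mp this with h | h
      · left; omega
      · right; omega
    rw [hs] at hsumnc
    rcases hc2 with h | h <;> rw [h] at hsumnc <;> omega
  have hcard : T.card = 4 := by
    have h1 : ∑ χ ∈ T, (c χ) ^ 2 = ∑ _χ ∈ T, (1 : ℤ) := Finset.sum_congr rfl hsq1
    rw [hsumT] at h1
    simp at h1
    exact_mod_cast h1.symm
  obtain ⟨χ₁, t, h1t, hT1, htc⟩ := Finset.card_eq_succ.mp hcard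
  obtain ⟨χ₂, χ₃, χ₄, h23, h24, h34, rfl⟩ := Finset.card_eq_three.mp htc
  have hmem' : ∀ χ, χ ∈ T ↔ χ = χ₁ ∨ χ = χ₂ ∨ χ = χ₃ ∨ χ = χ₄ := by
    intro χ; rw [← hT1]; simp
  have h12 : χ₁ ≠ χ₂ := fun h => h1t (by rw [h]; simp)
  have h13 : χ₁ ≠ χ₃ := fun h => h1t (by rw [h]; simp)
  have h14 : χ₁ ≠ χ₄ := fun h => h1t (by rw [h]; simp)
  have hm1 : χ₁ ∈ T := (hmem' χ₁).2 (Or.inl rfl)
  have hm2 : χ₂ ∈ T := (hmem' χ₂).2 (Or.inr (Or.inl rfl))
  have hm3 : χ₃ ∈ T := (hmem' χ₃).2 (Or.inr (Or.inr (Or.inl rfl)))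
  have hm4 : χ₄ ∈ T := (hmem' χ₄).2 (Or.inr (Or.inr (Or.inr rfl)))
  have hsumform : ∀ f : IrrCharacter G → ℤ, ∑ χ ∈ T, f χ = f χ₁ + f χ₂ + f χ₃ + f χ₄ := by
    intro f
    rw [← hT1, Finset.sum_insert h1t, Finset.sum_insert (by simp [h23, h24]),
      Finset.sum_pair h34]
    ring
  have hpm : ∀ χ ∈ T, c χ = 1 ∨ c χ = -1 := by
    intro χ hχ
    have h := hsq1 χ hχ
    have : (c χ - 1) * (c χ + 1) = 0 := by ring_nf; linarith
    rcases mul_eq_zero.mp this with h | h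
    · left; omega
    · right; omega
  refine ⟨c, χ₁, χ₂, χ₃, χ₄, ?_, hc5, ⟨h12, h13, h14, h23, h24, h34⟩,
    ⟨((hmemT χ₁).1 hm1).2, ((hmemT χ₂).1 hm2).2, ((hmemT χ₃).1 hm3).2, ((hmemT χ₄).1 hm4).2⟩,
    ?_, ⟨hpm χ₁ hm1, hpm χ₂ hm2, hpm χ₃ hm3, hpm χ₄ hm4⟩, ?_, ?_⟩
  · intro χ y hy
    rw [hval χ y hy, hc χ]
  · intro χ h0
    by_cases ht : χ = triv G
    · exact Or.inl ht
    · exact Or.inr ((hmem' χ).1 ((hmemT χ).2 ⟨h0, ht⟩))
  · have := hsumform (fun χ => (n χ : ℤ) * c χ)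
    try simp only at this
    rw [this] at hsumnc
    simp only [hn] at hsumnc
    linarith
  · -- the squares
    have hsubset : insert (triv G) T ⊆ (Finset.univ : Finset (IrrCharacter G)) :=
      Finset.subset_univ _
    have hle : ∑ χ ∈ insert (triv G) T, (n χ) ^ 2 ≤ ∑ χ : IrrCharacter G, (n χ) ^ 2 :=
      Finset.sum_le_sum_of_subset hsubset
    have htT : triv G ∉ T := fun h => ((hmemT _).1 h).2 rfl
    rw [Finset.sum_insert htT, hsq, hnt] at hle
    have h2 : ∑ χ ∈ T, (n χ) ^ 2 = n χ₁ ^ 2 + n χ₂ ^ 2 + n χ₃ ^ 2 + n χ₄ ^ 2 := by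
      rw [← hT1, Finset.sum_insert h1t, Finset.sum_insert (by simp [h23, h24]),
        Finset.sum_pair h34]
      ring
    rw [h2] at hle
    simp only [hn] at hle
    omega

end Cfsg.Agent.H65.Ord5
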