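import Cfsg.Agent.H65.Ord5Chars
import Cfsg.Agent.H65.DetTrick
import Cfsg.Agent.H19.LinChar

/-!
# Simple groups of order `5 · 3^a · 2^b`: no character of degree `4` in the principal `5`-block
(helper65)
-/

set_option autoImplicit false
set_option linter.unusedSectionVars false
set_option linter.style.haveILetI false

namespace Cfsg.Agent.H65.Ord5

open Cfsg

open scoped commutatorElement

/-- A non-abelian simple group is perfect. -/
theorem perfect_of_simple {G : Type*} [Group G] [IsSimpleGroup G] (h : ¬ IsMulCommutative G) :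
    commutator G = ⊤ := by
  rcases IsSimpleGroup.eq_bot_or_eq_top_of_normal (commutator G) inferInstance with hb | ht
  · exfalso
    apply h
    refine ⟨⟨fun u v => ?_⟩⟩
    have hc : ⁅u, v⁆ ∈ commutator G := by
      rw [commutator_def]
      exact Subgroup.commutator_mem_commutator (Subgroup.mem_top u) (Subgroup.mem_top v)
    rw [hb, Subgroup.mem_bot, commutatorElement_eq_one_iff_mul_comm] at hc
    exact hc
  · exact ht

/-- A perfect group has no non-principal irreducible character of degree `1`. -/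
theorem linear_trivial {G : Type*} [Group G] (hperf : commutator G = ⊤) (χ : IrrCharacter G)
    (h1 : (χ : G → ℂ) 1 = 1) : χ = triv G := by
  apply Subtype.ext
  funext g
  have hχ := Cfsg.Agent.H4.isCharacter_of_isIrrCharacter χ.2
  let φ : G →* ℂˣ := (Cfsg.Agent.H19.linCharHom (χ : G → ℂ) hχ h1).toHomUnits
  have hker : commutator G ≤ φ.ker := Abelianization.commutator_subset_ker φ
  rw [hperf] at hker
  have hg : φ g = 1 := hker (Subgroup.mem_top g)
  have := congrArg (fun u : ℂˣ => (u : ℂ)) hg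
  simpa [φ, triv] using this

theorem pow_mul_comm' {G : Type*} [Group G] (x y : G) (h : y * x = x ^ 2 * y) (j : ℕ) :
    y ^ j * x = x ^ (2 ^ j) * y ^ j := by
  induction j with
  | zero => simp
  | succ j ih =>
    rw [pow_succ' y j, mul_assoc, ih, ← mul_assoc,
      Cfsg.Agent.H65.DetTrick.mul_pow_comm x y h (2 ^ j), mul_assoc, ← pow_succ' y j]
    congr 2
    rw [pow_succ]; ring

/-- In a simple group of order `5 · 3^a · 2^b` in which all elements of order `5` are conjugate
(forced by the Sylow count), no irreducible character of degree `4` takes the value `-1` at the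
elements of order `5`. -/
theorem no_deg4 {G : Type*} [Group G] [Finite G] [IsSimpleGroup G] (a b : ℕ)
    (hG : Nat.card G = 5 * 3 ^ a * 2 ^ b)
    (hnum : ∀ n : ℕ, n ∣ 3 ^ a * 2 ^ b → n % 5 = 1 → 3 ^ a * 2 ^ b ≤ 4 * n → 4 * n = 3 ^ a * 2 ^ b)
    (hnc : ¬ IsMulCommutative G) (x : G) (hx : orderOf x = 5) (χ : IrrCharacter G)
    (hval : ∀ y : G, orderOf y = 5 → (χ : G → ℂ) y = -1)
    (hdeg : charDegree (χ : G → ℂ) = 4) : False := by
  have hperf := perfect_of_simple hnc
  obtain ⟨hconj, -⟩ := conj_of_order5 a b hG hnum x hx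
  have hx5 : x ^ 5 = 1 := by rw [← hx]; exact pow_orderOf_eq_one x
  have hord : ∀ k : ℕ, Nat.Coprime 5 k → orderOf (x ^ k) = 5 := by
    intro k hk
    rw [Nat.Coprime.orderOf_pow (by rw [hx]; exact hk), hx]
  obtain ⟨y, hy⟩ := isConj_iff.1 (hconj (x ^ 2) (hord 2 (by norm_num)))
  have hyx' : y * x = x ^ 2 * y := by rw [← hy]; group
  have hC : Subgroup.centralizer ({x} : Set G) = Subgroup.zpowers x :=
    Cfsg.Agent.S1001.result 5 a b (by norm_num) hG x hx
  have hy4mem : y ^ 4 ∈ Subgroup.zpowers x := by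
    rw [← hC, Subgroup.mem_centralizer_singleton_iff]
    have h := pow_mul_comm' x y hyx' 4
    have x16 : x ^ (2 ^ 4) = x := by
      rw [show (2 : ℕ) ^ 4 = 1 + 5 * 3 by norm_num, pow_add, pow_mul, hx5, one_pow, mul_one,
        pow_one]
    rw [x16] at h
    exact h
  have hd1 : (χ : G → ℂ) 1 = 4 := by
    rw [(Cfsg.Agent.H81.irr_charDegree χ).1, hdeg]; norm_num
  have hy4 : (χ : G → ℂ) (y ^ 4) = 4 ∨ (χ : G → ℂ) (y ^ 4) = -1 := by
    by_cases h1 : y ^ 4 = 1
    · left; rw [h1, hd1]
    · right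
      apply hval
      exact Cfsg.Agent.H21.orderOf_eq_of_mem_card_prime (by norm_num) (Subgroup.zpowers x)
        (by rw [Nat.card_zpowers, hx]) (y ^ 4) hy4mem h1
  exact Cfsg.Agent.H65.DetTrick.no_char4 hperf (χ : G → ℂ)
    (Cfsg.Agent.H4.isCharacter_of_isIrrCharacter χ.2) hd1 x y hx5 hy
    (hval x hx) (hval _ (hord 2 (by norm_num))) (hval _ (hord 3 (by norm_num)))
    (hval _ (hord 4 (by norm_num))) hy4

end Cfsg.Agent.H65.Ord5
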