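import Cfsg.Agent.H65.Ord5Kill

/-!
# No simple group of order 720 (helper65)

`720 = 5 · 3² · 2⁴`.  By S1001 an element `x` of order `5` is self-centralizing, the Sylow count
gives `n_5 = 36`, so all elements of order `5` are conjugate; column orthogonality leaves four
non-principal characters with value `± 1` at `x`, of degrees in `{4, 6, 9, 16, 24}` with
`1 + ∑ ± deg = 0` and `∑ deg² ≤ 719`: the patterns `(4,4,9|16)` and `(4,9|6,6)`.  Both contain a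
character of degree `4` with value `-1` at `x`, which the determinant trick excludes.
-/

set_option autoImplicit false
set_option linter.unusedSectionVars false
set_option linter.style.haveILetI false

namespace Cfsg.Agent.H65.Ord720

open Cfsg Cfsg.Agent.H65.Ord5

theorem hnum720 : ∀ n : ℕ, n ∣ 3 ^ 2 * 2 ^ 4 → n % 5 = 1 → 3 ^ 2 * 2 ^ 4 ≤ 4 * n →
    4 * n = 3 ^ 2 * 2 ^ 4 := by
  intro n hd hm hle
  norm_num at hd hle ⊢
  obtain ⟨k, hk⟩ := hd
  have hn : 36 ≤ n := by omega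
  have hk4 : k ≤ 4 := by
    by_contra hc
    push Not at hc
    have : n * 5 ≤ n * k := Nat.mul_le_mul_left n hc
    omega
  have hk0 : 0 < k := by
    rcases Nat.eq_zero_or_pos k with h | h
    · rw [h] at hk; omega
    · exact h
  interval_cases k <;> omega

theorem deg_options (n : ℕ) (hd : n ∣ 720) (hs : n * n ≤ 719) (h1 : n ≠ 1) (c : ℤ)
    (hc : c = 1 ∨ c = -1) (h5 : (5 : ℤ) ∣ (n : ℤ) - c) :
    (c = 1 ∧ (n = 6 ∨ n = 16)) ∨ (c = -1 ∧ (n = 4 ∨ n = 9 ∨ n = 24)) := by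
  have hn : n ≤ 26 := by nlinarith
  interval_cases n <;> rcases hc with rfl | rfl <;> omega

/-- There is no simple group of order `720`. -/
theorem no_simple_720 {G : Type*} [Group G] [Finite G] [IsSimpleGroup G]
    (h : Nat.card G = 720) : False := by
  classical
  have hG : Nat.card G = 5 * 3 ^ 2 * 2 ^ 4 := by rw [h]; norm_num
  haveI : Fact (Nat.Prime 5) := ⟨by norm_num⟩
  obtain ⟨x, hx⟩ := exists_prime_orderOf_dvd_card' (G := G) 5 (by rw [h]; norm_num)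
  have hnc : ¬ IsMulCommutative G :=
    Cfsg.Agent.H21.not_comm_of_not_prime (by rw [h]; norm_num)
  obtain ⟨c, χ₁, χ₂, χ₃, χ₄, hval, hc5, -, ⟨ht1, ht2, ht3, ht4⟩, -, ⟨hp1, hp2, hp3, hp4⟩,
    heq, hsq⟩ := five_chars 2 4 hG hnum720 x hx
  have hperf := perfect_of_simple hnc
  have kill : ∀ χ : IrrCharacter G, c χ = -1 → charDegree (χ : G → ℂ) = 4 → False := by
    intro χ hcχ hdeg
    exact no_deg4 2 4 hG hnum720 hnc x hx χ
      (fun y hy => by rw [hval χ y hy, hcχ]; norm_num) hdeg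
  have key : ∀ χ : IrrCharacter G, χ ≠ triv G → (c χ = 1 ∨ c χ = -1) →
      charDegree (χ : G → ℂ) * charDegree (χ : G → ℂ) ≤ 719 →
      (c χ = 1 ∧ charDegree (χ : G → ℂ) = 6) ∨ (c χ = 1 ∧ charDegree (χ : G → ℂ) = 16) ∨
        (c χ = -1 ∧ charDegree (χ : G → ℂ) = 9) ∨ (c χ = -1 ∧ charDegree (χ : G → ℂ) = 24) := by
    intro χ hne hpm hs
    have hopt := deg_options _ (by rw [← h]; exact Cfsg.Agent.H81.irr_charDegree_dvd χ) hs
      (by
        intro h1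
        apply hne
        apply linear_trivial hperf
        rw [(Cfsg.Agent.H81.irr_charDegree χ).1, h1]; norm_num) _ hpm (hc5 χ)
    rcases hopt with ⟨hc1, h6 | h16⟩ | ⟨hc1, h4 | h9 | h24⟩
    · exact Or.inl ⟨hc1, h6⟩
    · exact Or.inr (Or.inl ⟨hc1, h16⟩)
    · exact (kill χ hc1 h4).elim
    · exact Or.inr (Or.inr (Or.inl ⟨hc1, h9⟩))
    · exact Or.inr (Or.inr (Or.inr ⟨hc1, h24⟩))
  rw [h] at hsq
  have o1 := key χ₁ ht1 hp1 (by nlinarith)
  have o2 := key χ₂ ht2 hp2 (by nlinarith)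
  have o3 := key χ₃ ht3 hp3 (by nlinarith)
  have o4 := key χ₄ ht4 hp4 (by nlinarith)
  rcases o1 with ⟨c1, h1⟩ | ⟨c1, h1⟩ | ⟨c1, h1⟩ | ⟨c1, h1⟩ <;>
  rcases o2 with ⟨c2, h2⟩ | ⟨c2, h2⟩ | ⟨c2, h2⟩ | ⟨c2, h2⟩ <;>
  rcases o3 with ⟨c3, h3⟩ | ⟨c3, h3⟩ | ⟨c3, h3⟩ | ⟨c3, h3⟩ <;>
  rcases o4 with ⟨c4, h4⟩ | ⟨c4, h4⟩ | ⟨c4, h4⟩ | ⟨c4, h4⟩ <;>
  (rw [c1, c2, c3, c4, h1, h2, h3, h4] at heq; rw [h1, h2, h3, h4] at hsq; omega)

example {G : Type*} [Group G] [Finite G] [IsSimpleGroup G] (h : Nat.card G = 720) : False :=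
  no_simple_720 h

end Cfsg.Agent.H65.Ord720
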