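import Mathlib
import Cfsg.Agent.S0077
import Cfsg.Agent.H21.SimpleTools
import Cfsg.Agent.H21.SylowInter
import Cfsg.Agent.H21.SylowDesign
import Cfsg.Agent.H21.PrimeSylow

/-!
# No simple group of order 756 (helper65, piece S0496-N756 for helper21)

`756 = 2^2 * 3^3 * 7`.  `n_3 = 28`, so a Sylow 3-subgroup `P` is self-normalizing.  The centre
`Z` of `P` is weakly closed in `P` (otherwise some `P ∩ Q` has a too large normalizer), and
Grün's theorem (S0077) gives `P = G' ∩ P = N(Z)' ∩ P = P' ∩ P`, which is absurd.
-/

set_option autoImplicit false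

namespace Cfsg.Agent.H65.Ord756

open Subgroup Cfsg.Agent.H21
open scoped Pointwise

/-- If `H` has index `2` in `K` then `K` normalizes `H`. -/
theorem le_normalizer_of_relIndex_two {G : Type*} [Group G] {H K : Subgroup G} (hHK : H ≤ K)
    (h : H.relIndex K = 2) : K ≤ normalizer (H : Set G) := by
  have hn : (H.subgroupOf K).Normal := Subgroup.normal_of_index_eq_two h
  exact (Subgroup.normal_subgroupOf_iff_le_normalizer hHK).1 hn

/-- The orders of subgroups between a subgroup of order `27` and a group of order `756`. -/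
theorem card_cases (c : ℕ) (h27 : 27 ∣ c) (h756 : c ∣ 756) :
    c = 27 ∨ c = 54 ∨ c = 108 ∨ c = 189 ∨ c = 378 ∨ c = 756 := by
  obtain ⟨m, rfl⟩ := h27
  have hm : m ∣ 28 := by
    have : 27 * m ∣ 27 * 28 := h756
    exact (Nat.mul_dvd_mul_iff_left (by norm_num)).1 this
  have hle : m ≤ 28 := Nat.le_of_dvd (by norm_num) hm
  interval_cases m <;> omega

theorem no_simple_756 {G : Type*} [Group G] [Finite G] [IsSimpleGroup G]
    (h : Nat.card G = 756) : False := by
  have hG : ¬ IsMulCommutative G := not_comm_of_not_prime (by rw [h]; norm_num)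
  have : Fact (Nat.Prime 3) := ⟨by norm_num⟩
  -- Sylow facts, for every Sylow 3-subgroup
  have key : ∀ Q : Sylow 3 G, Nat.card (Q : Subgroup G) = 27 ∧
      normalizer ((Q : Subgroup G) : Set G) = (Q : Subgroup G) := by
    intro Q
    obtain ⟨hQ, -, -, hdvd, hmod, hne1, hfact, hNn, -⟩ :=
      simple_sylow_facts hG (p := 3) (k := 3) (m := 28) (by rw [h]; norm_num) (by norm_num)
        (by norm_num) Q
    have hn : Nat.card (Sylow 3 G) = 28 := by
      rw [h] at hfact
      generalize Nat.card (Sylow 3 G) = n at *
      have hle : n ≤ 28 := Nat.le_of_dvd (by norm_num) hdvd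
      interval_cases n <;> first | omega | (exfalso; revert hfact; decide)
    have hNQ : Nat.card (normalizer ((Q : Subgroup G) : Set G)) = 27 := by
      rw [hn, h] at hNn; omega
    have hQ' : Nat.card (Q : Subgroup G) = 27 := by rw [hQ]; norm_num
    exact ⟨hQ', (Subgroup.eq_of_le_of_card_ge le_normalizer (by rw [hNQ, hQ'])).symm⟩
  -- index restriction for proper subgroups
  have hindex : ∀ H : Subgroup G, H ≠ ⊤ → Nat.card H ≠ 108 ∧ Nat.card H ≠ 189 ∧
      Nat.card H ≠ 378 ∧ Nat.card H ≠ 756 := by
    intro H hH
    have h1 := two_mul_card_dvd_factorial_index hG H hH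
    have h2 := H.card_mul_index
    rw [h] at h1 h2
    refine ⟨?_, ?_, ?_, ?_⟩
    · intro hc
      rw [hc] at h2
      have : H.index = 7 := by omega
      rw [this] at h1
      revert h1; decide
    · intro hc
      rw [hc] at h2
      have : H.index = 4 := by omega
      rw [this] at h1
      revert h1; decide
    · intro hc
      rw [hc] at h2
      have : H.index = 2 := by omega
      rw [this] at h1
      revert h1; decide
    · intro hc
      apply hH
      exact Subgroup.eq_top_of_card_eq H (by rw [hc, h])
  obtain ⟨P⟩ : Nonempty (Sylow 3 G) := inferInstance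
  obtain ⟨hP, hNP⟩ := key P
  -- the centre of `P`
  obtain ⟨Z, hZdef⟩ : ∃ Z : Subgroup G, Z = (P : Subgroup G) ⊓ centralizer ((P : Subgroup G) : Set G) :=
    ⟨_, rfl⟩
  have hZP : Z ≤ (P : Subgroup G) := hZdef ▸ inf_le_left
  have hZC : Z ≤ centralizer ((P : Subgroup G) : Set G) := hZdef ▸ inf_le_right
  have hZne : Z ≠ ⊥ := by
    have : Nontrivial (P : Subgroup G) := by
      rw [← Finite.one_lt_card_iff_nontrivial, hP]; norm_num
    have hc : Nontrivial (Subgroup.center (P : Subgroup G)) := P.2.center_nontrivial
    obtain ⟨⟨z, hz⟩, hz1⟩ := exists_ne (1 : Subgroup.center (P : Subgroup G))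
    intro hbot
    apply hz1
    have hzZ : (z : G) ∈ Z := by
      rw [hZdef]
      refine ⟨z.2, mem_centralizer_iff.2 ?_⟩
      intro x hx
      have := Subgroup.mem_center_iff.1 hz ⟨x, hx⟩
      exact congrArg Subtype.val this
    rw [hbot, Subgroup.mem_bot] at hzZ
    exact Subtype.ext (Subtype.ext hzZ)
  have hcomm : ∀ u ∈ (P : Subgroup G), ∀ z ∈ Z, u * z * u⁻¹ = z := by
    intro u hu z hz
    have := (mem_centralizer_iff.1 (hZC hz)) u hu
    rw [this, mul_inv_cancel_right]
  -- a subgroup is normalized by what conjugates it into itself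
  have hnorm : ∀ (D : Subgroup G) (u : G), (∀ d ∈ D, u * d * u⁻¹ ∈ D) →
      u ∈ normalizer (D : Set G) := by
    intro D u hu
    exact Subgroup.mem_normalizer_fintype (S := (D : Set G)) hu
  -- weak closure of `Z` in `P`
  have hW : Cfsg.IsWeaklyClosed Z (P : Subgroup G) := by
    refine ⟨hZP, fun g hg => ?_⟩
    by_cases hQP : g • P = P
    · -- `g ∈ N(P) = P`
      have hgN : g ∈ normalizer ((P : Subgroup G) : Set G) := Sylow.smul_eq_iff_mem_normalizer.1 hQP
      rw [hNP] at hgN
      ext x
      rw [Subgroup.mem_map]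
      constructor
      · rintro ⟨z, hz, rfl⟩
        have : (MulAut.conj g).toMonoidHom z = g * z * g⁻¹ := rfl
        rw [this, hcomm g hgN z hz]
        exact hz
      · intro hx
        refine ⟨x, hx, ?_⟩
        have : (MulAut.conj g).toMonoidHom x = g * x * g⁻¹ := rfl
        rw [this, hcomm g hgN x hx]
    · exfalso
      obtain ⟨Q, hQdef⟩ : ∃ Q : Sylow 3 G, Q = g • P := ⟨_, rfl⟩
      have hQne : Q ≠ P := hQdef ▸ hQP
      obtain ⟨hQ, hNQ⟩ := key Q
      -- a nontrivial element of `g Z g⁻¹`
      obtain ⟨z, hz, hz1⟩ : ∃ z ∈ Z, z ≠ 1 := by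
        by_contra hcon
        apply hZne
        rw [Subgroup.eq_bot_iff_forall]
        intro x hx
        by_contra hx1
        exact hcon ⟨x, hx, hx1⟩
      have hmemP : ∀ z ∈ Z, g * z * g⁻¹ ∈ (P : Subgroup G) := fun z hz =>
        hg (Subgroup.mem_map.2 ⟨z, hz, rfl⟩)
      have hmemQ : ∀ z ∈ Z, g * z * g⁻¹ ∈ (Q : Subgroup G) := by
        intro z hz
        rw [hQdef, mem_smul_sylow_iff]
        have : g⁻¹ * (g * z * g⁻¹) * g = z := by group
        rw [this]
        exact hZP hz
      have hcentQ : ∀ z ∈ Z, ∀ u ∈ (Q : Subgroup G), u * (g * z * g⁻¹) * u⁻¹ = g * z * g⁻¹ := by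
        intro z hz u hu
        rw [hQdef, mem_smul_sylow_iff] at hu
        have h1 := hcomm _ hu z hz
        have h2 : u * (g * z * g⁻¹) * u⁻¹ = g * ((g⁻¹ * u * g) * z * (g⁻¹ * u * g)⁻¹) * g⁻¹ := by
          group
        rw [h2, h1]
      obtain ⟨D, hDdef⟩ : ∃ D : Subgroup G, D = (P : Subgroup G) ⊓ Q := ⟨_, rfl⟩
      have hDP : D < (P : Subgroup G) := hDdef ▸ sylow_inf_lt_left hQne.symm
      have hDQ : D ≤ (Q : Subgroup G) := hDdef ▸ inf_le_right
      have hzD : ∀ z ∈ Z, g * z * g⁻¹ ∈ D := fun z hz => hDdef ▸ ⟨hmemP z hz, hmemQ z hz⟩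
      have hw1 : g * z * g⁻¹ ≠ 1 := by
        intro hc
        apply hz1
        have : z = g⁻¹ * (g * z * g⁻¹) * g := by group
        rw [this, hc]; group
      -- the order of `D`
      have hDcard : Nat.card D = 3 ∨ Nat.card D = 9 := by
        have hdvd : Nat.card D ∣ 3 ^ 3 := by
          have := Subgroup.card_dvd_of_le hDP.le
          rw [hP] at this
          exact this
        obtain ⟨j, hj, hj2⟩ := (Nat.dvd_prime_pow Nat.prime_three).1 hdvd
        have hne27 : Nat.card D ≠ 27 := by
          intro hc
          exact hDP.ne (Subgroup.eq_of_le_of_card_ge hDP.le (by rw [hc, hP]))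
        have hne1 : Nat.card D ≠ 1 := by
          intro hc
          have := (Subgroup.card_eq_one.1 hc)
          have hmem := hzD z hz
          rw [this, Subgroup.mem_bot] at hmem
          exact hw1 hmem
        interval_cases j <;> simp_all
      -- `Q` normalizes `D`
      have hQN : (Q : Subgroup G) ≤ normalizer (D : Set G) := by
        intro u hu
        apply hnorm
        intro d hd
        rcases hDcard with h3 | h9
        · -- `D` is generated by `g z g⁻¹`, central in `Q`
          have hDz : D = zpowers (g * z * g⁻¹) := by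
            refine (Subgroup.eq_of_le_of_card_ge ?_ ?_).symm
            · rw [zpowers_le]; exact hzD z hz
            · rw [h3, Nat.card_zpowers]
              have hord : orderOf (g * z * g⁻¹) ∣ 3 := by
                have := orderOf_dvd_card_of_mem D _ (hzD z hz)
                rwa [h3] at this
              rcases (Nat.dvd_prime Nat.prime_three).1 hord with h1 | h1
              · exact absurd (orderOf_eq_one_iff.1 h1) hw1
              · rw [h1]
          rw [hDz] at hd ⊢
          obtain ⟨k, rfl⟩ := mem_zpowers_iff.1 hd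
          have : u * (g * z * g⁻¹) ^ k * u⁻¹ = (u * (g * z * g⁻¹) * u⁻¹) ^ k :=
            conj_zpow.symm
          rw [this, hcentQ z hz u hu]
          exact zpow_mem (mem_zpowers _) k
        · exact conj_mem_of_card_mul_eq Q D hDQ (by rw [h9, hQ]) u hu d hd
      -- a 3-element of `N(D)` outside `Q`
      obtain ⟨t, htP, htN, htD⟩ := exists_normalizer_not_mem P.2 hDP
      have htQ : t ∉ (Q : Subgroup G) := fun hc => htD (hDdef ▸ ⟨htP, hc⟩)
      have hDne : D ≠ ⊥ := by
        intro hc
        have hmem := hzD z hz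
        rw [hc, Subgroup.mem_bot] at hmem
        exact hw1 hmem
      have hNtop : normalizer (D : Set G) ≠ ⊤ := by
        intro htop
        have hnormal : D.Normal := Subgroup.normalizer_eq_top_iff.1 htop
        rcases hnormal.eq_bot_or_eq_top with hb | ht
        · exact hDne hb
        · rw [ht] at hDP
          exact absurd le_top (not_le_of_gt hDP)
      obtain ⟨i1, i2, i3, i4⟩ := hindex _ hNtop
      have h27 : 27 ∣ Nat.card (normalizer (D : Set G)) := by
        have := Subgroup.card_dvd_of_le hQN
        rwa [hQ] at this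
      have h756 : Nat.card (normalizer (D : Set G)) ∣ 756 := h ▸ Subgroup.card_subgroup_dvd_card _
      rcases card_cases _ h27 h756 with hc | hc | hc | hc | hc | hc
      · -- `N(D) = Q`
        have : (Q : Subgroup G) = normalizer (D : Set G) :=
          Subgroup.eq_of_le_of_card_ge hQN (by rw [hc, hQ])
        exact htQ (this ▸ htN)
      · -- `Q` has index 2 in `N(D)`
        have hrel : (Q : Subgroup G).relIndex (normalizer (D : Set G)) = 2 := by
          have h2 := Subgroup.card_mul_index ((Q : Subgroup G).subgroupOf (normalizer (D : Set G)))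
          have h3 : Nat.card ((Q : Subgroup G).subgroupOf (normalizer (D : Set G))) = 27 := by
            rw [Nat.card_congr (Subgroup.subgroupOfEquivOfLe hQN).toEquiv, hQ]
          rw [h3, hc] at h2
          have : ((Q : Subgroup G).subgroupOf (normalizer (D : Set G))).index = 2 := by omega
          exact this
        have hle := le_normalizer_of_relIndex_two hQN hrel
        have htNQ : t ∈ normalizer ((Q : Subgroup G) : Set G) := hle htN
        obtain ⟨j, hj⟩ := (IsPGroup.iff_orderOf.1 P.2) ⟨t, htP⟩
        have hj' : orderOf t = 3 ^ j := by rw [← hj, Subgroup.orderOf_mk]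
        exact htQ (mem_sylow_of_mem_normalizer Q t j hj' htNQ)
      · exact i1 hc
      · exact i2 hc
      · exact i3 hc
      · exact i4 hc
  -- Grün
  have hgruen := Cfsg.Agent.S0077.result P Z hZC hW
  -- `N(Z) = P`
  have hPNZ : (P : Subgroup G) ≤ normalizer (Z : Set G) := by
    intro u hu
    apply hnorm
    intro z hz
    rw [hcomm u hu z hz]
    exact hz
  have hNZtop : normalizer (Z : Set G) ≠ ⊤ := by
    intro htop
    have hnormal : Z.Normal := Subgroup.normalizer_eq_top_iff.1 htop
    rcases hnormal.eq_bot_or_eq_top with hb | ht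
    · exact hZne hb
    · have : Nat.card Z ≤ 27 := hP ▸ Subgroup.card_le_of_le hZP
      rw [ht, Subgroup.card_top, h] at this
      omega
  have hNZ : normalizer (Z : Set G) = (P : Subgroup G) := by
    obtain ⟨i1, i2, i3, i4⟩ := hindex _ hNZtop
    have h27 : 27 ∣ Nat.card (normalizer (Z : Set G)) := by
      have := Subgroup.card_dvd_of_le hPNZ
      rwa [hP] at this
    have h756 : Nat.card (normalizer (Z : Set G)) ∣ 756 := h ▸ Subgroup.card_subgroup_dvd_card _
    rcases card_cases _ h27 h756 with hc | hc | hc | hc | hc | hc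
    · exact (Subgroup.eq_of_le_of_card_ge hPNZ (by rw [hc, hP])).symm
    · exfalso
      have hrel : (P : Subgroup G).relIndex (normalizer (Z : Set G)) = 2 := by
        have h2 := Subgroup.card_mul_index ((P : Subgroup G).subgroupOf (normalizer (Z : Set G)))
        have h3 : Nat.card ((P : Subgroup G).subgroupOf (normalizer (Z : Set G))) = 27 := by
          rw [Nat.card_congr (Subgroup.subgroupOfEquivOfLe hPNZ).toEquiv, hP]
        rw [h3, hc] at h2
        have : ((P : Subgroup G).subgroupOf (normalizer (Z : Set G))).index = 2 := by omega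
        exact this
      have hle := le_normalizer_of_relIndex_two hPNZ hrel
      rw [hNP] at hle
      have := Subgroup.card_le_of_le hle
      rw [hc, hP] at this
      omega
    · exact absurd hc i1
    · exact absurd hc i2
    · exact absurd hc i3
    · exact absurd hc i4
  -- `G' = G`
  have hcomG : commutator G = ⊤ := by
    rcases (inferInstance : (commutator G).Normal).eq_bot_or_eq_top with hb | ht
    · exfalso
      apply hG
      rw [_root_.commutator_def, Subgroup.commutator_eq_bot_iff_le_centralizer] at hb
      refine ⟨⟨fun a b => ?_⟩⟩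
      have := (mem_centralizer_iff.1 (hb (Subgroup.mem_top a))) b (Subgroup.mem_top b)
      exact this.symm
    · exact ht
  rw [hcomG, top_inf_eq, hNZ] at hgruen
  -- `P` is perfect
  have hperf : (P : Subgroup G) ≤ ⁅(P : Subgroup G), (P : Subgroup G)⁆ :=
    le_trans hgruen.le inf_le_left
  have : Nontrivial (P : Subgroup G) := by
    rw [← Finite.one_lt_card_iff_nontrivial, hP]; norm_num
  have : Group.IsNilpotent (P : Subgroup G) := P.2.isNilpotent
  have hlt := Group.IsSolvable.commutator_lt_top_of_nontrivial (P : Subgroup G)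
  apply hlt.ne
  rw [eq_top_iff]
  intro x _
  have hx : (x : G) ∈ ⁅(P : Subgroup G), (P : Subgroup G)⁆ := hperf x.2
  rw [← Subgroup.map_subtype_commutator] at hx
  obtain ⟨y, hy, hyx⟩ := Subgroup.mem_map.1 hx
  have : y = x := Subtype.ext hyx
  rw [← this]
  exact hy

end Cfsg.Agent.H65.Ord756

/-- The statement exactly as posted (board 2114, S0496-N756). -/
example {G : Type*} [Group G] [Finite G] [IsSimpleGroup G]
    (h : Nat.card G = 756) : False := Cfsg.Agent.H65.Ord756.no_simple_756 h
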