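import Mathlib
import Cfsg.Agent.H26.P2Defs

/-!
# S4705 piece P2-EXS (helper65): the exponent `s` (Chinese remainder theorem)
-/

set_option autoImplicit false
set_option linter.style.haveILetI false
set_option linter.unusedVariables false

namespace Cfsg.Agent.H65.P2

open Cfsg.Agent.H26.P2

universe u

theorem exS : StExS.{u} := by
  intro G _ _ p hpF hp2
  have hp : p.Prime := hpF.out
  set n : ℕ := Nat.card G with hn
  have hn0 : n ≠ 0 := Nat.card_pos.ne'
  -- `n = A * n2`, `n2 = B * M`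
  set A : ℕ := ordProj[2] n with hA
  set n2 : ℕ := ordCompl[2] n with hn2
  set B : ℕ := ordProj[p] n2 with hB
  set M : ℕ := ordCompl[p] n2 with hM
  have hAn2 : A * n2 = n := Nat.ordProj_mul_ordCompl_eq_self n 2
  have hBM : B * M = n2 := Nat.ordProj_mul_ordCompl_eq_self n2 p
  have hn20 : n2 ≠ 0 := by
    intro h
    rw [h, mul_zero] at hAn2
    exact hn0 hAn2.symm
  have c2n2 : Nat.Coprime 2 n2 := Nat.coprime_ordCompl Nat.prime_two hn0
  have cpM : Nat.Coprime p M := Nat.coprime_ordCompl hp hn20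
  have hMn2 : M ∣ n2 := Dvd.intro_left B hBM
  have c2M : Nat.Coprime 2 M := Nat.Coprime.coprime_dvd_right hMn2 c2n2
  have cAM : Nat.Coprime A M := Nat.Coprime.pow_left _ c2M
  have cBM : Nat.Coprime B M := Nat.Coprime.pow_left _ cpM
  have cABM : Nat.Coprime (A * B) M := Nat.Coprime.mul_left cAM cBM
  obtain ⟨s, hs1, hs2⟩ := Nat.chineseRemainder cABM 1 2
  have hnABM : n = A * B * M := by rw [mul_assoc, hBM, hAn2]
  refine ⟨s, ?_, ?_, ?_⟩
  · -- coprime
    rw [hnABM]
    apply Nat.Coprime.mul_right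
    · show Nat.gcd s (A * B) = 1
      rw [hs1.gcd_eq]
      exact Nat.gcd_one_left _
    · show Nat.gcd s M = 1
      rw [hs2.gcd_eq]
      exact c2M
  · intro g hodd hpg
    have hdvd : orderOf g ∣ A * B * M := by rw [← hnABM]; exact orderOf_dvd_natCard g
    have c1 : Nat.Coprime (orderOf g) A :=
      Nat.Coprime.pow_right _ (Nat.coprime_two_right.mpr hodd)
    have c2 : Nat.Coprime (orderOf g) B :=
      Nat.Coprime.pow_right _ ((Nat.Prime.coprime_iff_not_dvd hp).mpr hpg).symm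
    have hdM : orderOf g ∣ M := (Nat.Coprime.mul_right c1 c2).dvd_of_dvd_mul_left hdvd
    exact pow_eq_pow_iff_modEq.mpr (hs2.of_dvd hdM)
  · intro g i hgi
    obtain ⟨j, -, hj⟩ := (Nat.dvd_prime_pow Nat.prime_two).mp (orderOf_dvd_of_pow_eq_one hgi)
    have hdvd : orderOf g ∣ A * n2 := by rw [hAn2]; exact orderOf_dvd_natCard g
    have c1 : Nat.Coprime (orderOf g) n2 := by rw [hj]; exact Nat.Coprime.pow_left _ c2n2
    have hdA : orderOf g ∣ A := c1.dvd_of_dvd_mul_right hdvd
    have hdAB : orderOf g ∣ A * B := Dvd.dvd.mul_right hdA B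
    have h1 := pow_eq_pow_iff_modEq.mpr (hs1.of_dvd hdAB)
    rw [h1, pow_one]

example : Cfsg.Agent.H26.P2.StExS.{u} := exS

end Cfsg.Agent.H65.P2
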