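import Mathlib
import Cfsg.Agent.H26.P2Defs

/-!
# S4705 piece P2-QAB (helper65): exponent 2 gives commutative involution centralisers in `G / Z(G)`
-/

set_option autoImplicit false
set_option linter.style.haveILetI false
set_option linter.unusedVariables false

namespace Cfsg.Agent.H65.P2

open Cfsg.Agent.H26.P2

universe u

theorem qAb : StQAb.{u} := by
  intro G _ _ hQ t ht
  obtain ⟨t0, rfl⟩ := QuotientGroup.mk_surjective t
  have ht1 : (QuotientGroup.mk t0 : G ⧸ Subgroup.center G) ≠ 1 := by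
    intro h
    rw [h, orderOf_one] at ht
    omega
  have ht0 : t0 ∉ Subgroup.center G := fun h => ht1 ((QuotientGroup.eq_one_iff t0).mpr h)
  have htt : t0 * t0 ∈ Subgroup.center G := by
    have h1 : (QuotientGroup.mk t0 : G ⧸ Subgroup.center G) ^ 2 = 1 := by
      rw [← ht]; exact pow_orderOf_eq_one _
    rw [← QuotientGroup.mk_pow, QuotientGroup.eq_one_iff, pow_two] at h1
    exact h1
  -- every element of the centraliser has square 1
  have hexp : ∀ x : G ⧸ Subgroup.center G,
      x ∈ Subgroup.centralizer ({(QuotientGroup.mk t0 : G ⧸ Subgroup.center G)} : Set _) →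
      x * x = 1 := by
    intro x hx
    obtain ⟨g, rfl⟩ := QuotientGroup.mk_surjective x
    rw [Subgroup.mem_centralizer_iff] at hx
    have h1 := hx _ (Set.mem_singleton _)
    -- `h1 : mk t0 * mk g = mk g * mk t0`
    have h2 : g * t0 * g⁻¹ * t0⁻¹ ∈ Subgroup.center G := by
      rw [← QuotientGroup.eq_one_iff]
      rw [QuotientGroup.mk_mul, QuotientGroup.mk_mul, QuotientGroup.mk_mul, QuotientGroup.mk_inv,
        QuotientGroup.mk_inv, ← h1, mul_inv_cancel_right, mul_inv_cancel]
    have h3 := hQ t0 g ht0 htt h2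
    rw [← QuotientGroup.mk_mul]
    exact (QuotientGroup.eq_one_iff _).mpr h3
  refine ⟨⟨fun a b => ?_⟩⟩
  apply Subtype.ext
  have ha := hexp a a.2
  have hb := hexp b b.2
  have hab := hexp (a * b : _) (mul_mem a.2 b.2)
  have e1 : (a : G ⧸ Subgroup.center G)⁻¹ = a := inv_eq_of_mul_eq_one_right ha
  have e2 : (b : G ⧸ Subgroup.center G)⁻¹ = b := inv_eq_of_mul_eq_one_right hb
  have e3 : ((a : G ⧸ Subgroup.center G) * b)⁻¹ = a * b := inv_eq_of_mul_eq_one_right hab
  show (a : G ⧸ Subgroup.center G) * b = b * a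
  rw [← e3, mul_inv_rev, e1, e2]

example : Cfsg.Agent.H26.P2.StQAb.{u} := qAb

end Cfsg.Agent.H65.P2
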