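import Mathlib
import Cfsg.Agent.H26.P2Defs

/-!
# S4705 piece P2-QPROD (helper65): a centreless group isomorphic to `SL₂(F) × A`, `A` commutative
-/

set_option autoImplicit false
set_option linter.style.haveILetI false
set_option linter.unusedVariables false

namespace Cfsg.Agent.H65.P2

open Cfsg.Agent.H26.P2

universe u

theorem qProd : StQProd.{u} := by
  intro H _ F _ _ A _ hZ e
  have hA : ∀ a : A, a = 1 := by
    intro a
    have hc : e.symm ((1, a) : Matrix.SpecialLinearGroup (Fin 2) F × A) ∈ Subgroup.center H := by
      rw [Subgroup.mem_center_iff]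
      intro h
      apply e.injective
      rw [map_mul, map_mul, e.apply_symm_apply]
      apply Prod.ext
      · simp
      · simp [mul_comm]
    have h1 := hZ _ hc
    have h2 : ((1, a) : Matrix.SpecialLinearGroup (Fin 2) F × A) = 1 := by
      have := congrArg e h1
      rwa [e.apply_symm_apply, map_one] at this
    exact congrArg Prod.snd h2
  haveI : Subsingleton A := ⟨fun a b => (hA a).trans (hA b).symm⟩
  haveI : Unique A := uniqueOfSubsingleton 1
  exact ⟨e.trans MulEquiv.prodUnique⟩

example : Cfsg.Agent.H26.P2.StQProd.{u} := qProd

end Cfsg.Agent.H65.P2
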