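import Mathlib
import Cfsg.Agent.H26.P2Defs

/-!
# S4705 piece P2-ZREG (helper65): the centre is a `p'`-group
-/

set_option autoImplicit false
set_option linter.style.haveILetI false
set_option linter.unusedVariables false

namespace Cfsg.Agent.H65.P2

open Cfsg.Agent.H26.P2

universe u

theorem zReg : StZReg.{u} := by
  intro G _ _ p _ P hP hPn z hz hdvd
  apply hPn
  set w : G := z ^ (orderOf z / p) with hw
  have hwo : orderOf w = p := orderOf_pow_orderOf_div (orderOf_pos z).ne' hdvd
  have hwz : w ∈ Subgroup.center G := Subgroup.pow_mem _ hz _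
  have hpg : IsPGroup p (Subgroup.zpowers w) :=
    IsPGroup.of_card (n := 1) (by rw [Nat.card_zpowers, hwo, pow_one])
  obtain ⟨Q, hQ⟩ := hpg.exists_le_sylow
  have hwQ : w ∈ (Q : Subgroup G) := hQ (Subgroup.mem_zpowers w)
  obtain ⟨g, hg⟩ := MulAction.exists_smul_eq G Q P
  have hwP : w ∈ (P : Subgroup G) := by
    have h1 : g * w * g⁻¹ ∈ ((g • Q : Sylow p G) : Subgroup G) :=
      Subgroup.smul_mem_pointwise_smul w (MulAut.conj g) (Q : Subgroup G) hwQ
    rw [hg] at h1
    have h2 : g * w * g⁻¹ = w := by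
      rw [Subgroup.mem_center_iff] at hwz
      rw [hwz g, mul_inv_cancel_right]
    rwa [h2] at h1
  have hle : Subgroup.zpowers w ≤ (P : Subgroup G) := by
    rw [Subgroup.zpowers_le]
    exact hwP
  have heq : Subgroup.zpowers w = (P : Subgroup G) :=
    Subgroup.eq_of_le_of_card_ge hle (by rw [hP, Nat.card_zpowers, hwo])
  constructor
  intro n hn g'
  rw [← heq] at hn ⊢
  have hnz : n ∈ Subgroup.center G := by
    obtain ⟨k, rfl⟩ := Subgroup.mem_zpowers_iff.mp hn
    exact Subgroup.zpow_mem _ hwz _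
  have h2 : g' * n * g'⁻¹ = n := by
    rw [Subgroup.mem_center_iff] at hnz
    rw [hnz g', mul_inv_cancel_right]
  rw [h2]
  exact hn

example : Cfsg.Agent.H26.P2.StZReg.{u} := zReg

end Cfsg.Agent.H65.P2
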