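import Mathlib

set_option autoImplicit false
set_option linter.style.haveILetI false
set_option linter.unusedVariables false

/-!
# The automorphism group of a field with `2 ^ f` elements is cyclic of order `f`

Pure half of P-FIELD (helper96's team project S2607, case `m = 4`).
-/

namespace Cfsg.Agent.H65.D4P

universe u

/-- Ring automorphisms of a field of characteristic 2 are the same as `𝔽₂`-algebra
automorphisms. -/
noncomputable def ringAutEquivAlg (F : Type u) [Field F] [Algebra (ZMod 2) F] :
    (F ≃+* F) ≃* (F ≃ₐ[ZMod 2] F) where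
  toFun σ := AlgEquiv.ofRingEquiv (f := σ) (fun x =>
    RingHom.congr_fun (Subsingleton.elim ((σ : F →+* F).comp (algebraMap (ZMod 2) F))
      (algebraMap (ZMod 2) F)) x)
  invFun τ := τ.toRingEquiv
  left_inv σ := by
    ext x
    rfl
  right_inv τ := by
    ext x
    rfl
  map_mul' σ τ := by
    ext x
    rfl

theorem ringAut_zmod (F : Type u) [Field F] [Finite F] (f : ℕ) (hF : Nat.card F = 2 ^ f) :
    Nonempty ((F ≃+* F) ≃* Multiplicative (ZMod f)) := by
  classical
  haveI : Fintype F := Fintype.ofFinite F
  -- characteristic 2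
  haveI hcp : CharP F (ringChar F) := ringChar.charP F
  have hprime : (ringChar F).Prime := CharP.char_is_prime F (ringChar F)
  haveI : Fact (ringChar F).Prime := ⟨hprime⟩
  obtain ⟨n, -, hn⟩ := FiniteField.card F (ringChar F)
  have hF' : Fintype.card F = 2 ^ f := by rw [← Nat.card_eq_fintype_card]; exact hF
  have h2 : ringChar F = 2 := by
    have hdvd : ringChar F ∣ 2 ^ f := by
      rw [← hF', hn]
      exact dvd_pow_self _ n.pos.ne'
    exact (Nat.prime_dvd_prime_iff_eq hprime Nat.prime_two).mp (hprime.dvd_of_dvd_pow hdvd)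
  haveI : CharP F 2 := h2 ▸ hcp
  letI : Algebra (ZMod 2) F := ZMod.algebra F 2
  -- the Galois group over the prime field
  have hcyc : IsCyclic (F ≃ₐ[ZMod 2] F) := inferInstance
  have hrank : Module.finrank (ZMod 2) F = f := by
    have h1 := Module.card_eq_pow_finrank (K := ZMod 2) (V := F)
    rw [hF', ZMod.card] at h1
    exact (Nat.pow_right_injective (le_refl 2) h1).symm
  have hcardA : Nat.card (F ≃ₐ[ZMod 2] F) = f := by
    have hb := FiniteField.bijective_frobeniusAlgEquivOfAlgebraic_pow (ZMod 2) F
    rw [← Nat.card_eq_of_bijective _ hb, Nat.card_fin, hrank]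
  -- transport to ring automorphisms
  let e := ringAutEquivAlg F
  haveI hcyc' : IsCyclic (F ≃+* F) := isCyclic_of_surjective e.symm e.symm.surjective
  have hcard : Nat.card (F ≃+* F) = f := by
    rw [Nat.card_congr e.toEquiv, hcardA]
  subst hcard
  exact ⟨(zmodCyclicMulEquiv hcyc').symm⟩

end Cfsg.Agent.H65.D4P

universe u in
example (F : Type u) [Field F] [Finite F] (f : ℕ) (hF : Nat.card F = 2 ^ f) :
    Nonempty ((F ≃+* F) ≃* Multiplicative (ZMod f)) :=
  Cfsg.Agent.H65.D4P.ringAut_zmod F f hF
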