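import Mathlib
import Cfsg.Agent.H78.SvDefs

/-!
# S2425-GRAPH (helper65, for helper78): complements of an atom `A` in `W = w₀ ⊕ A` correspond to
equivariant maps `w₀ → A` (graphs).
-/

set_option autoImplicit false

namespace Cfsg.Agent.H65.Sv

open Cfsg.Agent.H78.Sv
open scoped MatrixGroups

section inv

variable {F : Type*} [Field F] {V : Type*} [AddCommGroup V] [Module F V]

/-- The graph of a linear map between submodules. -/
def graphSub {p q : Submodule F V} (φ : ↥p →ₗ[F] ↥q) : Submodule F V :=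
  LinearMap.range (p.subtype + q.subtype ∘ₗ φ)

theorem mem_graphSub {p q : Submodule F V} (φ : ↥p →ₗ[F] ↥q) (x : V) :
    x ∈ graphSub φ ↔ ∃ v : ↥p, (v : V) + (φ v : V) = x := by
  unfold graphSub
  rw [LinearMap.mem_range]
  rfl

theorem graphSub_sup {p q : Submodule F V} (φ : ↥p →ₗ[F] ↥q) : graphSub φ ⊔ q = p ⊔ q := by
  apply le_antisymm
  · apply sup_le
    · intro x hx
      obtain ⟨v, rfl⟩ := (mem_graphSub φ x).1 hx
      exact Submodule.add_mem_sup v.2 (φ v).2
    · exact le_sup_right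
  · apply sup_le
    · intro x hx
      have : x = ((⟨x, hx⟩ : ↥p) : V) + (φ ⟨x, hx⟩ : V) + (-(φ ⟨x, hx⟩ : V)) := by simp
      rw [this]
      exact Submodule.add_mem_sup ((mem_graphSub φ _).2 ⟨⟨x, hx⟩, rfl⟩) (q.neg_mem (φ ⟨x, hx⟩).2)
    · exact le_sup_right

theorem graphSub_inf {p q : Submodule F V} (hpq : p ⊓ q = ⊥) (φ : ↥p →ₗ[F] ↥q) :
    graphSub φ ⊓ q = ⊥ := by
  rw [eq_bot_iff]
  intro x hx
  obtain ⟨hx1, hx2⟩ := Submodule.mem_inf.1 hx
  obtain ⟨v, rfl⟩ := (mem_graphSub φ x).1 hx1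
  have hv : (v : V) ∈ p ⊓ q := by
    refine Submodule.mem_inf.2 ⟨v.2, ?_⟩
    have : (v : V) = (v : V) + (φ v : V) - (φ v : V) := by simp
    rw [this]
    exact q.sub_mem hx2 (φ v).2
  rw [hpq, Submodule.mem_bot] at hv
  have hv0 : v = 0 := Subtype.ext hv
  rw [hv0]
  simp

theorem graphSub_injective {p q : Submodule F V} (hpq : p ⊓ q = ⊥) (φ ψ : ↥p →ₗ[F] ↥q)
    (h : graphSub φ = graphSub ψ) : φ = ψ := by
  refine LinearMap.ext fun v => Subtype.ext ?_
  have h1 : (v : V) + (φ v : V) ∈ graphSub ψ := by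
    rw [← h]; exact (mem_graphSub φ _).2 ⟨v, rfl⟩
  obtain ⟨v', hv'⟩ := (mem_graphSub ψ _).1 h1
  have hd : (v' : V) - (v : V) ∈ p ⊓ q := by
    refine Submodule.mem_inf.2 ⟨p.sub_mem v'.2 v.2, ?_⟩
    have : (v' : V) - (v : V) = (φ v : V) - (ψ v' : V) :=
      sub_eq_sub_iff_add_eq_add.2 (by rw [hv', add_comm])
    rw [this]
    exact q.sub_mem (φ v).2 (ψ v').2
  rw [hpq, Submodule.mem_bot, sub_eq_zero] at hd
  have hvv : v' = v := Subtype.ext hd
  rw [hvv] at hv'
  exact (add_left_cancel hv').symm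

theorem exists_graph {p q w : Submodule F V} (hwq : w ⊓ q = ⊥) (hsup : p ≤ w ⊔ q) :
    ∃ φ : ↥p →ₗ[F] ↥q, ∀ v : ↥p, (v : V) + (φ v : V) ∈ w := by
  have hex : ∀ v : ↥p, ∃ a : ↥q, (v : V) + (a : V) ∈ w := by
    intro v
    obtain ⟨x, hx, a, ha, hxa⟩ := Submodule.mem_sup.1 (hsup v.2)
    refine ⟨⟨-a, q.neg_mem ha⟩, ?_⟩
    have : (v : V) + -a = x := by rw [← hxa]; simp
    show (v : V) + -a ∈ w
    rw [this]
    exact hx
  have huniq : ∀ (v : V) (a a' : ↥q), v + (a : V) ∈ w → v + (a' : V) ∈ w → a = a' := by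
    intro v a a' h h'
    have hd : (a : V) - (a' : V) ∈ w ⊓ q := by
      refine Submodule.mem_inf.2 ⟨?_, q.sub_mem a.2 a'.2⟩
      have : (a : V) - (a' : V) = (v + (a : V)) - (v + (a' : V)) := by abel
      rw [this]
      exact w.sub_mem h h'
    rw [hwq, Submodule.mem_bot, sub_eq_zero] at hd
    exact Subtype.ext hd
  choose f hf using hex
  refine ⟨{ toFun := f, map_add' := ?_, map_smul' := ?_ }, hf⟩
  · intro v v'
    apply huniq ((v + v' : ↥p) : V) _ _ (hf (v + v'))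
    have : ((v + v' : ↥p) : V) + ((f v + f v' : ↥q) : V) =
        ((v : V) + (f v : V)) + ((v' : V) + (f v' : V)) := by
      push_cast; abel
    rw [this]
    exact w.add_mem (hf v) (hf v')
  · intro c v
    apply huniq ((c • v : ↥p) : V) _ _ (hf (c • v))
    have : ((c • v : ↥p) : V) + (((RingHom.id F) c • f v : ↥q) : V) =
        c • ((v : V) + (f v : V)) := by
      simp [smul_add]
    rw [this]
    exact w.smul_mem c (hf v)

theorem graphSub_eq {p q w : Submodule F V} (hwq : w ⊓ q = ⊥) (hle : w ≤ p ⊔ q)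
    (φ : ↥p →ₗ[F] ↥q) (hφ : ∀ v : ↥p, (v : V) + (φ v : V) ∈ w) : graphSub φ = w := by
  apply le_antisymm
  · intro x hx
    obtain ⟨v, rfl⟩ := (mem_graphSub φ x).1 hx
    exact hφ v
  · intro x hx
    obtain ⟨v, hv, a, ha, hva⟩ := Submodule.mem_sup.1 (hle hx)
    have hd : a - (φ ⟨v, hv⟩ : V) ∈ w ⊓ q := by
      refine Submodule.mem_inf.2 ⟨?_, q.sub_mem ha (φ ⟨v, hv⟩).2⟩
      have : a - (φ ⟨v, hv⟩ : V) = x - (v + (φ ⟨v, hv⟩ : V)) := by rw [← hva]; abel
      rw [this]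
      exact w.sub_mem hx (hφ ⟨v, hv⟩)
    rw [hwq, Submodule.mem_bot, sub_eq_zero] at hd
    refine (mem_graphSub φ x).2 ⟨⟨v, hv⟩, ?_⟩
    rw [← hd]
    exact hva

variable [FiniteDimensional F V]

theorem card_compl [Finite F] (T : Module.End F V) (W A w₀ : ↥(Module.End.invtSubmodule T))
    (hA : IsAtom A) (h1 : w₀ ⊔ A = W) (h2 : w₀ ⊓ A = ⊥) :
    Nat.card {w : ↥(Module.End.invtSubmodule T) // w ⊔ A = W ∧ w ≠ W} = Nat.card (HomT T w₀ A) := by
  have h1' : w₀.1 ⊔ A.1 = W.1 := by rw [← h1]; rfl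
  have h2' : w₀.1 ⊓ A.1 = ⊥ := congrArg Subtype.val h2
  have hAne : A.1 ≠ ⊥ := by
    intro h
    apply hA.1
    exact Subtype.ext h
  have hset : ∀ w : ↥(Module.End.invtSubmodule T), w ⊔ A = W → w ≠ W → w.1 ⊓ A.1 = ⊥ := by
    intro w hw hne
    have hle : w ⊓ A ≤ A := inf_le_right
    rcases hA.le_iff.1 hle with h | h
    · exact congrArg Subtype.val h
    · exfalso
      apply hne
      rw [← hw]
      have : A ≤ w := by rw [← h]; exact inf_le_left
      exact (sup_eq_left.2 this).symm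
  let Ψ : HomT T w₀ A → {w : ↥(Module.End.invtSubmodule T) // w ⊔ A = W ∧ w ≠ W} := fun φ =>
    ⟨⟨graphSub φ.1, by
        rw [Module.End.mem_invtSubmodule]
        intro x hx
        obtain ⟨v, rfl⟩ := (mem_graphSub φ.1 x).1 hx
        rw [Submodule.mem_comap, map_add]
        refine (mem_graphSub φ.1 _).2 ⟨resT T w₀ v, ?_⟩
        rw [φ.2 v]
        rfl⟩,
      by
        constructor
        · apply Subtype.ext
          show graphSub φ.1 ⊔ A.1 = W.1
          rw [graphSub_sup, h1']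
        · intro h
          have h' : graphSub φ.1 = W.1 := congrArg Subtype.val h
          have hinf := graphSub_inf h2' φ.1
          rw [h', ← h1'] at hinf
          apply hAne
          rw [← hinf]
          exact (inf_eq_right.2 le_sup_right).symm⟩
  have hΨinj : Function.Injective Ψ := by
    intro φ ψ h
    have h' : graphSub φ.1 = graphSub ψ.1 := congrArg (fun w => w.1.1) h
    exact Subtype.ext (graphSub_injective h2' φ.1 ψ.1 h')
  have hΨsurj : Function.Surjective Ψ := by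
    rintro ⟨w, hw, hne⟩
    have hwA := hset w hw hne
    have hw' : w.1 ⊔ A.1 = W.1 := by rw [← hw]; rfl
    obtain ⟨φ, hφ⟩ := exists_graph (p := w₀.1) hwA (by rw [hw', ← h1']; exact le_sup_left)
    have hgr : graphSub φ = w.1 :=
      graphSub_eq hwA (by rw [h1', ← hw']; exact le_sup_left) φ hφ
    refine ⟨⟨φ, ?_⟩, ?_⟩
    · intro v
      have ha : ((resT T w₀ v : ↥w₀.1) : V) + ((φ (resT T w₀ v) : ↥A.1) : V) ∈ w.1 := hφ _
      have hb : ((resT T w₀ v : ↥w₀.1) : V) + ((resT T A (φ v) : ↥A.1) : V) ∈ w.1 := by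
        have := w.2 (hφ v)
        rw [Submodule.mem_comap, map_add] at this
        exact this
      have hd : ((φ (resT T w₀ v) : ↥A.1) : V) - ((resT T A (φ v) : ↥A.1) : V) ∈
          w.1 ⊓ A.1 := by
        refine Submodule.mem_inf.2 ⟨?_, A.1.sub_mem (Subtype.mem _) (Subtype.mem _)⟩
        have : ((φ (resT T w₀ v) : ↥A.1) : V) - ((resT T A (φ v) : ↥A.1) : V) =
            (((resT T w₀ v : ↥w₀.1) : V) + ((φ (resT T w₀ v) : ↥A.1) : V)) -
              (((resT T w₀ v : ↥w₀.1) : V) + ((resT T A (φ v) : ↥A.1) : V)) := by abel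
        rw [this]
        exact w.1.sub_mem ha hb
      rw [hwA, Submodule.mem_bot, sub_eq_zero] at hd
      exact Subtype.ext hd
    · apply Subtype.ext
      apply Subtype.ext
      exact hgr
  exact (Nat.card_congr (Equiv.ofBijective Ψ ⟨hΨinj, hΨsurj⟩)).symm

end inv

end Cfsg.Agent.H65.Sv
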