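import Mathlib
import Cfsg.Agent.H78.SvDefs

/-!
# S2425-HOMEQ (helper65, for helper78): for atoms `A`, `B` of the lattice of `T`-invariant
subspaces with the same characteristic polynomial, `|Hom_T(B, A)| = |F| ^ deg (cp A)`.

`B` is cyclic: `v, T v, …, T^(d-1) v` is a basis for any `v ≠ 0` (`d = dim B`), and an equivariant
map is determined by the image of `v`, which is arbitrary (Cayley–Hamilton on `A`).
-/

set_option autoImplicit false

namespace Cfsg.Agent.H65.Sv

open Cfsg.Agent.H78.Sv
open scoped MatrixGroups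

section inv

variable {F : Type*} [Field F] {V : Type*} [AddCommGroup V] [Module F V] [FiniteDimensional F V]

omit [FiniteDimensional F V] in
/-- Cayley–Hamilton, applied to a vector. -/
theorem pow_natDegree_apply {M : Type*} [AddCommGroup M] [Module F M] [FiniteDimensional F M]
    (S : Module.End F M) (x : M) :
    (S ^ S.charpoly.natDegree) x =
      - ∑ i ∈ Finset.range S.charpoly.natDegree, S.charpoly.coeff i • (S ^ i) x := by
  have h := LinearMap.aeval_self_charpoly S
  rw [Polynomial.aeval_eq_sum_range, Finset.sum_range_succ] at h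
  have hm : S.charpoly.coeff S.charpoly.natDegree = 1 :=
    (LinearMap.charpoly_monic S).coeff_natDegree
  rw [hm, one_smul] at h
  have h2 := congrArg (fun g : Module.End F M => g x) h
  simp only [LinearMap.add_apply, LinearMap.sum_apply, LinearMap.smul_apply,
    LinearMap.zero_apply] at h2
  rw [eq_neg_iff_add_eq_zero, add_comm]
  exact h2

/-- An atom is cyclic: the first `dim B` iterates of a nonzero vector span it. -/
theorem span_pow_eq_top (T : Module.End F V) (B : ↥(Module.End.invtSubmodule T)) (hB : IsAtom B)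
    (v₀ : ↥B.1) (hv₀ : v₀ ≠ 0) :
    Submodule.span F (Set.range
      (fun k : Fin (Module.finrank F ↥B.1) => ((resT T B) ^ (k : ℕ)) v₀)) = ⊤ := by
  set d := Module.finrank F ↥B.1 with hd
  have hdB : (resT T B).charpoly.natDegree = d := LinearMap.charpoly_natDegree _
  have hdpos : 0 < d := Module.finrank_pos_iff_exists_ne_zero.2 ⟨v₀, hv₀⟩
  set S : Submodule F ↥B.1 := Submodule.span F (Set.range
      (fun k : Fin d => ((resT T B) ^ (k : ℕ)) v₀)) with hS
  have hmem : ∀ i, i < d → ((resT T B) ^ i) v₀ ∈ S := fun i hi =>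
    Submodule.subset_span ⟨⟨i, hi⟩, rfl⟩
  have hinv : S ≤ S.comap (resT T B) := by
    rw [hS, Submodule.span_le]
    rintro _ ⟨k, rfl⟩
    rw [SetLike.mem_coe, Submodule.mem_comap]
    show resT T B (((resT T B) ^ (k : ℕ)) v₀) ∈ S
    rw [← Module.End.mul_apply, ← pow_succ']
    by_cases hk : (k : ℕ) + 1 < d
    · exact hmem _ hk
    · have hkd : (k : ℕ) + 1 = d := by have := k.2; omega
      rw [hkd, ← hdB, pow_natDegree_apply, hdB]
      refine S.neg_mem (S.sum_mem fun i hi => S.smul_mem _ (hmem i (Finset.mem_range.1 hi)))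
  let S' : Submodule F V := S.map B.1.subtype
  have hS'inv : S' ∈ Module.End.invtSubmodule T := by
    rw [Module.End.mem_invtSubmodule]
    rintro _ ⟨u, hu, rfl⟩
    rw [Submodule.mem_comap]
    exact ⟨resT T B u, hinv hu, rfl⟩
  have hS'le : (⟨S', hS'inv⟩ : ↥(Module.End.invtSubmodule T)) ≤ B := by
    show S' ≤ B.1
    rintro _ ⟨u, -, rfl⟩
    exact u.2
  have hS'ne : (⟨S', hS'inv⟩ : ↥(Module.End.invtSubmodule T)) ≠ ⊥ := by
    intro h
    have h' : S' = ⊥ := congrArg Subtype.val h
    have hv : (v₀ : V) ∈ S' := ⟨v₀, by simpa using hmem 0 hdpos, rfl⟩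
    rw [h', Submodule.mem_bot] at hv
    exact hv₀ (Subtype.ext hv)
  have hS'B : S' = B.1 := by
    rcases hB.le_iff.1 hS'le with h | h
    · exact absurd h hS'ne
    · exact congrArg Subtype.val h
  rw [eq_top_iff]
  intro u _
  have hu : (u : V) ∈ S' := by rw [hS'B]; exact u.2
  obtain ⟨u', hu', huu⟩ := hu
  have : u' = u := Subtype.ext huu
  rw [← this]
  exact hu'

theorem card_homT_of_eq [Finite F] (T : Module.End F V) (A B : ↥(Module.End.invtSubmodule T))
    (hA : IsAtom A) (hB : IsAtom B) (h : cp T B = cp T A) :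
    Nat.card (HomT T B A) = Nat.card F ^ (cp T A).natDegree := by
  classical
  set d := Module.finrank F ↥B.1 with hd
  have hdB : (resT T B).charpoly.natDegree = d := LinearMap.charpoly_natDegree _
  have hdA : (resT T A).charpoly.natDegree = Module.finrank F ↥A.1 :=
    LinearMap.charpoly_natDegree _
  have hcp : (resT T B).charpoly = (resT T A).charpoly := h
  have hBne : B.1 ≠ ⊥ := fun hb => hB.1 (Subtype.ext hb)
  obtain ⟨x, hxB, hx0⟩ := Submodule.exists_mem_ne_zero_of_ne_bot hBne
  let v₀ : ↥B.1 := ⟨x, hxB⟩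
  have hv₀ : v₀ ≠ 0 := fun h0 => hx0 (congrArg Subtype.val h0)
  have hdpos : 0 < d := Module.finrank_pos_iff_exists_ne_zero.2 ⟨v₀, hv₀⟩
  let b : Fin d → ↥B.1 := fun k => ((resT T B) ^ (k : ℕ)) v₀
  have hspan : ⊤ ≤ Submodule.span F (Set.range b) := (span_pow_eq_top T B hB v₀ hv₀).ge
  let bas := basisOfTopLeSpanOfCardEqFinrank b hspan (by simp [hd])
  have hbas : ∀ k, bas k = b k := fun k => by
    rw [coe_basisOfTopLeSpanOfCardEqFinrank]
  let ev : HomT T B A → ↥A.1 := fun φ => φ.1 v₀
  have hpow : ∀ (φ : HomT T B A) (k : ℕ),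
      φ.1 (((resT T B) ^ k) v₀) = ((resT T A) ^ k) (φ.1 v₀) := by
    intro φ k
    induction k with
    | zero => simp
    | succ k ih =>
      rw [pow_succ', pow_succ', Module.End.mul_apply, Module.End.mul_apply, φ.2, ih]
  have hinj : Function.Injective ev := by
    intro φ ψ hφψ
    apply Subtype.ext
    apply bas.ext
    intro k
    rw [hbas]
    show φ.1 (((resT T B) ^ (k : ℕ)) v₀) = ψ.1 (((resT T B) ^ (k : ℕ)) v₀)
    rw [hpow, hpow]
    exact congrArg _ hφψ
  have hsurj : Function.Surjective ev := by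
    intro a
    let φ : ↥B.1 →ₗ[F] ↥A.1 := bas.constr F (fun k : Fin d => ((resT T A) ^ (k : ℕ)) a)
    have hφb : ∀ k : Fin d, φ (b k) = ((resT T A) ^ (k : ℕ)) a := by
      intro k
      rw [← hbas, Module.Basis.constr_basis]
    have hφi : ∀ i, i < d → φ (((resT T B) ^ i) v₀) = ((resT T A) ^ i) a :=
      fun i hi => hφb ⟨i, hi⟩
    have hcomm : φ ∘ₗ (resT T B) = (resT T A) ∘ₗ φ := by
      apply bas.ext
      intro k
      rw [hbas]
      simp only [LinearMap.comp_apply]
      rw [hφb]
      show φ (resT T B (((resT T B) ^ (k : ℕ)) v₀)) = resT T A (((resT T A) ^ (k : ℕ)) a)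
      rw [← Module.End.mul_apply, ← pow_succ', ← Module.End.mul_apply, ← pow_succ']
      by_cases hk : (k : ℕ) + 1 < d
      · exact hφi _ hk
      · have hkd : (k : ℕ) + 1 = d := by have := k.2; omega
        have e1 := pow_natDegree_apply (resT T B) v₀
        have e2 := pow_natDegree_apply (resT T A) a
        rw [← hcp, hdB] at e2
        rw [hdB] at e1
        rw [hkd, e1, e2, map_neg, map_sum]
        congr 1
        apply Finset.sum_congr rfl
        intro i hi
        rw [map_smul, hφi i (Finset.mem_range.1 hi)]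
    refine ⟨⟨φ, fun u => LinearMap.congr_fun hcomm u⟩, ?_⟩
    show φ v₀ = a
    have := hφi 0 hdpos
    simpa using this
  have hbij : Function.Bijective ev := ⟨hinj, hsurj⟩
  rw [Nat.card_congr (Equiv.ofBijective ev hbij), Module.natCard_eq_pow_finrank (K := F)]
  congr 1
  exact hdA.symm

end inv

end Cfsg.Agent.H65.Sv
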