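import Mathlib
import Cfsg.Prelude
import Cfsg.Agent.H58.KUDefs
import Cfsg.Agent.H58.BG10All2
import Cfsg.Agent.H54.BG161Tau

set_option autoImplicit false
set_option linter.style.haveILetI false
set_option linter.unusedVariables false

/-!
# Z-CASES (helper58's sub-project Z, S1353 / S1354)

The primes of a complement `E` of `M_σ` in `M` lie in `τ₁(M) ∪ τ₂(M) ∪ τ₃(M)`; this is the landed
`Cfsg.Agent.H54.BG161.tauCases`, wired to the exact Prop `StZCases`.
-/

namespace Cfsg.Agent.H65.KU

open Cfsg Subgroup Cfsg.Agent.H58.KU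

universe u

theorem zCases {G : Type u} [Group G] [Finite G] : StZCases G := by
  intro hG M E hM hE q hq hqE
  have h50 := Cfsg.Agent.H58.BG10.st1350 hG
  have h03 := Cfsg.Agent.H58.BG10.st1403 hG
  have hTau := Cfsg.Agent.H54.BG161.tauCases hG h50 h03
  rcases hTau M hM E hE q hq hqE with (h | h) | h
  · exact Or.inl h
  · exact Or.inr (Or.inl h)
  · exact Or.inr (Or.inr h)

end Cfsg.Agent.H65.KU

universe u in
example {G : Type u} [Group G] [Finite G] : Cfsg.Agent.H58.KU.StZCases G :=
  Cfsg.Agent.H65.KU.zCases
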